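import Mathlib
import Cfsg.Agent.Lib.Helper25.BrauerPerm
import Cfsg.Agent.Lib.Helper7.CharComplete

set_option autoImplicit false

namespace Cfsg.Agent.Lib.Helper11

open Cfsg Cfsg.Agent.Lib.Helper7

variable {M : Type*} [Group M] [Finite M] (H : Subgroup M) [hN : H.Normal]

/-- Consequence of Brauer's permutation lemma: an element `x` fixes a non-principal irreducible
character of the normal subgroup `H` iff it fixes a non-identity conjugacy class of `H`. -/
theorem exists_fixed_irr_iff (x : M) :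
    (∃ θ : H → ℂ, IsIrrCharacter H θ ∧ θ ≠ (fun _ => 1) ∧
      (fun h : H => θ ⟨x * h * x⁻¹, hN.conj_mem h h.2 x⟩) = θ) ↔
    ∃ h ∈ H, h ≠ 1 ∧ ∃ m ∈ H, x * h * x⁻¹ = m * h * m⁻¹ := by
  classical
  let α : H ≃* H := MulAut.conjNormal x
  have hα : ∀ h : H, α h = ⟨x * h * x⁻¹, hN.conj_mem h h.2 x⟩ := fun h =>
    Subtype.ext (MulAut.conjNormal_apply x h)
  have hb := Cfsg.Agent.Lib.Helper25.brauer_permutation α
  have : Finite (IrrCharacter H) := finite_irrCharacter
  let c₀ : {C : ConjClasses H // ConjClasses.map α.toMonoidHom C = C} :=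
    ⟨ConjClasses.mk 1, by
      change ConjClasses.mk (α 1) = ConjClasses.mk 1
      rw [map_one]⟩
  let χ₀ : {χ : IrrCharacter H // (χ : H → ℂ) ∘ α = (χ : H → ℂ)} :=
    ⟨⟨fun _ => 1, isIrrCharacter_one⟩, rfl⟩
  have h1 : (∃ θ : H → ℂ, IsIrrCharacter H θ ∧ θ ≠ (fun _ => 1) ∧
      (fun h : H => θ ⟨x * h * x⁻¹, hN.conj_mem h h.2 x⟩) = θ) ↔
      1 < Nat.card {χ : IrrCharacter H // (χ : H → ℂ) ∘ α = (χ : H → ℂ)} := by
    rw [Finite.one_lt_card_iff_nontrivial]
    constructor
    · rintro ⟨θ, hθ, hne, hfix⟩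
      refine nontrivial_of_ne ⟨⟨θ, hθ⟩, ?_⟩ χ₀ ?_
      · funext h
        simp only [Function.comp_apply, hα]
        exact congrFun hfix h
      · intro h
        apply hne
        exact congrArg (fun z => (z.1 : H → ℂ)) h
    · intro hnt
      obtain ⟨⟨⟨θ, hθ⟩, hfix⟩, hne⟩ := exists_ne χ₀
      refine ⟨θ, hθ, ?_, ?_⟩
      · intro h
        apply hne
        apply Subtype.ext
        apply Subtype.ext
        exact h
      · funext h
        have := congrFun hfix h
        simp only [Function.comp_apply, hα] at this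
        exact this
  have h2 : (∃ h ∈ H, h ≠ 1 ∧ ∃ m ∈ H, x * h * x⁻¹ = m * h * m⁻¹) ↔
      1 < Nat.card {C : ConjClasses H // ConjClasses.map α.toMonoidHom C = C} := by
    rw [Finite.one_lt_card_iff_nontrivial]
    constructor
    · rintro ⟨h, hh, hne, m, hm, he⟩
      refine nontrivial_of_ne ⟨ConjClasses.mk ⟨h, hh⟩, ?_⟩ c₀ ?_
      · change ConjClasses.mk (α ⟨h, hh⟩) = ConjClasses.mk ⟨h, hh⟩
        rw [ConjClasses.mk_eq_mk_iff_isConj, isConj_comm, isConj_iff]
        refine ⟨⟨m, hm⟩, ?_⟩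
        rw [hα]
        apply Subtype.ext
        simp only [Subgroup.coe_mul, Subgroup.coe_inv]
        exact he.symm
      · intro h'
        have h3 : ConjClasses.mk (⟨h, hh⟩ : H) = ConjClasses.mk 1 := congrArg Subtype.val h'
        rw [ConjClasses.mk_eq_mk_iff_isConj, isConj_comm, isConj_one_right] at h3
        exact hne (congrArg Subtype.val h3)
    · intro hnt
      obtain ⟨⟨C, hfix⟩, hne⟩ := exists_ne c₀
      obtain ⟨⟨h, hh⟩, rfl⟩ := ConjClasses.exists_rep C
      change ConjClasses.mk (α ⟨h, hh⟩) = ConjClasses.mk ⟨h, hh⟩ at hfix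
      rw [ConjClasses.mk_eq_mk_iff_isConj, isConj_comm, isConj_iff] at hfix
      obtain ⟨⟨m, hm⟩, he⟩ := hfix
      refine ⟨h, hh, ?_, m, hm, ?_⟩
      · rintro rfl
        exact hne rfl
      · rw [hα] at he
        have := congrArg Subtype.val he
        simp only [Subgroup.coe_mul, Subgroup.coe_inv] at this
        exact this.symm
  rw [h1, h2, hb]

end Cfsg.Agent.Lib.Helper11
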