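import Mathlib
import Cfsg.Agent.Lib.Helper11.ChainBase2
set_option autoImplicit false
set_option maxRecDepth 100000
namespace Cfsg.Agent.Lib.Helper11
open Cfsg Cfsg.Agent.Lib.Helper3
theorem co3h_hg : chkGens8 chH 1 co3Ts = true := by decide +kernel
end Cfsg.Agent.Lib.Helper11
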