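import Mathlib
import Cfsg.Agent.Lib.Helper11.Widen

set_option autoImplicit false
set_option exponentiation.threshold 20000

namespace Cfsg.Agent.Lib.Helper11

open Cfsg Cfsg.Agent.Lib.Helper3
open scoped Pointwise
open Matrix

/-- two lattice vectors in the same orbit of the pointwise stabiliser of a set of vectors. -/
def RelB (B : Set (GolayPt → ℤ)) (x y : GolayPt → ℤ) : Prop :=
  ∃ (hx : x ∈ leechLattice) (hy : y ∈ leechLattice) (g : ↥Co0),
    (∀ b (hb : b ∈ leechLattice), b ∈ B → g • (⟨b, hb⟩ : ↥leechLattice) = ⟨b, hb⟩) ∧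
      g • (⟨x, hx⟩ : ↥leechLattice) = ⟨y, hy⟩

theorem RelB.refl (B : Set (GolayPt → ℤ)) {x : GolayPt → ℤ} (hx : x ∈ leechLattice) : RelB B x x :=
  ⟨hx, hx, 1, fun _ _ _ => one_smul _ _, one_smul _ _⟩

theorem RelB.symm {B : Set (GolayPt → ℤ)} {x y : GolayPt → ℤ} (h : RelB B x y) : RelB B y x := by
  obtain ⟨hx, hy, g, hB, hg⟩ := h
  refine ⟨hy, hx, g⁻¹, fun b hb hbB => ?_, by rw [← hg, inv_smul_smul]⟩
  rw [inv_smul_eq_iff, hB b hb hbB]

theorem RelB.trans {B : Set (GolayPt → ℤ)} {x y z : GolayPt → ℤ} (h : RelB B x y)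
    (h' : RelB B y z) : RelB B x z := by
  obtain ⟨hx, hy, g, hB, hg⟩ := h
  obtain ⟨_, hz, g', hB', hg'⟩ := h'
  exact ⟨hx, hz, g' * g, fun b hb hbB => by rw [mul_smul, hB b hb hbB, hB' b hb hbB],
    by rw [mul_smul, hg, hg']⟩

theorem RelB.sqNorm_eq {B : Set (GolayPt → ℤ)} {x y : GolayPt → ℤ} (h : RelB B x y) :
    sqNorm y = sqNorm x := by
  obtain ⟨hx, hy, g, _, hg⟩ := h
  have := Co0_sqNorm g ⟨x, hx⟩
  rw [hg] at this
  exact this

theorem RelB.dot_eq {B : Set (GolayPt → ℤ)} {x y : GolayPt → ℤ} (h : RelB B x y)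
    {b : GolayPt → ℤ} (hb : b ∈ leechLattice) (hbB : b ∈ B) : dotInt b y = dotInt b x := by
  obtain ⟨hx, hy, g, hB, hg⟩ := h
  have := Co0_dot g ⟨b, hb⟩ ⟨x, hx⟩
  rw [hg, hB b hb hbB] at this
  exact this

/-- entries of the generator with index `d`. -/
def eSel (Ts : List ℕ) (d : ℕ) : ℕ → ℕ → ℕ :=
  bif Nat.testBit d 0 then (fun i j => ent (Ts.getD (Nat.shiftRight d 1) 0) j i)
  else (fun i j => ent (Ts.getD (Nat.shiftRight d 1) 0) i j)

theorem eSel_le (Ts : List ℕ) (d i j : ℕ) : eSel Ts d i j ≤ 31 := by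
  unfold eSel
  cases Nat.testBit d 0
  · exact ent_le _ _ _
  · exact ent_le _ _ _

/-- one step of the descent. -/
def stepOK (Ts : List ℕ) (rk : ℕ → ℕ) (n0 n : ℕ) : Bool :=
  Nat.beq n n0 || force (Nat.land (rk n) 15) fun d =>
    Nat.blt (Nat.shiftRight (rk (imgN (TWF (eSel Ts d)) (convW (TWF (eSel Ts d)) ONEW) (widen n)
      (conv 24 ONE24 n))) 4) (Nat.shiftRight (rk n) 4)

/-- test of a generator. -/
def chkGen (Tb R T : ℕ) : Bool :=
  chkT T && (List.range R).all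
    (fun r => chkFix (TWF (ent T)) (convW (TWF (ent T)) ONEW) (bvec Tb r))

/-- test of the eight generators. -/
def chkGens8 (Tb R : ℕ) (Ts : List ℕ) : Bool := (List.range 8).all (fun k => chkGen Tb R (Ts.getD k 0))

/-- the base vectors. -/
def baseSet (Tb R : ℕ) : Set (GolayPt → ℤ) := {b | ∃ r < R, b = bvec Tb r}

theorem gen_rel {Tb R : ℕ} {Ts : List ℕ} (h : chkGens8 Tb R Ts = true) {d : ℕ} (hd : d < 16)
    {w : GolayPt → ℤ} (hw : w ∈ leechLattice) :
    GoodM (Mz (eSel Ts d)) ∧ RelB (baseSet Tb R) w (mAct (Mz (eSel Ts d)) w) := by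
  unfold chkGens8 at h
  rw [List.all_eq_true] at h
  have hk : Nat.shiftRight d 1 < 8 := by
    show d >>> 1 < 8
    rw [Nat.shiftRight_eq_div_pow]; omega
  have h1 := h _ (List.mem_range.2 hk)
  unfold chkGen at h1
  rw [Bool.and_eq_true, List.all_eq_true] at h1
  obtain ⟨h2, h3⟩ := h1
  set T := Ts.getD (Nat.shiftRight d 1) 0 with hT
  have good := chkT_sound h2
  have fix1 : ∀ b ∈ baseSet Tb R, mAct (Mz (ent T)) b = b := by
    rintro b ⟨r, hr, rfl⟩
    have := h3 r (List.mem_range.2 hr)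
    rw [TWF_eq, convW_EE _ (ent_le T)] at this
    exact chkFix_sound _ (ent_le T) this
  have key : ∀ M : Matrix GolayPt GolayPt ℤ, GoodM M →
      (∀ b ∈ baseSet Tb R, b ∈ leechLattice → mAct M b = b) →
      RelB (baseSet Tb R) w (mAct M w) := by
    intro M hM hfix
    exact ⟨hw, (hM.map1 hw).2.2, matCo0 M hM,
      fun b hb hbB => Subtype.ext (hfix b hbB hb), rfl⟩
  unfold eSel
  cases Nat.testBit d 0
  · exact ⟨good, key _ good (fun b hb _ => fix1 b hb)⟩
  · have e : Mz (fun i j => ent T j i) = (Mz (ent T))ᵀ := rfl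
    simp only [cond_true]
    rw [← hT, e]
    refine ⟨good.transpose, key _ good.transpose (fun b hb hbL => ?_)⟩
    have := mAct_mAct good hbL
    rwa [fix1 b hb] at this

/-- the descent argument. -/
theorem descent_main {Tb R : ℕ} {Ts : List ℕ} (hg : chkGens8 Tb R Ts = true)
    (hb : ∀ r < R, bvec Tb r ∈ leechLattice) (t : ℕ → ℤ) (rk : ℕ → ℕ) (n0 : ℕ)
    (hstep : ∀ w ∈ leechLattice, sqNorm w = 32 → (∀ r < R, dotInt (bvec Tb r) w = t r) →
      stepOK Ts rk n0 (encV w) = true)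
    {w w' : GolayPt → ℤ} (hw : w ∈ leechLattice) (hn : sqNorm w = 32)
    (hP : ∀ r < R, dotInt (bvec Tb r) w = t r) (hw' : w' ∈ leechLattice) (hn' : sqNorm w' = 32)
    (hP' : ∀ r < R, dotInt (bvec Tb r) w' = t r) : RelB (baseSet Tb R) w w' := by
  have main : ∀ N : ℕ, ∀ w ∈ leechLattice, sqNorm w = 32 →
      (∀ r < R, dotInt (bvec Tb r) w = t r) → Nat.shiftRight (rk (encV w)) 4 = N →
      ∃ z, RelB (baseSet Tb R) w z ∧ encV z = n0 := by
    intro N
    induction N using Nat.strong_induction_on with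
    | _ N ih =>
      intro w hw hn hP hN
      have h1 := hstep w hw hn hP
      unfold stepOK at h1
      rw [Bool.or_eq_true, force_eq] at h1
      rcases h1 with h1 | h1
      · exact ⟨w, RelB.refl _ hw, Nat.eq_of_beq_eq_true h1⟩
      · set d := Nat.land (rk (encV w)) 15 with hd
        have hd16 : d < 16 := lt_of_le_of_lt Nat.and_le_right (by norm_num)
        obtain ⟨good, rel⟩ := gen_rel hg hd16 hw
        have hr := inR_of_32 hn
        have hn2 : sqNorm (mAct (Mz (eSel Ts d)) w) = 32 := by rw [rel.sqNorm_eq, hn]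
        rw [TWF_eq, convW_EE _ (eSel_le Ts d), widen_encV hr, conv24_ONE hr,
          imgN_eq _ (eSel_le Ts d) hr (good.map1 hw).2.1 (inR_of_32 hn2), Nat.blt_eq, hN] at h1
        obtain ⟨z, hz1, hz2⟩ := ih _ h1 _ rel.2.1 hn2
          (fun r hr' => by rw [rel.dot_eq (hb r hr') ⟨r, hr', rfl⟩, hP r hr']) rfl
        exact ⟨z, rel.trans hz1, hz2⟩
  obtain ⟨z, hz1, hz2⟩ := main _ w hw hn hP rfl
  obtain ⟨z', hz1', hz2'⟩ := main _ w' hw' hn' hP' rfl
  have : z = z' := by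
    apply encV_inj (inR_of_32 (by rw [hz1.sqNorm_eq, hn])) (inR_of_32 (by rw [hz1'.sqNorm_eq, hn']))
    rw [hz2, hz2']
  rw [← this] at hz1'
  exact hz1.trans hz1'.symm

/-- test of all the inner products. -/
def condAll (Tb R : ℕ) (tts : ℕ → ℕ) (n : ℕ) : Bool := (List.range R).all (fun r => condR Tb r (tts r) n)

theorem condAll_iff {Tb R : ℕ} (hR : R ≤ 24) {tts : ℕ → ℕ} {t : ℕ → ℤ}
    (htt : ∀ r < R, (tts r : ℤ) = 8 * (rowE Tb r : ℤ) + t r + 2560) {w : GolayPt → ℤ} (hw : InR w) :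
    condAll Tb R tts (encV w) = true ↔ ∀ r < R, dotInt (bvec Tb r) w = t r := by
  unfold condAll
  rw [List.all_eq_true]
  constructor
  · intro h r hr
    exact (condR_iff Tb (by omega) (htt r hr) hw).1 (h r (List.mem_range.2 hr))
  · intro h r hr
    rw [List.mem_range] at hr
    exact (condR_iff Tb (by omega) (htt r hr) hw).2 (h r hr)

/-- test of the constants. -/
def chkTT (Tb R : ℕ) (tts : ℕ → ℕ) (t : ℕ → ℤ) : Bool :=
  (List.range R).all (fun r => decide ((tts r : ℤ) = 8 * (rowE Tb r : ℤ) + t r + 2560) &&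
    isLeech (bvec Tb r))

theorem chkTT_sound {Tb R : ℕ} {tts : ℕ → ℕ} {t : ℕ → ℤ} (h : chkTT Tb R tts t = true) :
    (∀ r < R, (tts r : ℤ) = 8 * (rowE Tb r : ℤ) + t r + 2560) ∧
      ∀ r < R, bvec Tb r ∈ leechLattice := by
  unfold chkTT at h
  simp only [List.all_eq_true, List.mem_range, Bool.and_eq_true, decide_eq_true_eq] at h
  exact ⟨fun r hr => (h r hr).1, fun r hr => isLeech_sound (h r hr).2⟩

/-- transitivity from a kernel computation. -/
theorem descent_of_check {Tb R : ℕ} {Ts : List ℕ} (hR : R ≤ 24) (hg : chkGens8 Tb R Ts = true)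
    {tts : ℕ → ℕ} {t : ℕ → ℤ} (htt : chkTT Tb R tts t = true) (rk : ℕ → ℕ) (n0 : ℕ)
    (hall : allL2 (fun n => bif condAll Tb R tts n then stepOK Ts rk n0 n else true) = true)
    {w w' : GolayPt → ℤ} (hw : w ∈ leechLattice) (hn : sqNorm w = 32)
    (hP : ∀ r < R, dotInt (bvec Tb r) w = t r) (hw' : w' ∈ leechLattice) (hn' : sqNorm w' = 32)
    (hP' : ∀ r < R, dotInt (bvec Tb r) w' = t r) : RelB (baseSet Tb R) w w' := by
  obtain ⟨h1, h2⟩ := chkTT_sound htt
  apply descent_main hg h2 t rk n0 _ hw hn hP hw' hn' hP'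
  intro x hx hxn hxP
  have := allL2_sound hall hx hxn
  rwa [(condAll_iff hR h1 (inR_of_32 hxn)).2 hxP, cond_true] at this

/-- counting from a kernel computation. -/
theorem count_of_check {Tb R : ℕ} (hR : R ≤ 24) {tts : ℕ → ℕ} {t : ℕ → ℤ}
    (htt : chkTT Tb R tts t = true) :
    {w : GolayPt → ℤ | w ∈ leechLattice ∧ sqNorm w = 32 ∧
      ∀ r < R, dotInt (bvec Tb r) w = t r}.ncard = cntL2 (condAll Tb R tts) := by
  rw [← ncard_L2]
  congr 1
  ext w
  constructor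
  · rintro ⟨h1, h2, h3⟩
    exact ⟨h1, h2, (condAll_iff hR (chkTT_sound htt).1 (inR_of_32 h2)).2 h3⟩
  · rintro ⟨h1, h2, h3⟩
    exact ⟨h1, h2, (condAll_iff hR (chkTT_sound htt).1 (inR_of_32 h2)).1 h3⟩

/-- rank and direction from a perfect hash table. -/
def rkF (TBL DISP p1 p2 M n : ℕ) : ℕ :=
  Nat.land (Nat.shiftRight TBL (Nat.mul 8 (Nat.mod (Nat.add (Nat.mod n p2)
    (Nat.land (Nat.shiftRight DISP (Nat.mul 20 (Nat.mod n p1))) 0xFFFFF)) M))) 255

end Cfsg.Agent.Lib.Helper11
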