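import Mathlib
import Cfsg.Agent.Lib.Helper11.Descent

set_option autoImplicit false

namespace Cfsg.Agent.Lib.Helper11

open Cfsg Cfsg.Agent.Lib.Helper3
open scoped Pointwise

theorem allRange_of_forall (p : ℕ → Bool) (k lo : ℕ) (h : ∀ c, lo ≤ c → c < lo + 2 ^ k → p c = true) :
    allRange p k lo = true := by
  induction k generalizing lo with
  | zero => exact h lo le_rfl (by simp)
  | succ k ih =>
    rw [allRange, Bool.and_eq_true]
    constructor
    · exact ih lo (fun c h1 h2 => h c h1 (by rw [pow_succ]; omega))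
    · apply ih
      intro c h1 h2
      have h1' : lo + 2 ^ k ≤ c := h1
      have h2' : c < lo + 2 ^ k + 2 ^ k := h2
      exact h c (by omega) (by rw [pow_succ]; omega)

theorem allRange_split (p : ℕ → Bool) (h : ∀ i < 16, allRange p 8 (256 * i) = true) :
    allRange p 12 0 = true := by
  apply allRange_of_forall
  intro c _ hc
  have hc' : c < 4096 := by simpa using hc
  exact allRange_spec p 8 (256 * (c / 256)) (h _ (by omega)) c (by omega) (by norm_num; omega)

theorem sumRange_eq (f : ℕ → ℕ) (k lo : ℕ) :
    sumRange f k lo = ∑ c ∈ Finset.Ico lo (lo + 2 ^ k), f c := by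
  induction k generalizing lo with
  | zero => simp [sumRange]
  | succ k ih =>
    rw [sumRange, ih, ih]
    show _ + ∑ c ∈ Finset.Ico (lo + 2 ^ k) (lo + 2 ^ k + 2 ^ k), f c = _
    rw [Finset.sum_Ico_consecutive _ (Nat.le_add_right _ _) (Nat.le_add_right _ _)]
    congr 2
    rw [pow_succ]; ring

theorem sumRange_split (f : ℕ → ℕ) :
    sumRange f 12 0 = ∑ i ∈ Finset.range 16, sumRange f 8 (256 * i) := by
  simp only [sumRange_eq]
  have : ∀ n, ∑ i ∈ Finset.range n, ∑ c ∈ Finset.Ico (256 * i) (256 * i + 2 ^ 8), f c =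
      ∑ c ∈ Finset.Ico 0 (256 * n), f c := by
    intro n
    induction n with
    | zero => simp
    | succ n ih =>
      rw [Finset.sum_range_succ, ih, Finset.sum_Ico_consecutive _ (Nat.zero_le _) (by omega)]
      congr 2
  rw [this]
  norm_num

/-- a part of the universal test. -/
def allPart (Q : ℕ → Bool) (lo : ℕ) : Bool :=
  allRange (fun c => force (encF c) fun m =>
      allRange (fun j => bif Nat.blt j 24 then Q (oddW (oddU m) m j) else true) 5 0) 8 lo &&
    allRange (fun c => force (encF c) fun o =>
      bif Nat.beq (pcF o) 8 then forceL (bitsL o) fun ps => allT Q ps false (octU o) else true) 8 lo &&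
    allRange (fun p => (g3 p).all Q) 8 lo

theorem allL2_of_parts {Q : ℕ → Bool} (h : ∀ i < 16, allPart Q (256 * i) = true) :
    allL2 Q = true := by
  unfold allL2
  simp only [allPart, Bool.and_eq_true] at h
  rw [Bool.and_eq_true, Bool.and_eq_true]
  exact ⟨⟨allRange_split _ (fun i hi => (h i hi).1.1), allRange_split _ (fun i hi => (h i hi).1.2)⟩,
    allRange_split _ (fun i hi => (h i hi).2)⟩

/-- a part of the count. -/
def cntPart (Q : ℕ → Bool) (lo : ℕ) : ℕ :=
  Nat.add (Nat.add
    (sumRange (fun c => force (encF c) fun m =>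
      sumRange (fun j => bif Nat.blt j 24 then (bif Q (oddW (oddU m) m j) then 1 else 0) else 0) 5 0) 8 lo)
    (sumRange (fun c => force (encF c) fun o =>
      bif Nat.beq (pcF o) 8 then forceL (bitsL o) fun ps => sumT Q ps false (octU o) else 0) 8 lo))
    (sumRange (fun p => (g3 p).countP Q) 8 lo)

theorem cntL2_parts (Q : ℕ → Bool) : cntL2 Q = ∑ i ∈ Finset.range 16, cntPart Q (256 * i) := by
  unfold cntL2 cntPart
  simp only [Nat.add_eq]
  rw [Finset.sum_add_distrib, Finset.sum_add_distrib, ← sumRange_split, ← sumRange_split,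
    ← sumRange_split]

end Cfsg.Agent.Lib.Helper11
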