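import Mathlib
import Cfsg.Agent.Lib.Helper11.L2Parts

set_option autoImplicit false

namespace Cfsg.Agent.Lib.Helper11

open Cfsg Cfsg.Agent.Lib.Helper3

theorem cntL2_of_parts {Q : ℕ → Bool} {f : ℕ → ℕ} (h : ∀ i < 16, cntPart Q (256 * i) = f i) :
    cntL2 Q = ∑ i ∈ Finset.range 16, f i := by
  rw [cntL2_parts]
  exact Finset.sum_congr rfl (fun i hi => h i (Finset.mem_range.1 hi))

end Cfsg.Agent.Lib.Helper11
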