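import Mathlib
import Cfsg.Agent.Lib.Helper3.OctStab

set_option autoImplicit false

namespace Cfsg.Agent.Lib.Helper11

open Cfsg Cfsg.Agent.Lib.Helper3
open scoped Pointwise

/-- the pair formed by a set and its complement. -/
def pairOf (e : Finset GolayPt) : Finset (Finset GolayPt) := {e, eᶜ}

theorem smul_compl (g : Equiv.Perm GolayPt) (e : Finset GolayPt) : g • eᶜ = (g • e)ᶜ := by
  ext p
  rw [Finset.mem_compl, ← Finset.inv_smul_mem_iff, ← Finset.inv_smul_mem_iff, Finset.mem_compl]

theorem smul_pairOf (g : Equiv.Perm GolayPt) (e : Finset GolayPt) :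
    g • pairOf e = pairOf (g • e) := by
  unfold pairOf
  rw [Finset.smul_finset_insert, Finset.smul_finset_singleton, smul_compl]

theorem pairOf_eq_iff (e e' : Finset GolayPt) : pairOf e = pairOf e' ↔ e' = e ∨ e' = eᶜ := by
  unfold pairOf
  constructor
  · intro h
    have : e' ∈ ({e, eᶜ} : Finset (Finset GolayPt)) := by rw [h]; simp
    simpa using this
  · rintro (rfl | rfl)
    · rfl
    · rw [compl_compl, Finset.pair_comm]

theorem univ_mem_CS : (Finset.univ : Finset GolayPt) ∈ CS := by
  rw [mem_supports_iff, mask_univ]; decide +kernel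

theorem compl_mem_CS {e : Finset GolayPt} (he : e ∈ CS) : eᶜ ∈ CS := by
  have : eᶜ = symmDiff e Finset.univ := by
    ext p; simp [Finset.mem_symmDiff]
  rw [this]; exact supports_symmDiff he univ_mem_CS

theorem card_univ_GolayPt : (Finset.univ : Finset GolayPt).card = 24 := rfl

theorem compl_mem_dodecads {e : Finset GolayPt} (he : e ∈ dodecads) : eᶜ ∈ dodecads := by
  refine ⟨compl_mem_CS he.1, ?_⟩
  rw [Finset.card_compl, he.2]; rfl

theorem card_inter_compl (d e : Finset GolayPt) : (d ∩ eᶜ).card + (d ∩ e).card = d.card := by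
  rw [← Finset.sdiff_eq_inter_compl, Finset.card_sdiff_add_card_inter]

/-- counting the image of a two-to-one map. -/
theorem ncard_image_two_to_one {α β : Type*} (A : Set α) (hA : A.Finite) (f : α → β) (c : α → α)
    (hc : ∀ a ∈ A, c a ∈ A ∧ c a ≠ a) (hf : ∀ a ∈ A, ∀ b ∈ A, f a = f b ↔ b = a ∨ b = c a) :
    2 * (f '' A).ncard = A.ncard := by
  classical
  obtain ⟨A, rfl⟩ : ∃ A' : Finset α, A = ↑A' := ⟨hA.toFinset, by simp⟩
  rw [← Finset.coe_image, Set.ncard_coe_finset, Set.ncard_coe_finset,
    Finset.card_eq_sum_card_image f A]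
  rw [Finset.sum_const_nat (m := 2), mul_comm]
  intro b hb
  obtain ⟨a, ha, rfl⟩ := Finset.mem_image.1 hb
  have : A.filter (fun x => f x = f a) = {a, c a} := by
    ext x
    simp only [Finset.mem_filter, Finset.mem_insert, Finset.mem_singleton]
    constructor
    · rintro ⟨hx, hfx⟩
      exact (hf a ha x hx).1 hfx.symm
    · rintro (rfl | rfl)
      · exact ⟨ha, rfl⟩
      · exact ⟨(hc a ha).1, ((hf a ha _ (hc a ha).1).2 (Or.inr rfl)).symm⟩
  rw [this, Finset.card_pair (hc a ha).2.symm]

end Cfsg.Agent.Lib.Helper11
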