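import Mathlib
import Cfsg.Agent.Lib.Helper11.DodPair

set_option autoImplicit false

namespace Cfsg.Agent.Lib.Helper11

open Cfsg Cfsg.Agent.Lib.Helper3
open scoped Pointwise

/-- positions with a given residue modulo 4. -/
def resSet (x : GolayPt → ℤ) (k : ℤ) : Finset GolayPt :=
  Finset.univ.filter fun i => x i ≡ k [ZMOD 4]

theorem mem_resSet {x : GolayPt → ℤ} {k : ℤ} {i : GolayPt} : i ∈ resSet x k ↔ x i % 4 = k % 4 := by
  rw [resSet, Finset.mem_filter]
  simp [Int.ModEq]

theorem empty_mem_CS : (∅ : Finset GolayPt) ∈ CS := by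
  rw [mem_supports_iff, mask_empty]; decide +kernel

theorem mem_leechSet_iff (x : GolayPt → ℤ) : x ∈ leechSet ↔
    ∃ m : ℤ, (∀ i, x i % 2 = m % 2) ∧ ((∑ i, x i) % 8 = (4 * m) % 8) ∧ resSet x (m + 2) ∈ CS := by
  constructor
  · rintro ⟨m, h1, h2, h3⟩
    exact ⟨m, h1, h2, h3 (m + 2)⟩
  · rintro ⟨m, h1, h2, h3⟩
    refine ⟨m, h1, h2, fun k => ?_⟩
    show resSet x k ∈ CS
    by_cases hk1 : k % 4 = (m + 2) % 4
    · have : resSet x k = resSet x (m + 2) := by
        ext i; rw [mem_resSet, mem_resSet, hk1]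
      rw [this]; exact h3
    by_cases hk2 : k % 4 = m % 4
    · have : resSet x k = (resSet x (m + 2))ᶜ := by
        ext i
        rw [Finset.mem_compl, mem_resSet, mem_resSet]
        have := h1 i
        omega
      rw [this]; exact compl_mem_CS h3
    · have : resSet x k = ∅ := by
        ext i
        rw [mem_resSet]
        have := h1 i
        simp only [Finset.notMem_empty, iff_false]
        omega
      rw [this]; exact empty_mem_CS

theorem leechSet_add {x y : GolayPt → ℤ} (hx : x ∈ leechSet) (hy : y ∈ leechSet) :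
    x + y ∈ leechSet := by
  rw [mem_leechSet_iff] at hx hy ⊢
  obtain ⟨m, h1, h2, h3⟩ := hx
  obtain ⟨n, k1, k2, k3⟩ := hy
  refine ⟨m + n, fun i => ?_, ?_, ?_⟩
  · have := h1 i
    have := k1 i
    simp only [Pi.add_apply]
    omega
  · simp only [Pi.add_apply, Finset.sum_add_distrib]
    omega
  · have : resSet (x + y) (m + n + 2) = symmDiff (resSet x (m + 2)) (resSet y (n + 2)) := by
      ext i
      rw [Finset.mem_symmDiff, mem_resSet, mem_resSet, mem_resSet]
      have := h1 i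
      have := k1 i
      simp only [Pi.add_apply]
      omega
    rw [this]; exact supports_symmDiff h3 k3

theorem leechSet_neg {x : GolayPt → ℤ} (hx : x ∈ leechSet) : -x ∈ leechSet := by
  rw [mem_leechSet_iff] at hx ⊢
  obtain ⟨m, h1, h2, h3⟩ := hx
  refine ⟨-m, fun i => ?_, ?_, ?_⟩
  · have := h1 i
    simp only [Pi.neg_apply]
    omega
  · simp only [Pi.neg_apply, Finset.sum_neg_distrib]
    omega
  · have : resSet (-x) (-m + 2) = resSet x (m + 2) := by
      ext i
      rw [mem_resSet, mem_resSet]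
      have := h1 i
      simp only [Pi.neg_apply]
      omega
    rw [this]; exact h3

theorem leechSet_zero : (0 : GolayPt → ℤ) ∈ leechSet := by
  rw [mem_leechSet_iff]
  refine ⟨0, fun i => rfl, by simp, ?_⟩
  have : resSet 0 (0 + 2) = ∅ := by
    ext i
    rw [mem_resSet]
    simp
  rw [this]; exact empty_mem_CS

/-- the lattice as a subgroup with carrier `leechSet`. -/
def leechSub : AddSubgroup (GolayPt → ℤ) where
  carrier := leechSet
  add_mem' := leechSet_add
  zero_mem' := leechSet_zero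
  neg_mem' := leechSet_neg

theorem leechLattice_eq : leechLattice = leechSub := by
  apply le_antisymm
  · exact (AddSubgroup.closure_le _).2 (fun _ h => h)
  · exact fun _ h => AddSubgroup.subset_closure h

theorem mem_leechLattice {x : GolayPt → ℤ} : x ∈ leechLattice ↔ x ∈ leechSet := by
  rw [leechLattice_eq]; rfl

theorem card_CS_mod {A : Finset GolayPt} (hA : A ∈ CS) : A.card % 4 = 0 := by
  rcases code_weights A hA with h | h | h | h | h <;> rw [h]

/-- a normal form for the parity. -/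
theorem mem_leech_cases {x : GolayPt → ℤ} (hx : x ∈ leechLattice) :
    ((∀ i, x i % 2 = 0) ∧ (∑ i, x i) % 8 = 0 ∧ resSet x 2 ∈ CS) ∨
    ((∀ i, x i % 2 = 1) ∧ (∑ i, x i) % 8 = 4 ∧ resSet x 3 ∈ CS) := by
  rw [mem_leechLattice] at hx
  obtain ⟨m, h1, h2, h3⟩ := hx
  have h1' : ∀ i, x i % 2 = m % 2 := h1
  have h2' : (∑ i, x i) % 8 = (4 * m) % 8 := h2
  rcases Int.emod_two_eq_zero_or_one m with hm | hm
  · left
    exact ⟨fun i => by rw [h1', hm], by omega, h3 2⟩
  · right
    exact ⟨fun i => by rw [h1', hm], by omega, h3 3⟩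

theorem sum_ite_const (p : GolayPt → Prop) [DecidablePred p] (c : ℤ) :
    ∑ i, (if p i then c else 0) = c * ((Finset.univ.filter p).card : ℤ) := by
  rw [← Finset.sum_filter, Finset.sum_const, nsmul_eq_mul, mul_comm]

theorem even_sq (a : ℤ) (h : a % 2 = 0) :
    ∃ q : ℤ, a ^ 2 = 16 * q + (if a ≡ 2 [ZMOD 4] then 4 else 0) := by
  by_cases h2 : a ≡ 2 [ZMOD 4]
  · rw [if_pos h2]
    have h2' : a % 4 = 2 := h2
    obtain ⟨k, rfl⟩ : ∃ k, a = 4 * k + 2 := ⟨a / 4, by omega⟩
    exact ⟨k ^ 2 + k, by ring⟩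
  · rw [if_neg h2]
    have h2' : ¬ a % 4 = 2 := h2
    obtain ⟨k, rfl⟩ : ∃ k, a = 4 * k := ⟨a / 4, by omega⟩
    exact ⟨k ^ 2, by ring⟩

theorem odd_sq (a : ℤ) (h : a % 2 = 1) :
    ∃ q : ℤ, a ^ 2 = 16 * q + (2 * a - 1 + (if a ≡ 3 [ZMOD 4] then 4 else 0)) := by
  by_cases h2 : a ≡ 3 [ZMOD 4]
  · rw [if_pos h2]
    have h2' : a % 4 = 3 := h2
    obtain ⟨k, rfl⟩ : ∃ k, a = 4 * k + 3 := ⟨a / 4, by omega⟩
    exact ⟨k ^ 2 + k, by ring⟩
  · rw [if_neg h2]
    have h2' : ¬ a % 4 = 3 := h2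
    obtain ⟨k, rfl⟩ : ∃ k, a = 4 * k + 1 := ⟨a / 4, by omega⟩
    exact ⟨k ^ 2, by ring⟩

theorem sixteen_dvd_sqNorm {x : GolayPt → ℤ} (hx : x ∈ leechLattice) : (16 : ℤ) ∣ sqNorm x := by
  rcases mem_leech_cases hx with ⟨h1, h2, h3⟩ | ⟨h1, h2, h3⟩
  · choose q hq using fun i => even_sq (x i) (h1 i)
    have : sqNorm x = 16 * ∑ i, q i + 4 * ((resSet x 2).card : ℤ) := by
      unfold sqNorm
      rw [Finset.sum_congr rfl (fun i _ => hq i), Finset.sum_add_distrib, ← Finset.mul_sum,
        sum_ite_const]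
      rfl
    have h4 := card_CS_mod h3
    rw [this]
    omega
  · choose q hq using fun i => odd_sq (x i) (h1 i)
    have : sqNorm x = 16 * ∑ i, q i + (2 * ∑ i, x i - 24 + 4 * ((resSet x 3).card : ℤ)) := by
      unfold sqNorm
      rw [Finset.sum_congr rfl (fun i _ => hq i), Finset.sum_add_distrib, ← Finset.mul_sum,
        Finset.sum_add_distrib, sum_ite_const, Finset.sum_sub_distrib, ← Finset.mul_sum]
      simp only [Finset.sum_const, Finset.card_univ, nsmul_eq_mul, mul_one]
      rfl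
    have h4 := card_CS_mod h3
    rw [this]
    omega

theorem sq_le_sqNorm (x : GolayPt → ℤ) (j : GolayPt) : x j ^ 2 ≤ sqNorm x :=
  Finset.single_le_sum (f := fun i => x i ^ 2) (fun i _ => sq_nonneg _) (Finset.mem_univ j)

theorem sum_sq_le_sqNorm (x : GolayPt → ℤ) (A : Finset GolayPt) : ∑ i ∈ A, x i ^ 2 ≤ sqNorm x :=
  Finset.sum_le_sum_of_subset_of_nonneg (Finset.subset_univ A) (fun i _ _ => sq_nonneg _)

theorem four_sq (a : ℤ) (h : a % 4 = 0) : ∃ q : ℤ, a ^ 2 = 32 * q + 4 * a := by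
  obtain ⟨k, rfl⟩ : ∃ k, a = 4 * k := ⟨a / 4, by omega⟩
  obtain ⟨r, hr⟩ : ∃ r, k * (k - 1) = 2 * r := by
    have : Even (k * (k - 1)) := by
      have := Int.even_mul_pred_self k
      exact this
    obtain ⟨r, hr⟩ := this
    exact ⟨r, by omega⟩
  exact ⟨r, by linear_combination 16 * hr⟩

theorem min_norm {x : GolayPt → ℤ} (hx : x ∈ leechLattice) (h0 : x ≠ 0) : 32 ≤ sqNorm x := by
  have h16 := sixteen_dvd_sqNorm hx
  rcases mem_leech_cases hx with ⟨h1, h2, h3⟩ | ⟨h1, h2, h3⟩
  · by_cases hA : resSet x 2 = ∅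
    · -- all coordinates divisible by four
      have h4 : ∀ i, x i % 4 = 0 := by
        intro i
        have : i ∉ resSet x 2 := by rw [hA]; simp
        rw [mem_resSet] at this
        have := h1 i
        omega
      choose q hq using fun i => four_sq (x i) (h4 i)
      have : sqNorm x = 32 * ∑ i, q i + 4 * ∑ i, x i := by
        unfold sqNorm
        rw [Finset.sum_congr rfl (fun i _ => hq i), Finset.sum_add_distrib, ← Finset.mul_sum,
          ← Finset.mul_sum]
      obtain ⟨j, hj⟩ : ∃ j, x j ≠ 0 := by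
        by_contra hcon
        push Not at hcon
        exact h0 (funext hcon)
      have hpos : 0 < sqNorm x := lt_of_lt_of_le (by positivity) (sq_le_sqNorm x j)
      omega
    · have hc : 8 ≤ (resSet x 2).card := by
        have hne : (resSet x 2).card ≠ 0 := by rwa [Ne, Finset.card_eq_zero]
        rcases code_weights _ h3 with h | h | h | h | h <;> omega
      have h5 : ∑ i ∈ resSet x 2, (4 : ℤ) ≤ ∑ i ∈ resSet x 2, x i ^ 2 := by
        apply Finset.sum_le_sum
        intro i hi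
        rw [mem_resSet] at hi
        have : x i ≤ -2 ∨ 2 ≤ x i := by omega
        rcases this with h | h <;> nlinarith
      rw [Finset.sum_const, nsmul_eq_mul] at h5
      have h6 := sum_sq_le_sqNorm x (resSet x 2)
      have : (8 : ℤ) ≤ ((resSet x 2).card : ℤ) := by exact_mod_cast hc
      linarith
  · have h5 : ∑ i : GolayPt, (1 : ℤ) ≤ ∑ i, x i ^ 2 := by
      apply Finset.sum_le_sum
      intro i _
      have := h1 i
      have : x i ≤ -1 ∨ 1 ≤ x i := by omega
      rcases this with h | h <;> nlinarith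
    have h6 : ∑ i : GolayPt, (1 : ℤ) = 24 := by
      simp only [Finset.sum_const, Finset.card_univ, nsmul_eq_mul, mul_one]
      rfl
    have h7 : (24 : ℤ) ≤ sqNorm x := by rw [← h6]; exact h5
    omega

end Cfsg.Agent.Lib.Helper11
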