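import Mathlib
import Cfsg.Agent.Lib.Helper11.Leech

set_option autoImplicit false

namespace Cfsg.Agent.Lib.Helper11

open Cfsg Cfsg.Agent.Lib.Helper3
open scoped Pointwise

theorem sqNorm_add (x y : GolayPt → ℤ) :
    sqNorm (x + y) = sqNorm x + 2 * dotInt x y + sqNorm y := by
  unfold sqNorm dotInt
  rw [Finset.mul_sum, ← Finset.sum_add_distrib, ← Finset.sum_add_distrib]
  apply Finset.sum_congr rfl
  intro i _
  simp only [Pi.add_apply]
  ring

theorem sqNorm_sub (x y : GolayPt → ℤ) :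
    sqNorm (x - y) = sqNorm x - 2 * dotInt x y + sqNorm y := by
  unfold sqNorm dotInt
  rw [Finset.mul_sum, ← Finset.sum_sub_distrib, ← Finset.sum_add_distrib]
  apply Finset.sum_congr rfl
  intro i _
  simp only [Pi.sub_apply]
  ring

theorem sqNorm_neg (x : GolayPt → ℤ) : sqNorm (-x) = sqNorm x := by
  unfold sqNorm
  apply Finset.sum_congr rfl
  intro i _
  simp only [Pi.neg_apply]
  ring

theorem sqNorm_two_smul (z : GolayPt → ℤ) : sqNorm (2 • z) = 4 * sqNorm z := by
  unfold sqNorm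
  rw [Finset.mul_sum]
  apply Finset.sum_congr rfl
  intro i _
  simp only [Pi.smul_apply, smul_eq_mul]
  ring

theorem sqNorm_zero : sqNorm (0 : GolayPt → ℤ) = 0 := by
  simp [sqNorm]

theorem sqNorm_eq_zero {x : GolayPt → ℤ} (h : sqNorm x = 0) : x = 0 := by
  funext i
  have h1 := sq_le_sqNorm x i
  rw [h] at h1
  have h2 : x i ^ 2 = 0 := le_antisymm h1 (sq_nonneg _)
  simpa using h2

theorem sqNorm_nonneg (x : GolayPt → ℤ) : 0 ≤ sqNorm x :=
  Finset.sum_nonneg (fun _ _ => sq_nonneg _)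

/-- congruent short vectors are equal, opposite, or orthogonal of norm 64. -/
theorem short_congr {x y : GolayPt → ℤ} (hx : x ∈ leechLattice) (hy : y ∈ leechLattice)
    (hxy : x ≠ y) (hxn : sqNorm x ≤ 64) (hyn : sqNorm y ≤ 64)
    (hc : ∃ z ∈ leechLattice, x - y = 2 • z) :
    x = -y ∨ (sqNorm x = 64 ∧ sqNorm y = 64 ∧ dotInt x y = 0) := by
  obtain ⟨z, hz, hxyz⟩ := hc
  by_cases hneg : x = -y
  · exact Or.inl hneg
  right
  have hz0 : z ≠ 0 := by
    rintro rfl
    apply hxy
    rw [smul_zero] at hxyz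
    exact sub_eq_zero.1 hxyz
  have h1 := min_norm hz hz0
  have h2 : sqNorm (x - y) = 4 * sqNorm z := by rw [hxyz, sqNorm_two_smul]
  have hzy : z + y ∈ leechLattice := leechLattice.add_mem hz hy
  have e : x + y = 2 • (z + y) := by
    have : x + y = (x - y) + 2 • y := by rw [two_smul]; abel
    rw [this, hxyz, smul_add]
  have hzy0 : z + y ≠ 0 := by
    intro h
    apply hneg
    rw [h, smul_zero] at e
    exact eq_neg_of_add_eq_zero_left e
  have h3 := min_norm hzy hzy0
  have h4 : sqNorm (x + y) = 4 * sqNorm (z + y) := by rw [e, sqNorm_two_smul]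
  rw [sqNorm_sub] at h2
  rw [sqNorm_add] at h4
  refine ⟨by omega, by omega, by omega⟩

end Cfsg.Agent.Lib.Helper11
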