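import Mathlib
import Cfsg.Prelude.Def_SporadicCombinatorics
import Cfsg.Agent.Lib.Helper11.Leech2

set_option autoImplicit false

namespace Cfsg.Agent.Lib.Helper11

open Cfsg Cfsg.Agent.Lib.Helper3
open scoped Pointwise

theorem card_inter_CS_even {A c : Finset GolayPt} (hA : A ∈ CS) (hc : c ∈ CS) :
    (A ∩ c).card % 2 = 0 := by
  have h1 := card_symmDiff_add A c
  have h2 := card_CS_mod hA
  have h3 := card_CS_mod hc
  have h4 := card_CS_mod (supports_symmDiff hA hc)
  omega

theorem sum_ite_mem_const (c A : Finset GolayPt) (a : ℤ) :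
    ∑ i ∈ c, (if i ∈ A then a else 0) = a * ((A ∩ c).card : ℤ) := by
  rw [← Finset.sum_filter, Finset.sum_const, nsmul_eq_mul, mul_comm]
  congr 2
  rw [Finset.inter_comm, Finset.filter_mem_eq_inter]

/-- the sum of the coordinates of a lattice vector over a code word is divisible by four. -/
theorem sum_over_CS {x : GolayPt → ℤ} (hx : x ∈ leechLattice) {c : Finset GolayPt} (hc : c ∈ CS) :
    (∑ i ∈ c, x i) % 4 = 0 := by
  rw [Finset.sum_int_mod]
  rcases mem_leech_cases hx with ⟨h1, -, h3⟩ | ⟨h1, -, h3⟩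
  · have : ∀ i ∈ c, x i % 4 = if i ∈ resSet x 2 then 2 else 0 := by
      intro i _
      have := h1 i
      by_cases hi : i ∈ resSet x 2
      · rw [if_pos hi]; rw [mem_resSet] at hi; omega
      · rw [if_neg hi]; rw [mem_resSet] at hi; omega
    rw [Finset.sum_congr rfl this, sum_ite_mem_const]
    have := card_inter_CS_even h3 hc
    omega
  · have : ∀ i ∈ c, x i % 4 = 1 + if i ∈ resSet x 3 then 2 else 0 := by
      intro i _
      have := h1 i
      by_cases hi : i ∈ resSet x 3
      · rw [if_pos hi]; rw [mem_resSet] at hi; omega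
      · rw [if_neg hi]; rw [mem_resSet] at hi; omega
    rw [Finset.sum_congr rfl this, Finset.sum_add_distrib, sum_ite_mem_const]
    simp only [Finset.sum_const, nsmul_eq_mul, mul_one]
    have := card_inter_CS_even h3 hc
    have := card_CS_mod hc
    omega

/-- sign changes on a code word. -/
def signCh (c : Finset GolayPt) (x : GolayPt → ℤ) : GolayPt → ℤ :=
  fun i => if i ∈ c then -x i else x i

theorem sum_signCh (c : Finset GolayPt) (x : GolayPt → ℤ) :
    ∑ i, signCh c x i = ∑ i, x i - 2 * ∑ i ∈ c, x i := by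
  have h1 : ∀ i, signCh c x i = x i - 2 * (if i ∈ c then x i else 0) := by
    intro i
    unfold signCh
    split <;> ring
  rw [Finset.sum_congr rfl (fun i _ => h1 i), Finset.sum_sub_distrib, ← Finset.mul_sum,
    Finset.sum_ite_mem, Finset.univ_inter]

theorem signCh_mem {c : Finset GolayPt} (hc : c ∈ CS) {x : GolayPt → ℤ} (hx : x ∈ leechLattice) :
    signCh c x ∈ leechLattice := by
  have hs := sum_over_CS hx hc
  have hsum := sum_signCh c x
  rw [mem_leechLattice, mem_leechSet_iff]
  rcases mem_leech_cases hx with ⟨h1, h2, h3⟩ | ⟨h1, h2, h3⟩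
  · refine ⟨0, fun i => ?_, ?_, ?_⟩
    · have := h1 i
      unfold signCh
      split <;> omega
    · rw [hsum]; omega
    · have : resSet (signCh c x) (0 + 2) = resSet x 2 := by
        ext i
        rw [mem_resSet, mem_resSet]
        unfold signCh
        split <;> omega
      rw [this]; exact h3
  · refine ⟨1, fun i => ?_, ?_, ?_⟩
    · have := h1 i
      unfold signCh
      split <;> omega
    · rw [hsum]; omega
    · have : resSet (signCh c x) (1 + 2) = symmDiff (resSet x 3) c := by
        ext i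
        rw [Finset.mem_symmDiff, mem_resSet, mem_resSet]
        have := h1 i
        unfold signCh
        by_cases hi : i ∈ c
        · rw [if_pos hi]
          constructor
          · intro h; right; exact ⟨hi, by omega⟩
          · rintro (⟨_, h⟩ | ⟨_, h⟩)
            · exact absurd hi h
            · omega
        · rw [if_neg hi]
          constructor
          · intro h; left; exact ⟨by omega, hi⟩
          · rintro (⟨h, _⟩ | ⟨h, _⟩)
            · omega
            · exact absurd h hi
      rw [this]; exact supports_symmDiff h3 hc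

/-- coordinate permutations. -/
def permCh (σ : Equiv.Perm GolayPt) (x : GolayPt → ℤ) : GolayPt → ℤ := fun i => x (σ.symm i)

theorem permCh_mem {σ : Equiv.Perm GolayPt} (hσ : σ ∈ M24) {x : GolayPt → ℤ}
    (hx : x ∈ leechLattice) : permCh σ x ∈ leechLattice := by
  rw [mem_leechLattice, mem_leechSet_iff] at hx ⊢
  obtain ⟨m, h1, h2, h3⟩ := hx
  refine ⟨m, fun i => h1 _, ?_, ?_⟩
  · have : ∑ i, permCh σ x i = ∑ i, x i := Equiv.sum_comp σ.symm x
    rw [this]; exact h2
  · have : resSet (permCh σ x) (m + 2) = σ • resSet x (m + 2) := by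
      ext i
      rw [← Finset.inv_smul_mem_iff, mem_resSet, mem_resSet]
      rfl
    rw [this]
    exact smul_mem_CS hσ h3

theorem signedPerm_eq (σ : Equiv.Perm GolayPt) (c : Finset GolayPt) (x : GolayPt → ℤ) :
    signedPerm σ c x = signCh c (permCh σ x) := rfl

theorem sqNorm_signCh (c : Finset GolayPt) (x : GolayPt → ℤ) : sqNorm (signCh c x) = sqNorm x := by
  unfold sqNorm signCh
  apply Finset.sum_congr rfl
  intro i _
  split <;> ring

theorem sqNorm_permCh (σ : Equiv.Perm GolayPt) (x : GolayPt → ℤ) :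
    sqNorm (permCh σ x) = sqNorm x :=
  Equiv.sum_comp σ.symm (fun i => x i ^ 2)

theorem signCh_add (c : Finset GolayPt) (x y : GolayPt → ℤ) :
    signCh c (x + y) = signCh c x + signCh c y := by
  funext i
  simp only [signCh, Pi.add_apply]
  split <;> ring

theorem permCh_add (σ : Equiv.Perm GolayPt) (x y : GolayPt → ℤ) :
    permCh σ (x + y) = permCh σ x + permCh σ y := rfl

theorem signCh_signCh (c : Finset GolayPt) (x : GolayPt → ℤ) : signCh c (signCh c x) = x := by
  funext i
  simp only [signCh]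
  split <;> simp

theorem permCh_permCh_inv (σ : Equiv.Perm GolayPt) (x : GolayPt → ℤ) :
    permCh σ⁻¹ (permCh σ x) = x := by
  funext i
  show x (σ.symm (σ⁻¹.symm i)) = x i
  congr 1
  exact σ.symm_apply_apply i

theorem permCh_inv_permCh (σ : Equiv.Perm GolayPt) (x : GolayPt → ℤ) :
    permCh σ (permCh σ⁻¹ x) = x := by
  funext i
  show x (σ⁻¹.symm (σ.symm i)) = x i
  congr 1
  exact σ.apply_symm_apply i

/-- constructor for elements of the automorphism group of the lattice. -/
def mkCo0 (f g : (GolayPt → ℤ) → (GolayPt → ℤ)) (hf : ∀ x ∈ leechLattice, f x ∈ leechLattice)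
    (hg : ∀ x ∈ leechLattice, g x ∈ leechLattice) (hgf : ∀ x ∈ leechLattice, g (f x) = x)
    (hfg : ∀ x ∈ leechLattice, f (g x) = x)
    (hadd : ∀ x ∈ leechLattice, ∀ y ∈ leechLattice, f (x + y) = f x + f y)
    (hn : ∀ x ∈ leechLattice, sqNorm (f x) = sqNorm x) : ↥Co0 :=
  ⟨{ toFun := fun v => ⟨f v.1, hf v.1 v.2⟩
     invFun := fun v => ⟨g v.1, hg v.1 v.2⟩
     left_inv := fun v => Subtype.ext (hgf v.1 v.2)
     right_inv := fun v => Subtype.ext (hfg v.1 v.2) },
   ⟨fun v w => Subtype.ext (hadd v.1 v.2 w.1 w.2), fun v => hn v.1 v.2⟩⟩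

theorem mkCo0_smul (f g : (GolayPt → ℤ) → (GolayPt → ℤ)) (hf hg hgf hfg hadd hn)
    (v : ↥leechLattice) :
    ((mkCo0 f g hf hg hgf hfg hadd hn • v : ↥leechLattice) : GolayPt → ℤ) = f v.1 := rfl

/-- sign change as an automorphism. -/
def signCo0 (c : Finset GolayPt) (hc : c ∈ CS) : ↥Co0 :=
  mkCo0 (signCh c) (signCh c) (fun _ hx => signCh_mem hc hx) (fun _ hx => signCh_mem hc hx)
    (fun x _ => signCh_signCh c x) (fun x _ => signCh_signCh c x)
    (fun x _ y _ => signCh_add c x y) (fun x _ => sqNorm_signCh c x)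

/-- coordinate permutation as an automorphism. -/
def permCo0 (σ : Equiv.Perm GolayPt) (hσ : σ ∈ M24) : ↥Co0 :=
  mkCo0 (permCh σ) (permCh σ⁻¹) (fun _ hx => permCh_mem hσ hx)
    (fun _ hx => permCh_mem (M24.inv_mem hσ) hx)
    (fun x _ => permCh_permCh_inv σ x) (fun x _ => permCh_inv_permCh σ x)
    (fun x _ y _ => permCh_add σ x y) (fun x _ => sqNorm_permCh σ x)

theorem signCo0_smul (c : Finset GolayPt) (hc : c ∈ CS) (v : ↥leechLattice) :
    ((signCo0 c hc • v : ↥leechLattice) : GolayPt → ℤ) = signCh c v.1 := rfl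

theorem permCo0_smul (σ : Equiv.Perm GolayPt) (hσ : σ ∈ M24) (v : ↥leechLattice) :
    ((permCo0 σ hσ • v : ↥leechLattice) : GolayPt → ℤ) = permCh σ v.1 := rfl

theorem Co0_add (g : ↥Co0) (v w : ↥leechLattice) : g • (v + w) = g • v + g • w := g.2.1 v w

theorem Co0_sqNorm (g : ↥Co0) (v : ↥leechLattice) :
    sqNorm ((g • v : ↥leechLattice) : GolayPt → ℤ) = sqNorm (v : GolayPt → ℤ) := g.2.2 v

theorem Co0_dot (g : ↥Co0) (v w : ↥leechLattice) :
    dotInt ((g • v : ↥leechLattice) : GolayPt → ℤ) ((g • w : ↥leechLattice) : GolayPt → ℤ) =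
      dotInt (v : GolayPt → ℤ) (w : GolayPt → ℤ) := by
  have h1 := Co0_sqNorm g (v + w)
  rw [Co0_add] at h1
  have h2 := Co0_sqNorm g v
  have h3 := Co0_sqNorm g w
  simp only [AddSubgroup.coe_add, sqNorm_add] at h1
  omega

end Cfsg.Agent.Lib.Helper11
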