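import Mathlib
import Cfsg.Agent.Lib.Helper11.LeechMono

set_option autoImplicit false

namespace Cfsg.Agent.Lib.Helper11

open Cfsg Cfsg.Agent.Lib.Helper3
open scoped Pointwise

/-- twice the indicator of a set. -/
def vSet (o : Finset GolayPt) : GolayPt → ℤ := fun i => if i ∈ o then 2 else 0

/-- the vector with `-3` at one place and `1` elsewhere. -/
def vOdd (p : GolayPt) : GolayPt → ℤ := fun i => if i = p then -3 else 1

/-- a vector with two nonzero coordinates. -/
def vTwo (a b : GolayPt) (s t : ℤ) : GolayPt → ℤ := Pi.single a s + Pi.single b t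

theorem sum_vSet (o : Finset GolayPt) : ∑ i, vSet o i = 2 * (o.card : ℤ) := by
  unfold vSet
  rw [sum_ite_const]
  congr 2
  simp

theorem vSet_mem {o : Finset GolayPt} (ho : o ∈ CS) : vSet o ∈ leechLattice := by
  rw [mem_leechLattice, mem_leechSet_iff]
  refine ⟨0, fun i => ?_, ?_, ?_⟩
  · unfold vSet; split <;> rfl
  · rw [sum_vSet]
    have := card_CS_mod ho
    omega
  · have : resSet (vSet o) (0 + 2) = o := by
      ext i
      rw [mem_resSet]
      unfold vSet
      by_cases hi : i ∈ o
      · simp [hi]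
      · simp [hi]
    rw [this]; exact ho

theorem sqNorm_vSet (o : Finset GolayPt) : sqNorm (vSet o) = 4 * (o.card : ℤ) := by
  unfold sqNorm vSet
  have : ∀ i : GolayPt, (if i ∈ o then (2 : ℤ) else 0) ^ 2 = if i ∈ o then 4 else 0 := by
    intro i; split <;> norm_num
  rw [Finset.sum_congr rfl (fun i _ => this i), sum_ite_const]
  congr 2
  simp

theorem sum_vOdd (p : GolayPt) : ∑ i, vOdd p i = 20 := by
  have : ∀ i, vOdd p i = 1 + if i = p then -4 else 0 := by
    intro i; unfold vOdd; split <;> norm_num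
  rw [Finset.sum_congr rfl (fun i _ => this i), Finset.sum_add_distrib, Finset.sum_ite_eq']
  simp only [Finset.sum_const, Finset.card_univ, nsmul_eq_mul, mul_one, Finset.mem_univ, if_true]
  rfl

theorem vOdd_mem (p : GolayPt) : vOdd p ∈ leechLattice := by
  rw [mem_leechLattice, mem_leechSet_iff]
  refine ⟨1, fun i => ?_, ?_, ?_⟩
  · unfold vOdd; split <;> rfl
  · rw [sum_vOdd]; rfl
  · have : resSet (vOdd p) (1 + 2) = ∅ := by
      ext i
      rw [mem_resSet]
      unfold vOdd
      by_cases hi : i = p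
      · simp [hi]
      · simp [hi]
    rw [this]; exact empty_mem_CS

theorem sqNorm_vOdd (p : GolayPt) : sqNorm (vOdd p) = 32 := by
  unfold sqNorm
  have : ∀ i, vOdd p i ^ 2 = 1 + if i = p then 8 else 0 := by
    intro i; unfold vOdd; split <;> norm_num
  rw [Finset.sum_congr rfl (fun i _ => this i), Finset.sum_add_distrib, Finset.sum_ite_eq']
  simp only [Finset.sum_const, Finset.card_univ, nsmul_eq_mul, mul_one, Finset.mem_univ, if_true]
  rfl

theorem sum_vTwo (a b : GolayPt) (s t : ℤ) : ∑ i, vTwo a b s t i = s + t := by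
  unfold vTwo
  simp only [Pi.add_apply, Finset.sum_add_distrib, Finset.sum_pi_single', Finset.mem_univ, if_true]

theorem vTwo_apply (a b : GolayPt) (s t : ℤ) (i : GolayPt) :
    vTwo a b s t i = (if i = a then s else 0) + (if i = b then t else 0) := by
  unfold vTwo
  simp only [Pi.add_apply, Pi.single_apply]

theorem vTwo_mem (a b : GolayPt) {s t : ℤ} (hs : s % 4 = 0) (ht : t % 4 = 0)
    (hst : (s + t) % 8 = 0) : vTwo a b s t ∈ leechLattice := by
  have h4 : ∀ i, vTwo a b s t i % 4 = 0 := by
    intro i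
    rw [vTwo_apply]
    split <;> split <;> omega
  rw [mem_leechLattice, mem_leechSet_iff]
  refine ⟨0, fun i => ?_, ?_, ?_⟩
  · have := h4 i; omega
  · rw [sum_vTwo]; omega
  · have : resSet (vTwo a b s t) (0 + 2) = ∅ := by
      ext i
      rw [mem_resSet]
      have := h4 i
      simp only [Finset.notMem_empty, iff_false]
      omega
    rw [this]; exact empty_mem_CS

theorem sqNorm_vTwo {a b : GolayPt} (hab : a ≠ b) (s t : ℤ) :
    sqNorm (vTwo a b s t) = s ^ 2 + t ^ 2 := by
  unfold sqNorm
  have : ∀ i, vTwo a b s t i ^ 2 = (if i = a then s ^ 2 else 0) + (if i = b then t ^ 2 else 0) := by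
    intro i
    rw [vTwo_apply]
    by_cases h1 : i = a
    · have h2 : i ≠ b := fun h => hab (h1.symm.trans h)
      simp [h1, hab]
    · by_cases h2 : i = b
      · simp [h2, hab.symm]
      · simp [h1, h2]
  rw [Finset.sum_congr rfl (fun i _ => this i), Finset.sum_add_distrib, Finset.sum_ite_eq',
    Finset.sum_ite_eq']
  simp

/-- extensionality for automorphisms. -/
theorem Co0_ext {g h : ↥Co0}
    (H : ∀ v : ↥leechLattice, ((g • v : ↥leechLattice) : GolayPt → ℤ) = (h • v : ↥leechLattice)) :
    g = h := by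
  apply Subtype.ext
  apply Equiv.ext
  intro v
  exact Subtype.ext (H v)

theorem Co0_zero (g : ↥Co0) : g • (0 : ↥leechLattice) = 0 := by
  have := Co0_add g 0 0
  rw [add_zero] at this
  exact left_eq_add.1 this

theorem Co0_neg (g : ↥Co0) (v : ↥leechLattice) : g • (-v) = -(g • v) := by
  have := Co0_add g v (-v)
  rw [add_neg_cancel, Co0_zero] at this
  exact (neg_eq_of_add_eq_zero_right this.symm).symm

/-- the central involution. -/
def negCo0 : ↥Co0 := signCo0 Finset.univ univ_mem_CS

theorem negCo0_smul (v : ↥leechLattice) : negCo0 • v = -v := by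
  apply Subtype.ext
  funext i
  show signCh Finset.univ v.1 i = -v.1 i
  simp [signCh]

theorem negCo0_comm (g : ↥Co0) : negCo0 * g = g * negCo0 := by
  apply Co0_ext
  intro v
  rw [mul_smul, mul_smul, negCo0_smul, negCo0_smul, Co0_neg]

theorem negCo0_sq : negCo0 * negCo0 = 1 := by
  apply Co0_ext
  intro v
  rw [mul_smul, negCo0_smul, negCo0_smul, neg_neg, one_smul]

theorem negCo0_ne_one : negCo0 ≠ 1 := by
  intro h
  have h1 := negCo0_smul ⟨vOdd none, vOdd_mem none⟩
  rw [h, one_smul] at h1
  have h2 := congrArg (fun v : ↥leechLattice => (v : GolayPt → ℤ) none) h1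
  simp [vOdd] at h2

end Cfsg.Agent.Lib.Helper11
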