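import Mathlib
import Cfsg.Agent.Lib.Helper3.OctStab

set_option autoImplicit false

namespace Cfsg.Agent.Lib.Helper11

open Cfsg Cfsg.Agent.Lib.Helper3
open scoped Pointwise

theorem smul_eq_of_agree {g π : Equiv.Perm GolayPt} {s : Finset GolayPt}
    (h : ∀ a ∈ s, g a = π a) : g • s = π • s := by
  ext p
  simp only [Finset.mem_smul_finset]
  constructor
  · rintro ⟨a, ha, rfl⟩
    exact ⟨a, ha, (h a ha).symm⟩
  · rintro ⟨a, ha, rfl⟩
    exact ⟨a, ha, h a ha⟩

/-- every permutation agrees on any five points with an element of the group of the code. -/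
theorem exists_M24_agree (π : Equiv.Perm GolayPt) (A : Finset GolayPt) (hA : A.card ≤ 5) :
    ∃ g ∈ M24, ∀ a ∈ A, g a = π a := by
  have := M24_trans_le hA
  let x : Fin A.card ↪ GolayPt := A.equivFin.symm.toEmbedding.trans (Function.Embedding.subtype _)
  let y : Fin A.card ↪ GolayPt := x.trans π.toEmbedding
  obtain ⟨g, hg⟩ := MulAction.exists_smul_eq M24 x y
  refine ⟨g.1, g.2, fun a ha => ?_⟩
  have h1 := congrArg (fun z : Fin A.card ↪ GolayPt => z (A.equivFin ⟨a, ha⟩)) hg
  have h2 : x (A.equivFin ⟨a, ha⟩) = a := by simp [x]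
  have h3 : (g • x) (A.equivFin ⟨a, ha⟩) = g.1 (x (A.equivFin ⟨a, ha⟩)) := rfl
  have h4 : y (A.equivFin ⟨a, ha⟩) = π (x (A.equivFin ⟨a, ha⟩)) := rfl
  simp only [h3, h4, h2] at h1
  exact h1

/-- a permutation realising a given pattern of two sets. -/
theorem exists_perm_pair {α : Type*} [Fintype α] [DecidableEq α] (s x s' x' : Finset α)
    (hs : s.card = s'.card) (hx : x.card = x'.card) (hi : (s ∩ x).card = (s' ∩ x').card) :
    ∃ π : Equiv.Perm α, (∀ a, π a ∈ s' ↔ a ∈ s) ∧ (∀ a, π a ∈ x' ↔ a ∈ x) := by
  let c : α → Bool × Bool := fun a => (decide (a ∈ s), decide (a ∈ x))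
  let c' : α → Bool × Bool := fun a => (decide (a ∈ s'), decide (a ∈ x'))
  have key : ∀ (s x : Finset α) (col : Bool × Bool),
      Fintype.card {a // (decide (a ∈ s), decide (a ∈ x)) = col} =
        match col with
        | (true, true) => (s ∩ x).card
        | (true, false) => s.card - (s ∩ x).card
        | (false, true) => x.card - (s ∩ x).card
        | (false, false) => Fintype.card α + (s ∩ x).card - s.card - x.card := by
    intro s x col
    rw [Fintype.card_subtype]
    rcases col with ⟨_ | _, _ | _⟩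
    · have : (Finset.univ.filter fun a => (decide (a ∈ s), decide (a ∈ x)) = (false, false)) =
          (s ∪ x)ᶜ := by ext a; simp
      rw [this, Finset.card_compl]
      have := Finset.card_union_add_card_inter s x
      show _ = Fintype.card α + (s ∩ x).card - s.card - x.card
      omega
    · have : (Finset.univ.filter fun a => (decide (a ∈ s), decide (a ∈ x)) = (false, true)) =
          x \ s := by ext a; simp [and_comm]
      rw [this]
      have := Finset.card_sdiff_add_card_inter x s
      rw [Finset.inter_comm] at this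
      show _ = x.card - (s ∩ x).card
      omega
    · have : (Finset.univ.filter fun a => (decide (a ∈ s), decide (a ∈ x)) = (true, false)) =
          s \ x := by ext a; simp
      rw [this]
      have := Finset.card_sdiff_add_card_inter s x
      show _ = s.card - (s ∩ x).card
      omega
    · have : (Finset.univ.filter fun a => (decide (a ∈ s), decide (a ∈ x)) = (true, true)) =
          s ∩ x := by ext a; simp
      rw [this]
  have hcard : ∀ col, Fintype.card {a // c a = col} = Fintype.card {a // c' a = col} := by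
    intro col
    rw [key s x col, key s' x' col, hs, hx, hi]
  let π : Equiv.Perm α := Equiv.ofFiberEquiv (f := c) (g := c')
    (fun col => Fintype.equivOfCardEq (hcard col))
  have hπ : ∀ a, c' (π a) = c a := fun a => Equiv.ofFiberEquiv_map _ a
  refine ⟨π, fun a => ?_, fun a => ?_⟩
  · have := congrArg Prod.fst (hπ a)
    simpa [c, c'] using this
  · have := congrArg Prod.snd (hπ a)
    simpa [c, c'] using this

theorem smul_eq_of_forall {π : Equiv.Perm GolayPt} {s s' : Finset GolayPt}
    (h : ∀ a, π a ∈ s' ↔ a ∈ s) : π • s = s' := by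
  ext p
  rw [← Finset.inv_smul_mem_iff, ← h]
  simp

/-- transitivity of the group of the code on patterns of two sets covering at most five points. -/
theorem pair_trans (s x x' : Finset GolayPt) (hx : x.card = x'.card)
    (hi : (s ∩ x).card = (s ∩ x').card) (h5 : (s ∪ x).card ≤ 5) :
    ∃ g ∈ M24, g • s = s ∧ g • x = x' := by
  obtain ⟨π, h1, h2⟩ := exists_perm_pair s x s x' rfl hx hi
  obtain ⟨g, hg, hga⟩ := exists_M24_agree π (s ∪ x) h5
  refine ⟨g, hg, ?_, ?_⟩
  · rw [smul_eq_of_agree (fun a ha => hga a (Finset.mem_union_left _ ha)), smul_eq_of_forall h1]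
  · rw [smul_eq_of_agree (fun a ha => hga a (Finset.mem_union_right _ ha)), smul_eq_of_forall h2]

/-- number of `k`-sets meeting a given set in `j` points. -/
theorem ncard_inter_eq {α : Type*} [Fintype α] [DecidableEq α] (s : Finset α) (k j : ℕ)
    (hj : j ≤ k) : {x : Finset α | x.card = k ∧ (s ∩ x).card = j}.ncard =
      s.card.choose j * (Fintype.card α - s.card).choose (k - j) := by
  have : {x : Finset α | x.card = k ∧ (s ∩ x).card = j} =
      ↑(((s.powersetCard j) ×ˢ (sᶜ.powersetCard (k - j))).image (fun p => p.1 ∪ p.2)) := by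
    ext x
    simp only [Set.mem_ofPred_eq, Finset.coe_image, Set.mem_image, Finset.mem_coe,
      Finset.mem_product, Finset.mem_powersetCard, Prod.exists]
    constructor
    · rintro ⟨h1, h2⟩
      refine ⟨s ∩ x, sᶜ ∩ x, ⟨⟨Finset.inter_subset_left, h2⟩, Finset.inter_subset_left, ?_⟩, ?_⟩
      · have h3 := Finset.card_sdiff_add_card_inter x s
        have h4 : sᶜ ∩ x = x \ s := by ext a; simp [and_comm]
        rw [h4]
        rw [Finset.inter_comm] at h3
        omega
      · ext a
        simp only [Finset.mem_union, Finset.mem_inter, Finset.mem_compl]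
        tauto
    · rintro ⟨a, b, ⟨⟨ha, ha'⟩, hb, hb'⟩, rfl⟩
      have hd : Disjoint a b := by
        rw [Finset.disjoint_left]
        intro p hpa hpb
        exact (Finset.mem_compl.1 (hb hpb)) (ha hpa)
      constructor
      · rw [Finset.card_union_of_disjoint hd, ha', hb']; omega
      · have : s ∩ (a ∪ b) = a := by
          ext p
          simp only [Finset.mem_union, Finset.mem_inter]
          constructor
          · rintro ⟨hp, hpa | hpb⟩
            · exact hpa
            · exact absurd hp (Finset.mem_compl.1 (hb hpb))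
          · intro hpa
            exact ⟨ha hpa, Or.inl hpa⟩
        rw [this, ha']
  rw [this, Set.ncard_coe_finset, Finset.card_image_of_injOn, Finset.card_product,
    Finset.card_powersetCard, Finset.card_powersetCard, Finset.card_compl]
  rintro ⟨a, b⟩ hab ⟨a', b'⟩ hab' h
  simp only [Finset.coe_product, Set.mem_prod, Finset.mem_coe, Finset.mem_powersetCard] at hab hab'
  simp only at h
  have e1 : ∀ (a b : Finset α), a ⊆ s → b ⊆ sᶜ → s ∩ (a ∪ b) = a := by
    intro a b ha hb
    ext p
    simp only [Finset.mem_union, Finset.mem_inter]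
    constructor
    · rintro ⟨hp, hpa | hpb⟩
      · exact hpa
      · exact absurd hp (Finset.mem_compl.1 (hb hpb))
    · intro hpa
      exact ⟨ha hpa, Or.inl hpa⟩
  have e2 : ∀ (a b : Finset α), a ⊆ s → b ⊆ sᶜ → sᶜ ∩ (a ∪ b) = b := by
    intro a b ha hb
    ext p
    simp only [Finset.mem_union, Finset.mem_inter]
    constructor
    · rintro ⟨hp, hpa | hpb⟩
      · exact absurd (ha hpa) (Finset.mem_compl.1 hp)
      · exact hpb
    · intro hpb
      exact ⟨hb hpb, Or.inr hpb⟩
  have h1 : a = a' := by rw [← e1 a b hab.1.1 hab.2.1, h, e1 a' b' hab'.1.1 hab'.2.1]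
  have h2 : b = b' := by rw [← e2 a b hab.1.1 hab.2.1, h, e2 a' b' hab'.1.1 hab'.2.1]
  rw [h1, h2]

theorem orbit_kset (s : Finset GolayPt) (hs : s.card ≤ 5) :
    MulAction.orbit M24 s = {x | x.card = s.card} := by
  ext x
  rw [mem_orbit_M24_iff]
  constructor
  · rintro ⟨g, hg, rfl⟩
    exact Finset.card_smul_finset g s
  · intro hx
    obtain ⟨g, hg, -, h⟩ := pair_trans ∅ s x (Eq.symm hx) (by simp) (by simpa using hs)
    exact ⟨g, hg, h⟩

theorem ncard_kset (k : ℕ) : {x : Finset GolayPt | x.card = k}.ncard = Nat.choose 24 k := by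
  have := ncard_inter_eq (∅ : Finset GolayPt) k 0 (Nat.zero_le _)
  simpa using this

/-- the pointwise stabiliser of five points has two orbits on the remaining points. -/
theorem fix5_trans (B : Finset GolayPt) (hB : B.card = 5) (q q' : GolayPt) (hq : q ∉ B)
    (hq' : q' ∉ B) (o : Finset GolayPt) (ho : o ∈ octads) (hBo : B ⊆ o) (h : q ∈ o ↔ q' ∈ o) :
    ∃ g ∈ M24, (∀ b ∈ B, g b = b) ∧ g q = q' := by
  obtain ⟨u, huH, hu⟩ := exists_map_to_base B hB.ge
  have huM : u ∈ M24 := H_le huH
  -- the image of `B` is the set of the first five base points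
  have hbase : ∀ b ∈ B, ∃ j < 5, u b = bpt j := by
    have hsub : (Finset.range 5).image bpt ⊆ u • B := by
      intro p hp
      obtain ⟨j, hj, rfl⟩ := Finset.mem_image.1 hp
      exact hu j (Finset.mem_range.1 hj)
    have hcard : ((Finset.range 5).image bpt).card = 5 := by
      rw [Finset.card_image_of_injOn, Finset.card_range]
      intro i hi j hj hij
      have hi' : i < 5 := Finset.mem_range.1 hi
      have hj' : j < 5 := Finset.mem_range.1 hj
      exact bpt_inj (by omega) (by omega) hij
    have heq : (Finset.range 5).image bpt = u • B :=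
      Finset.eq_of_subset_of_card_le hsub (by rw [Finset.card_smul_finset, hB, hcard])
    intro b hb
    have : u b ∈ (Finset.range 5).image bpt := by
      rw [heq]; exact Finset.smul_mem_smul_finset hb
    obtain ⟨j, hj, hjb⟩ := Finset.mem_image.1 this
    exact ⟨j, Finset.mem_range.1 hj, hjb.symm⟩
  have huo : u • o = O0 := by
    apply octad_unique (s := u • B) (smul_mem_octads huM ho) O0_mem
    · rw [Finset.card_smul_finset, hB]
    · exact Finset.smul_finset_subset_smul_finset hBo
    · intro p hp
      obtain ⟨b, hb, rfl⟩ := Finset.mem_smul_finset.1 hp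
      obtain ⟨j, hj, hjb⟩ := hbase b hb
      show u b ∈ O0
      rw [hjb, O0, mem_unmask, idx_bpt]
      clear hjb
      revert j; decide
  have key : ∀ r, r ∉ B → ∃ v ∈ M24, Fixes 5 v ∧ v (u r) = if r ∈ o then bpt 5 else bpt 6 := by
    intro r hr
    have hne : ∀ j < 5, idx (u r) ≠ bidx j := by
      intro j hj heq
      have h1 : u r = bpt j := by apply idx_injective; rw [heq, idx_bpt]
      have h2 : bpt j ∈ u • B := hu j hj
      rw [← h1] at h2
      exact hr ((Finset.smul_mem_smul_finset_iff u).1 h2)
    have hmem : r ∈ o ↔ (0x149f : ℕ).testBit (idx (u r)) = true := by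
      rw [← mem_unmask, ← (Finset.smul_mem_smul_finset_iff u (s := o) (b := r)), huo]; rfl
    by_cases hro : r ∈ o
    · have h5 : (allow 5).testBit (idx (u r)) = true := by
        have : ∀ i < 24, (0x149f : ℕ).testBit i = true → (∀ j < 5, i ≠ bidx j) →
            (allow 5).testBit i = true := by decide
        exact this _ (idx_lt _) (hmem.1 hro) hne
      obtain ⟨v, hv, hvf, hvq⟩ := level_spec 5 (by norm_num) _ h5
      exact ⟨v, H_le hv, hvf, by rw [if_pos hro]; exact hvq⟩
    · have h6 : (allow 6).testBit (idx (u r)) = true := by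
        have : ∀ i < 24, ¬ (0x149f : ℕ).testBit i = true → (allow 6).testBit i = true := by decide
        exact this _ (idx_lt _) (fun hc => hro (hmem.2 hc))
      obtain ⟨v, hv, hvf, hvq⟩ := level_spec 6 (by norm_num) _ h6
      exact ⟨v, H_le hv, fun j hj => hvf j (by omega), by rw [if_neg hro]; exact hvq⟩
  obtain ⟨v, hv, hvf, hvq⟩ := key q hq
  obtain ⟨v', hv', hvf', hvq'⟩ := key q' hq'
  refine ⟨u⁻¹ * v'⁻¹ * v * u, M24.mul_mem (M24.mul_mem (M24.mul_mem (M24.inv_mem huM)
    (M24.inv_mem hv')) hv) huM, ?_, ?_⟩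
  · intro b hb
    obtain ⟨j, hj, hjb⟩ := hbase b hb
    show u⁻¹ (v'⁻¹ (v (u b))) = b
    rw [hjb, hvf j hj, Equiv.Perm.inv_eq_iff_eq.2 (hvf' j hj).symm, ← hjb]
    simp
  · show u⁻¹ (v'⁻¹ (v (u q))) = q'
    rw [hvq, Equiv.Perm.inv_eq_iff_eq, Equiv.Perm.inv_eq_iff_eq, hvq']
    by_cases hqo : q ∈ o
    · rw [if_pos hqo, if_pos (h.1 hqo)]
    · rw [if_neg hqo, if_neg (fun hc => hqo (h.2 hc))]

/-- the group of the code has two orbits on ordered sextuples of points. -/
theorem six_trans (π : Equiv.Perm GolayPt) (A : Finset GolayPt) (hA : A.card = 6)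
    (h : (∃ o ∈ octads, A ⊆ o) ↔ (∃ o ∈ octads, π • A ⊆ o)) :
    ∃ g ∈ M24, ∀ a ∈ A, g a = π a := by
  obtain ⟨a, ha⟩ : A.Nonempty := by rw [← Finset.card_pos]; omega
  have hA' : (A.erase a).card = 5 := by rw [Finset.card_erase_of_mem ha, hA]
  obtain ⟨g0, hg0, hg0a⟩ := exists_M24_agree π (A.erase a) hA'.le
  have hB : (π • A.erase a).card = 5 := by rw [Finset.card_smul_finset, hA']
  obtain ⟨o, ho, hBo⟩ := exists_octad _ hB
  have hins : A = insert a (A.erase a) := (Finset.insert_erase ha).symm
  have hq : g0 a ∉ π • A.erase a := by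
    rw [← smul_eq_of_agree hg0a]
    intro hc
    have := (Finset.smul_mem_smul_finset_iff g0).1 hc
    exact (Finset.notMem_erase a A) this
  have hq' : π a ∉ π • A.erase a := by
    intro hc
    have := (Finset.smul_mem_smul_finset_iff π).1 hc
    exact (Finset.notMem_erase a A) this
  have h1 : g0 a ∈ o ↔ ∃ o ∈ octads, A ⊆ o := by
    constructor
    · intro hm
      refine ⟨g0⁻¹ • o, smul_mem_octads (M24.inv_mem hg0) ho, ?_⟩
      intro p hp
      rw [Finset.mem_inv_smul_finset_iff]
      by_cases hpa : p = a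
      · rw [hpa]; exact hm
      · have hpe : p ∈ A.erase a := Finset.mem_erase.2 ⟨hpa, hp⟩
        show g0 p ∈ o
        rw [hg0a p hpe]
        exact hBo (Finset.smul_mem_smul_finset hpe)
    · rintro ⟨o', ho', hAo'⟩
      have : g0 • o' = o := by
        apply octad_unique (s := π • A.erase a) (smul_mem_octads hg0 ho') ho hB.ge _ hBo
        rw [← smul_eq_of_agree hg0a]
        exact Finset.smul_finset_subset_smul_finset ((Finset.erase_subset _ _).trans hAo')
      rw [← this]
      exact Finset.smul_mem_smul_finset (hAo' ha)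
  have h2 : π a ∈ o ↔ ∃ o ∈ octads, π • A ⊆ o := by
    constructor
    · intro hm
      refine ⟨o, ho, ?_⟩
      intro p hp
      obtain ⟨b, hb, rfl⟩ := Finset.mem_smul_finset.1 hp
      by_cases hba : b = a
      · rw [hba]; exact hm
      · exact hBo (Finset.smul_mem_smul_finset (Finset.mem_erase.2 ⟨hba, hb⟩))
    · rintro ⟨o', ho', hAo'⟩
      have : o' = o := by
        apply octad_unique (s := π • A.erase a) ho' ho hB.ge _ hBo
        exact (Finset.smul_finset_subset_smul_finset (Finset.erase_subset _ _)).trans hAo'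
      rw [← this]
      exact hAo' (Finset.smul_mem_smul_finset ha)
  obtain ⟨g1, hg1, hg1b, hg1q⟩ := fix5_trans _ hB (g0 a) (π a) hq hq' o ho hBo
    (h1.trans (h.trans h2.symm))
  refine ⟨g1 * g0, M24.mul_mem hg1 hg0, ?_⟩
  intro p hp
  show g1 (g0 p) = π p
  by_cases hpa : p = a
  · rw [hpa]; exact hg1q
  · have hpe : p ∈ A.erase a := Finset.mem_erase.2 ⟨hpa, hp⟩
    rw [hg0a p hpe]
    exact hg1b _ (Finset.smul_mem_smul_finset hpe)

theorem unmask_subset_iff {m : ℕ} (hm : m < 2 ^ 24) (s : Finset GolayPt) :
    unmask m ⊆ s ↔ Nat.land m (mask s) = m := by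
  rw [land_mask m hm, ← Finset.inter_eq_left]
  constructor
  · intro h; rw [h, mask_unmask hm]
  · intro h
    apply mask_injective
    rw [h, mask_unmask hm]

/-- test for octads containing the set with mask `m`. -/
def octSup (m x : ℕ) : Bool := Nat.beq (pcF x) 8 && Nat.beq (Nat.land m x) m

theorem ncard_octads_unmask {m : ℕ} (hm : m < 2 ^ 24) :
    {o : Finset GolayPt | o ∈ octads ∧ unmask m ⊆ o}.ncard =
      countRange (fun c => octSup m (encF c)) 12 0 := by
  rw [← ncard_codeF (octSup m)]
  congr 1
  ext s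
  simp only [octads, wordsOfWeight, Set.mem_ofPred_eq, octSup, Bool.and_eq_true, Nat.beq_eq,
    ← card_eq_pcF, and_assoc, unmask_subset_iff hm]

theorem card_unmask {m : ℕ} (hm : m < 2 ^ 24) : (unmask m).card = pcF m := by
  rw [card_eq_pcF, mask_unmask hm]

/-- the number of octads containing a set of at most five points depends only on its size. -/
theorem ncard_octads_sup (T : Finset GolayPt) {m : ℕ} (hm : m < 2 ^ 24) (hT : T.card = pcF m)
    (h5 : T.card ≤ 5) : {o : Finset GolayPt | o ∈ octads ∧ T ⊆ o}.ncard =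
      countRange (fun c => octSup m (encF c)) 12 0 := by
  obtain ⟨g, hg, -, h⟩ := pair_trans ∅ T (unmask m) (by rw [card_unmask hm, hT]) (by simp)
    (by simpa using h5)
  rw [← ncard_octads_unmask hm]
  apply ncard_smul_transfer g
  intro x
  rw [smul_mem_octads_iff hg, ← h, Finset.smul_finset_subset_smul_finset_iff]

theorem count_sup1 : countRange (fun c => octSup 1 (encF c)) 12 0 = 253 := by decide +kernel
theorem count_sup2 : countRange (fun c => octSup 3 (encF c)) 12 0 = 77 := by decide +kernel
theorem count_sup3 : countRange (fun c => octSup 7 (encF c)) 12 0 = 21 := by decide +kernel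
theorem count_sup4 : countRange (fun c => octSup 15 (encF c)) 12 0 = 5 := by decide +kernel

theorem ncard_octads_sup3 (T : Finset GolayPt) (hT : T.card = 3) :
    {o : Finset GolayPt | o ∈ octads ∧ T ⊆ o}.ncard = 21 := by
  rw [ncard_octads_sup T (m := 7) (by norm_num) (by rw [hT]; decide +kernel) (by omega), count_sup3]

theorem ncard_octads_sup4 (T : Finset GolayPt) (hT : T.card = 4) :
    {o : Finset GolayPt | o ∈ octads ∧ T ⊆ o}.ncard = 5 := by
  rw [ncard_octads_sup T (m := 15) (by norm_num) (by rw [hT]; decide +kernel) (by omega),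
    count_sup4]

theorem ncard_octads_sup2 (T : Finset GolayPt) (hT : T.card = 2) :
    {o : Finset GolayPt | o ∈ octads ∧ T ⊆ o}.ncard = 77 := by
  rw [ncard_octads_sup T (m := 3) (by norm_num) (by rw [hT]; decide +kernel) (by omega), count_sup2]

theorem ncard_octads_sup1 (T : Finset GolayPt) (hT : T.card = 1) :
    {o : Finset GolayPt | o ∈ octads ∧ T ⊆ o}.ncard = 253 := by
  rw [ncard_octads_sup T (m := 1) (by norm_num) (by rw [hT]; decide +kernel) (by omega), count_sup1]

end Cfsg.Agent.Lib.Helper11
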