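import Mathlib
import Cfsg.Agent.Lib.Helper11.LeechVec
import Cfsg.Agent.Lib.Helper11.M24Sets

set_option autoImplicit false

namespace Cfsg.Agent.Lib.Helper11

open Cfsg Cfsg.Agent.Lib.Helper3
open scoped Pointwise

/-- the frame vectors. -/
def vE (i : GolayPt) : GolayPt → ℤ := Pi.single i 8

theorem vE_mem (i : GolayPt) : vE i ∈ leechLattice := by
  have : vE i = vTwo i i 4 4 := by
    unfold vE vTwo
    rw [← Pi.single_add]
    norm_num
  rw [this]
  exact vTwo_mem i i rfl rfl rfl

theorem vE_apply (i j : GolayPt) : vE i j = if j = i then 8 else 0 := by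
  unfold vE
  rw [Pi.single_apply]

theorem dot_vE (x : GolayPt → ℤ) (i : GolayPt) : dotInt x (vE i) = 8 * x i := by
  unfold dotInt
  simp only [vE_apply, mul_ite, mul_zero, Finset.sum_ite_eq', Finset.mem_univ, if_true]
  ring

theorem sqNorm_vE (i : GolayPt) : sqNorm (vE i) = 64 := by
  unfold sqNorm
  have : ∀ j, vE i j ^ 2 = if j = i then 64 else 0 := by
    intro j; rw [vE_apply]; split <;> norm_num
  rw [Finset.sum_congr rfl (fun j _ => this j), Finset.sum_ite_eq']
  simp

/-- the frame vectors as lattice elements. -/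
def lE (i : GolayPt) : ↥leechLattice := ⟨vE i, vE_mem i⟩

theorem exists_octad_mem_not_mem {i j : GolayPt} (hij : i ≠ j) :
    ∃ o ∈ octads, j ∈ o ∧ i ∉ o := by
  by_contra hcon
  push Not at hcon
  have h1 := ncard_octads_sup1 {j} (by simp)
  have h2 := ncard_octads_sup2 {i, j} (Finset.card_pair hij)
  have : {o : Finset GolayPt | o ∈ octads ∧ {j} ⊆ o} = {o : Finset GolayPt | o ∈ octads ∧ {i, j} ⊆ o} := by
    ext o
    constructor
    · rintro ⟨ho, hj⟩
      have hj' : j ∈ o := hj (by simp)
      refine ⟨ho, ?_⟩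
      intro p hp
      rcases Finset.mem_insert.1 hp with rfl | hp
      · exact hcon o ho hj'
      · rw [Finset.mem_singleton.1 hp]; exact hj'
    · rintro ⟨ho, hj⟩
      exact ⟨ho, fun p hp => hj (Finset.mem_insert_of_mem hp)⟩
  rw [this, h2] at h1
  norm_num at h1

theorem signCh_vE_of_not_mem {c : Finset GolayPt} {i : GolayPt} (hi : i ∉ c) :
    signCh c (vE i) = vE i := by
  funext j
  unfold signCh
  by_cases hj : j ∈ c
  · have : j ≠ i := fun h => hi (h ▸ hj)
    simp [hj, vE_apply, this]
  · simp [hj]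

theorem permCh_vE (σ : Equiv.Perm GolayPt) (i : GolayPt) : permCh σ (vE i) = vE (σ i) := by
  funext j
  show vE i (σ.symm j) = vE (σ i) j
  rw [vE_apply, vE_apply]
  by_cases h : j = σ i
  · simp [h]
  · have : σ.symm j ≠ i := fun h' => h (by rw [← h']; simp)
    simp [h, this]

/-- a vector supported at one point with norm 64. -/
theorem eq_vE_of_support {w : GolayPt → ℤ} {i : GolayPt} (h0 : ∀ j, j ≠ i → w j = 0)
    (hn : sqNorm w = 64) : w = vE i ∨ w = -vE i := by
  have h1 : sqNorm w = w i ^ 2 := by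
    unfold sqNorm
    rw [Finset.sum_eq_single i]
    · intro j _ hj
      rw [h0 j hj]; norm_num
    · intro h; exact absurd (Finset.mem_univ i) h
  rw [hn] at h1
  have h2 : w i = 8 ∨ w i = -8 := by
    have : (w i - 8) * (w i + 8) = 0 := by linear_combination -h1
    rcases mul_eq_zero.1 this with h | h
    · left; omega
    · right; omega
  rcases h2 with h | h
  · left
    funext j
    rw [vE_apply]
    by_cases hj : j = i
    · rw [if_pos hj, hj, h]
    · rw [if_neg hj, h0 j hj]
  · right
    funext j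
    rw [Pi.neg_apply, vE_apply]
    by_cases hj : j = i
    · rw [if_pos hj, hj, h]
    · rw [if_neg hj, h0 j hj]; rfl

/-- an automorphism acting as a scalar sign on the frame is that scalar. -/
theorem eq_of_frame {z : ↥Co0} {s : ℤ} (hs : s = 1 ∨ s = -1)
    (h : ∀ i, ((z • lE i : ↥leechLattice) : GolayPt → ℤ) = s • vE i) (v : ↥leechLattice) :
    ((z • v : ↥leechLattice) : GolayPt → ℤ) = s • (v : GolayPt → ℤ) := by
  funext i
  have h1 := Co0_dot z v (lE i)
  rw [h i] at h1
  have h2 : dotInt ((z • v : ↥leechLattice) : GolayPt → ℤ) (s • vE i) =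
      s * (8 * ((z • v : ↥leechLattice) : GolayPt → ℤ) i) := by
    rw [← dot_vE]
    unfold dotInt
    rw [Finset.mul_sum]
    apply Finset.sum_congr rfl
    intro j _
    simp only [Pi.smul_apply, smul_eq_mul]
    ring
  rw [h2] at h1
  have h3 : dotInt (v : GolayPt → ℤ) ((lE i : ↥leechLattice) : GolayPt → ℤ) = 8 * v.1 i := dot_vE _ _
  rw [h3] at h1
  simp only [Pi.smul_apply, smul_eq_mul]
  rcases hs with rfl | rfl <;> omega

theorem center_cases {z : ↥Co0} (hz : z ∈ Subgroup.center ↥Co0) : z = 1 ∨ z = negCo0 := by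
  rw [Subgroup.mem_center_iff] at hz
  -- the image of a frame vector
  have h1 : ∀ i, ((z • lE i : ↥leechLattice) : GolayPt → ℤ) = vE i ∨
      ((z • lE i : ↥leechLattice) : GolayPt → ℤ) = -vE i := by
    intro i
    apply eq_vE_of_support
    · intro j hj
      obtain ⟨o, ho, hjo, hio⟩ := exists_octad_mem_not_mem (Ne.symm hj)
      have e1 : signCo0 o ho.1 • lE i = lE i := Subtype.ext (signCh_vE_of_not_mem hio)
      have e2 : signCo0 o ho.1 • z • lE i = z • lE i := by
        rw [← mul_smul, hz, mul_smul, e1]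
      have e3 := congrArg (fun v : ↥leechLattice => (v : GolayPt → ℤ) j) e2
      have e4 : ((signCo0 o ho.1 • z • lE i : ↥leechLattice) : GolayPt → ℤ) j =
          -((z • lE i : ↥leechLattice) : GolayPt → ℤ) j := by
        show signCh o _ j = _
        simp [signCh, hjo]
      simp only [e4] at e3
      omega
    · rw [Co0_sqNorm]; exact sqNorm_vE i
  have h2 : ∀ i i', ((z • lE i : ↥leechLattice) : GolayPt → ℤ) = vE i →
      ((z • lE i' : ↥leechLattice) : GolayPt → ℤ) = vE i' := by
    intro i i' hi
    obtain ⟨σ, hσ, hσi⟩ : ∃ σ ∈ M24, σ i = i' := by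
      obtain ⟨g, hg, hga⟩ := exists_M24_agree (Equiv.swap i i') {i} (by simp)
      exact ⟨g, hg, by rw [hga i (by simp)]; simp⟩
    have e1 : permCo0 σ hσ • lE i = lE i' := Subtype.ext (by
      show permCh σ (vE i) = vE i'
      rw [permCh_vE, hσi])
    have hi' : z • lE i = lE i := Subtype.ext hi
    rw [← e1, ← mul_smul, ← hz, mul_smul, hi', e1]
    rfl
  rcases h1 none with h | h
  · left
    apply Co0_ext
    intro v
    rw [eq_of_frame (s := 1) (Or.inl rfl) (fun i => by rw [one_smul]; exact h2 none i h) v,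
      one_smul, one_smul]
  · right
    apply Co0_ext
    intro v
    have h3 : ∀ i, ((z • lE i : ↥leechLattice) : GolayPt → ℤ) = (-1 : ℤ) • vE i := by
      intro i
      rcases h1 i with h' | h'
      · have := h2 i none h'
        rw [this] at h
        have e := congrFun h none
        simp [vE_apply] at e
      · rw [h']; simp
    rw [eq_of_frame (s := -1) (Or.inr rfl) h3 v, negCo0_smul]
    simp

end Cfsg.Agent.Lib.Helper11
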