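import Mathlib
import Cfsg.Agent.Lib.Helper11.LeechFrame

set_option autoImplicit false

namespace Cfsg.Agent.Lib.Helper11

open Cfsg Cfsg.Agent.Lib.Helper3
open scoped Pointwise

theorem resSet_vSet (o : Finset GolayPt) : resSet (vSet o) 2 = o := by
  ext i
  rw [mem_resSet]
  unfold vSet
  by_cases hi : i ∈ o
  · simp [hi]
  · simp [hi]

/-- vectors divisible by four. -/
theorem mem_of_four {M : AddSubgroup (GolayPt → ℤ)} {p0 : GolayPt}
    (h3 : ∀ i, vTwo i p0 4 (-4) ∈ M) (h4 : vE p0 ∈ M) {x : GolayPt → ℤ}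
    (hx4 : ∀ i, x i % 4 = 0) (hx8 : (∑ i, x i) % 8 = 0) : x ∈ M := by
  have hz : ∀ i, x i = 4 * (x i / 4) := fun i => by have := hx4 i; omega
  have hs : ∑ i, x i = 4 * ∑ i, x i / 4 := by
    rw [Finset.mul_sum]
    exact Finset.sum_congr rfl (fun i _ => hz i)
  obtain ⟨k, hk⟩ : ∃ k, ∑ i, x i / 4 = 2 * k := ⟨(∑ i, x i / 4) / 2, by omega⟩
  have : x = ∑ i, (x i / 4) • vTwo i p0 4 (-4) + k • vE p0 := by
    funext j
    simp only [Pi.add_apply, Finset.sum_apply, Pi.smul_apply, smul_eq_mul, vTwo_apply, vE_apply]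
    have e1 : ∀ i, x i / 4 * ((if j = i then 4 else 0) + if j = p0 then -4 else 0) =
        (if j = i then 4 * (x i / 4) else 0) + (x i / 4) * (if j = p0 then -4 else 0) := by
      intro i
      split <;> ring
    rw [Finset.sum_congr rfl (fun i _ => e1 i), Finset.sum_add_distrib, Finset.sum_ite_eq,
      ← Finset.sum_mul, hk, if_pos (Finset.mem_univ j), ← hz j]
    split <;> ring
  rw [this]
  exact M.add_mem (M.sum_mem (fun i _ => M.zsmul_mem (h3 i) _)) (M.zsmul_mem h4 _)

/-- a generating set of the lattice. -/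
theorem leech_le_of_gens (M : AddSubgroup (GolayPt → ℤ)) (p0 : GolayPt) (h1 : vOdd p0 ∈ M)
    (h2 : ∀ b ∈ basisList, vSet (unmask b) ∈ M) (h3 : ∀ i, vTwo i p0 4 (-4) ∈ M)
    (h4 : vE p0 ∈ M) : leechLattice ≤ M := by
  have stepA : ∀ c, ∃ y ∈ M, (∀ i, y i % 2 = 0) ∧ (∑ i, y i) % 8 = 0 ∧
      resSet y 2 = unmask (enc c) := by
    apply enc_induction (fun m => ∃ y ∈ M, (∀ i, y i % 2 = 0) ∧ (∑ i, y i) % 8 = 0 ∧
      resSet y 2 = unmask m)
    · refine ⟨0, M.zero_mem, fun i => rfl, by simp, ?_⟩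
      ext i
      rw [mem_resSet, mem_unmask]
      simp
    · rintro a b ⟨y, hy, e1, e2, e3⟩ ⟨y', hy', e1', e2', e3'⟩
      refine ⟨y + y', M.add_mem hy hy', fun i => ?_, ?_, ?_⟩
      · have := e1 i
        have := e1' i
        simp only [Pi.add_apply]
        omega
      · simp only [Pi.add_apply, Finset.sum_add_distrib]
        omega
      · rw [unmask_xor, ← e3, ← e3']
        ext i
        rw [Finset.mem_symmDiff, mem_resSet, mem_resSet, mem_resSet]
        have := e1 i
        have := e1' i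
        simp only [Pi.add_apply]
        omega
    · intro b hb
      refine ⟨vSet (unmask b), h2 b hb, fun i => ?_, ?_, resSet_vSet _⟩
      · unfold vSet; split <;> rfl
      · rw [sum_vSet, (basis_octads b hb).2]; rfl
  have even : ∀ x ∈ leechLattice, (∀ i, x i % 2 = 0) → x ∈ M := by
    intro x hx he
    rcases mem_leech_cases hx with ⟨-, g2, g3⟩ | ⟨g1, -, -⟩
    · have hA : resSet x 2 = unmask (enc (mask (resSet x 2) % 4096)) := by
        rw [mem_supports_iff] at g3
        rw [← g3, unmask_mask]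
      obtain ⟨y, hy, e1, e2, e3⟩ := stepA (mask (resSet x 2) % 4096)
      rw [← hA] at e3
      have : x = (x - y) + y := by abel
      rw [this]
      refine M.add_mem (mem_of_four h3 h4 (fun i => ?_) ?_) hy
      · have a1 := he i
        have a2 := e1 i
        have a3 : i ∈ resSet y 2 ↔ i ∈ resSet x 2 := by rw [e3]
        rw [mem_resSet, mem_resSet] at a3
        simp only [Pi.sub_apply]
        omega
      · simp only [Pi.sub_apply, Finset.sum_sub_distrib]
        omega
    · have := g1 none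
      have := he none
      omega
  intro x hx
  rcases mem_leech_cases hx with ⟨g1, -, -⟩ | ⟨g1, -, -⟩
  · exact even x hx g1
  · have : x = (x - vOdd p0) + vOdd p0 := by abel
    rw [this]
    refine M.add_mem (even _ (leechLattice.sub_mem hx (vOdd_mem p0)) (fun i => ?_)) h1
    have := g1 i
    simp only [Pi.sub_apply, vOdd]
    split <;> omega

end Cfsg.Agent.Lib.Helper11
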