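import Mathlib
import Cfsg.Agent.Lib.Helper11.LeechGen

set_option autoImplicit false

namespace Cfsg.Agent.Lib.Helper11

open Cfsg Cfsg.Agent.Lib.Helper3
open scoped Pointwise

/-- index of the tetrad of the standard sextet containing a point. -/
def tetOf (p : GolayPt) : ℕ := Nat.land (Nat.shiftRight 0x54965368cb2b954000 (3 * idx p)) 7

theorem tetOf_lt : ∀ p, tetOf p < 6 := by decide

theorem card_tet : ∀ k < 6, (Finset.univ.filter (fun p => tetOf p = k)).card = 4 := by decide

/-- sum of the coordinates over a tetrad. -/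
def tsum (x : GolayPt → ℤ) (k : ℕ) : ℤ := ∑ i, if tetOf i = k then x i else 0

/-- the sign attached to a tetrad. -/
def sg (k : ℕ) : ℤ := if k = 0 then -1 else 1

theorem sg_mul_self (k : ℕ) : sg k * sg k = 1 := by unfold sg; split <;> norm_num

/-- the extra automorphism. -/
def xi (x : GolayPt → ℤ) : GolayPt → ℤ := fun i => sg (tetOf i) * (x i - tsum x (tetOf i) / 2)

theorem tsum_add (x y : GolayPt → ℤ) (k : ℕ) : tsum (x + y) k = tsum x k + tsum y k := by
  unfold tsum
  rw [← Finset.sum_add_distrib]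
  apply Finset.sum_congr rfl
  intro i _
  simp only [Pi.add_apply]
  split <;> simp

theorem tsum_neg (x : GolayPt → ℤ) (k : ℕ) : tsum (-x) k = -tsum x k := by
  unfold tsum
  rw [← Finset.sum_neg_distrib]
  apply Finset.sum_congr rfl
  intro i _
  simp only [Pi.neg_apply]
  split <;> simp

theorem tsum_mul (φ : ℕ → ℤ) (x : GolayPt → ℤ) (k : ℕ) :
    tsum (fun i => φ (tetOf i) * x i) k = φ k * tsum x k := by
  unfold tsum
  rw [Finset.mul_sum]
  apply Finset.sum_congr rfl
  intro i _
  split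
  · rename_i h; show φ (tetOf i) * x i = _; rw [h]
  · simp

theorem tsum_const (φ : ℕ → ℤ) {k : ℕ} (hk : k < 6) :
    tsum (fun i => φ (tetOf i)) k = 4 * φ k := by
  unfold tsum
  have : ∀ i, (if tetOf i = k then φ (tetOf i) else 0) = if tetOf i = k then φ k else 0 := by
    intro i
    split
    · rename_i h; rw [h]
    · rfl
  rw [Finset.sum_congr rfl (fun i _ => this i), sum_ite_const, card_tet k hk]
  ring

theorem tsum_sub (x y : GolayPt → ℤ) (k : ℕ) :
    tsum (fun i => x i - y i) k = tsum x k - tsum y k := by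
  unfold tsum
  rw [← Finset.sum_sub_distrib]
  apply Finset.sum_congr rfl
  intro i _
  split <;> simp

theorem sum_eq_sum_tsum (F : GolayPt → ℤ) : ∑ i, F i = ∑ k ∈ Finset.range 6, tsum F k := by
  unfold tsum
  rw [Finset.sum_comm]
  apply Finset.sum_congr rfl
  intro i _
  rw [Finset.sum_ite_eq, if_pos (Finset.mem_range.2 (tetOf_lt i))]

theorem tsum_even {x : GolayPt → ℤ} (hx : x ∈ leechLattice) {k : ℕ} (hk : k < 6) :
    tsum x k % 2 = 0 := by
  obtain ⟨r, hr⟩ : ∃ r : ℤ, ∀ i, x i % 2 = r := by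
    rcases mem_leech_cases hx with ⟨h1, -, -⟩ | ⟨h1, -, -⟩
    · exact ⟨0, h1⟩
    · exact ⟨1, h1⟩
  unfold tsum
  rw [Finset.sum_int_mod]
  have : ∀ i, (if tetOf i = k then x i else 0) % 2 = if tetOf i = k then r else 0 := by
    intro i
    split
    · exact hr i
    · rfl
  rw [Finset.sum_congr rfl (fun i _ => this i), sum_ite_const, card_tet k hk]
  omega

/-- evenness of all tetrad sums. -/
def TEven (x : GolayPt → ℤ) : Prop := ∀ k < 6, tsum x k % 2 = 0

theorem tEven_of_mem {x : GolayPt → ℤ} (hx : x ∈ leechLattice) : TEven x :=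
  fun _ hk => tsum_even hx hk

theorem xi_add {x y : GolayPt → ℤ} (hx : TEven x) (hy : TEven y) : xi (x + y) = xi x + xi y := by
  funext i
  simp only [xi, Pi.add_apply, tsum_add]
  have h1 := hx _ (tetOf_lt i)
  have h2 := hy _ (tetOf_lt i)
  have : (tsum x (tetOf i) + tsum y (tetOf i)) / 2 = tsum x (tetOf i) / 2 + tsum y (tetOf i) / 2 := by
    omega
  rw [this]; ring

theorem xi_neg {x : GolayPt → ℤ} (hx : TEven x) : xi (-x) = -xi x := by
  funext i
  simp only [xi, Pi.neg_apply, tsum_neg]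
  have h1 := hx _ (tetOf_lt i)
  have : (-tsum x (tetOf i)) / 2 = -(tsum x (tetOf i) / 2) := by omega
  rw [this]; ring

theorem tsum_xi {x : GolayPt → ℤ} (hx : TEven x) {k : ℕ} (hk : k < 6) :
    tsum (xi x) k = -(sg k * tsum x k) := by
  have h1 : xi x = fun i => sg (tetOf i) * ((fun j => x j - tsum x (tetOf j) / 2) i) := rfl
  rw [h1, tsum_mul, tsum_sub, tsum_const (fun k => tsum x k / 2) hk]
  have := hx k hk
  have h2 : 4 * (tsum x k / 2) = 2 * tsum x k := by omega
  rw [h2]; ring

theorem xi_xi {x : GolayPt → ℤ} (hx : TEven x) : xi (xi x) = x := by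
  funext i
  have hk := tetOf_lt i
  show sg (tetOf i) * (xi x i - tsum (xi x) (tetOf i) / 2) = x i
  rw [tsum_xi hx hk]
  have h1 := hx _ hk
  obtain ⟨h, hh⟩ : ∃ h, tsum x (tetOf i) = 2 * h := ⟨tsum x (tetOf i) / 2, by omega⟩
  have h2 : -(sg (tetOf i) * tsum x (tetOf i)) / 2 = -(sg (tetOf i) * h) := by
    rw [hh]
    have : -(sg (tetOf i) * (2 * h)) = 2 * (-(sg (tetOf i) * h)) := by ring
    rw [this, Int.mul_ediv_cancel_left _ (by norm_num)]
  have h3 : xi x i = sg (tetOf i) * (x i - h) := by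
    show sg (tetOf i) * (x i - tsum x (tetOf i) / 2) = _
    rw [hh, Int.mul_ediv_cancel_left _ (by norm_num)]
  rw [h2, h3]
  have := sg_mul_self (tetOf i)
  linear_combination (x i) * this

theorem sqNorm_xi {x : GolayPt → ℤ} (hx : TEven x) : sqNorm (xi x) = sqNorm x := by
  unfold sqNorm
  have h1 : ∀ i, xi x i ^ 2 = x i ^ 2 - (fun k => tsum x k) (tetOf i) * x i +
      (fun k => (tsum x k / 2) ^ 2) (tetOf i) := by
    intro i
    have hk := tetOf_lt i
    have h1 := hx _ hk
    obtain ⟨h, hh⟩ : ∃ h, tsum x (tetOf i) = 2 * h := ⟨tsum x (tetOf i) / 2, by omega⟩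
    show (sg (tetOf i) * (x i - tsum x (tetOf i) / 2)) ^ 2 = _
    simp only [hh, Int.mul_ediv_cancel_left _ (show (2 : ℤ) ≠ 0 by norm_num)]
    have := sg_mul_self (tetOf i)
    linear_combination (x i - h) ^ 2 * this
  rw [Finset.sum_congr rfl (fun i _ => h1 i), Finset.sum_add_distrib, Finset.sum_sub_distrib,
    sum_eq_sum_tsum (fun i => (fun k => tsum x k) (tetOf i) * x i),
    sum_eq_sum_tsum (fun i => (fun k => (tsum x k / 2) ^ 2) (tetOf i))]
  have h2 : ∑ k ∈ Finset.range 6, tsum (fun i => (fun k => tsum x k) (tetOf i) * x i) k =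
      ∑ k ∈ Finset.range 6, tsum (fun i => (fun k => (tsum x k / 2) ^ 2) (tetOf i)) k := by
    apply Finset.sum_congr rfl
    intro k hk
    rw [Finset.mem_range] at hk
    rw [tsum_mul, tsum_const (fun k => (tsum x k / 2) ^ 2) hk]
    have h1 := hx _ hk
    obtain ⟨h, hh⟩ : ∃ h, tsum x k = 2 * h := ⟨tsum x k / 2, by omega⟩
    simp only [hh, Int.mul_ediv_cancel_left _ (show (2 : ℤ) ≠ 0 by norm_num)]
    ring
  rw [h2]; ring

/-- decidable test for membership in the lattice. -/
def isLeech (x : GolayPt → ℤ) : Bool :=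
  decide (∀ i, x i % 2 = x none % 2) && decide ((∑ i, x i) % 8 = (4 * x none) % 8) &&
    decide (InC (mask (resSet x (x none + 2))))

theorem isLeech_sound {x : GolayPt → ℤ} (h : isLeech x = true) : x ∈ leechLattice := by
  unfold isLeech at h
  simp only [Bool.and_eq_true, decide_eq_true_eq] at h
  rw [mem_leechLattice, mem_leechSet_iff]
  exact ⟨x none, h.1.1, h.1.2, (mem_supports_iff _).2 h.2⟩

end Cfsg.Agent.Lib.Helper11
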