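import Mathlib
import Cfsg.Agent.Lib.Helper11.LeechXi

set_option autoImplicit false

namespace Cfsg.Agent.Lib.Helper11

open Cfsg Cfsg.Agent.Lib.Helper3
open scoped Pointwise

theorem xi_gen1 : isLeech (xi (vOdd none)) = true := by decide +kernel
theorem xi_gen2 : ∀ b ∈ basisList, isLeech (xi (vSet (unmask b))) = true := by decide +kernel
theorem xi_gen3 : ∀ i, isLeech (xi (vTwo i none 4 (-4))) = true := by decide +kernel
theorem xi_gen4 : isLeech (xi (vE none)) = true := by decide +kernel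

/-- the lattice vectors whose image is again in the lattice. -/
def xiSub : AddSubgroup (GolayPt → ℤ) where
  carrier := {x | x ∈ leechLattice ∧ xi x ∈ leechLattice}
  add_mem' := by
    rintro x y ⟨hx, hx'⟩ ⟨hy, hy'⟩
    refine ⟨leechLattice.add_mem hx hy, ?_⟩
    rw [xi_add (tEven_of_mem hx) (tEven_of_mem hy)]
    exact leechLattice.add_mem hx' hy'
  zero_mem' := by
    refine ⟨leechLattice.zero_mem, ?_⟩
    have : xi 0 = 0 := by
      funext i
      simp [xi, tsum]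
    rw [this]; exact leechLattice.zero_mem
  neg_mem' := by
    rintro x ⟨hx, hx'⟩
    refine ⟨leechLattice.neg_mem hx, ?_⟩
    rw [xi_neg (tEven_of_mem hx)]
    exact leechLattice.neg_mem hx'

theorem xi_mem {x : GolayPt → ℤ} (hx : x ∈ leechLattice) : xi x ∈ leechLattice := by
  have : leechLattice ≤ xiSub := by
    apply leech_le_of_gens _ none
    · exact ⟨vOdd_mem none, isLeech_sound xi_gen1⟩
    · intro b hb
      exact ⟨vSet_mem (basis_octads b hb).1, isLeech_sound (xi_gen2 b hb)⟩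
    · intro i
      exact ⟨vTwo_mem _ _ rfl rfl rfl, isLeech_sound (xi_gen3 i)⟩
    · exact ⟨vE_mem none, isLeech_sound xi_gen4⟩
  exact (this hx).2

/-- the extra automorphism of the lattice. -/
def xiCo0 : ↥Co0 :=
  mkCo0 xi xi (fun _ hx => xi_mem hx) (fun _ hx => xi_mem hx)
    (fun _ hx => xi_xi (tEven_of_mem hx)) (fun _ hx => xi_xi (tEven_of_mem hx))
    (fun _ hx _ hy => xi_add (tEven_of_mem hx) (tEven_of_mem hy))
    (fun _ hx => sqNorm_xi (tEven_of_mem hx))

theorem xiCo0_smul (v : ↥leechLattice) :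
    ((xiCo0 • v : ↥leechLattice) : GolayPt → ℤ) = xi v.1 := rfl

/-- two vectors of the lattice in the same orbit of the automorphism group. -/
def Rel (x y : GolayPt → ℤ) : Prop :=
  ∃ (hx : x ∈ leechLattice) (hy : y ∈ leechLattice) (g : ↥Co0),
    g • (⟨x, hx⟩ : ↥leechLattice) = ⟨y, hy⟩

theorem Rel.refl {x : GolayPt → ℤ} (hx : x ∈ leechLattice) : Rel x x := ⟨hx, hx, 1, one_smul _ _⟩

theorem Rel.symm {x y : GolayPt → ℤ} (h : Rel x y) : Rel y x := by
  obtain ⟨hx, hy, g, hg⟩ := h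
  exact ⟨hy, hx, g⁻¹, by rw [← hg, inv_smul_smul]⟩

theorem Rel.trans {x y z : GolayPt → ℤ} (h : Rel x y) (h' : Rel y z) : Rel x z := by
  obtain ⟨hx, hy, g, hg⟩ := h
  obtain ⟨_, hz, g', hg'⟩ := h'
  exact ⟨hx, hz, g' * g, by rw [mul_smul, hg, hg']⟩

theorem rel_sign {x : GolayPt → ℤ} (hx : x ∈ leechLattice) {c : Finset GolayPt} (hc : c ∈ CS) :
    Rel x (signCh c x) := ⟨hx, signCh_mem hc hx, signCo0 c hc, rfl⟩

theorem rel_perm {x : GolayPt → ℤ} (hx : x ∈ leechLattice) {σ : Equiv.Perm GolayPt}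
    (hσ : σ ∈ M24) : Rel x (permCh σ x) := ⟨hx, permCh_mem hσ hx, permCo0 σ hσ, rfl⟩

theorem rel_xi {x : GolayPt → ℤ} (hx : x ∈ leechLattice) : Rel x (xi x) :=
  ⟨hx, xi_mem hx, xiCo0, rfl⟩

theorem Rel.sqNorm_eq {x y : GolayPt → ℤ} (h : Rel x y) : sqNorm y = sqNorm x := by
  obtain ⟨hx, hy, g, hg⟩ := h
  have := Co0_sqNorm g ⟨x, hx⟩
  rw [hg] at this
  exact this

end Cfsg.Agent.Lib.Helper11
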