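import Mathlib
import Cfsg.Agent.Lib.Helper11.M24Sets
import Cfsg.Agent.Lib.Helper11.DodPair

set_option autoImplicit false

namespace Cfsg.Agent.Lib.Helper11

open Cfsg Cfsg.Agent.Lib.Helper3
open scoped Pointwise

/-- move an octad with a marked subset of at most five points to a standard position. -/
theorem flag_to_base {o s : Finset GolayPt} (ho : o ∈ octads) (hs : s ⊆ o) {m : ℕ}
    (hm : Nat.land m 0x1F = m) (hcard : s.card = pcF m) :
    ∃ g ∈ M24, g • o = O0 ∧ g • s = unmask m := by
  have hm32 : m < 32 := by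
    rw [← hm]; exact lt_of_le_of_lt Nat.and_le_right (by norm_num)
  have hm24 : m < 2 ^ 24 := lt_trans hm32 (by norm_num)
  have hsub : unmask m ⊆ unmask 0x1F := by
    rw [unmask_subset_iff hm24, mask_unmask (by norm_num)]; exact hm
  have hc5 : (unmask 0x1F).card = 5 := by rw [card_unmask (by norm_num)]; decide +kernel
  have hs5 : s.card ≤ 5 := by
    rw [hcard, ← card_unmask hm24, ← hc5]; exact Finset.card_le_card hsub
  obtain ⟨B, hsB, hBo, hB⟩ := Finset.exists_subsuperset_card_eq hs hs5 (by rw [ho.2]; norm_num)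
  obtain ⟨π, h1, h2⟩ := exists_perm_pair B s (unmask 0x1F) (unmask m) (by rw [hB, hc5])
    (by rw [hcard, card_unmask hm24])
    (by rw [Finset.inter_eq_right.2 hsB, Finset.inter_eq_right.2 hsub, hcard, card_unmask hm24])
  obtain ⟨g, hg, hga⟩ := exists_M24_agree π B hB.le
  have hgB : g • B = unmask 0x1F := by rw [smul_eq_of_agree hga, smul_eq_of_forall h1]
  refine ⟨g, hg, ?_, ?_⟩
  · apply octad_unique (s := unmask 0x1F) (smul_mem_octads hg ho) O0_mem hc5.ge
    · rw [← hgB]; exact Finset.smul_finset_subset_smul_finset hBo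
    · rw [O0, unmask_subset_iff (by norm_num), mask_unmask (by norm_num)]; decide +kernel
  · rw [smul_eq_of_agree (fun a ha => hga a (hsB ha)), smul_eq_of_forall h2]

/-- test for octads meeting the standard octad in the set with mask `m`. -/
def octCut (m x : ℕ) : Bool := Nat.beq (pcF x) 8 && Nat.beq (Nat.land 0x149f x) m

theorem ncard_octCut {m : ℕ} (hm : m < 2 ^ 24) :
    {o : Finset GolayPt | o ∈ octads ∧ O0 ∩ o = unmask m}.ncard =
      countRange (fun c => octCut m (encF c)) 12 0 := by
  rw [← ncard_codeF (octCut m)]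
  congr 1
  ext s
  have : O0 ∩ s = unmask m ↔ Nat.land 0x149f (mask s) = m := by
    rw [land_mask _ (by norm_num)]
    constructor
    · intro h
      show mask (O0 ∩ s) = m
      rw [h, mask_unmask hm]
    · intro h
      apply mask_injective
      rw [mask_unmask hm]; exact h
  simp only [octads, wordsOfWeight, Set.mem_ofPred_eq, octCut, Bool.and_eq_true, Nat.beq_eq,
    ← card_eq_pcF, and_assoc, this]

theorem ncard_octads_cut {o s : Finset GolayPt} (ho : o ∈ octads) (hs : s ⊆ o) {m : ℕ}
    (hm : Nat.land m 0x1F = m) (hcard : s.card = pcF m) :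
    {o' : Finset GolayPt | o' ∈ octads ∧ o ∩ o' = s}.ncard =
      countRange (fun c => octCut m (encF c)) 12 0 := by
  have hm24 : m < 2 ^ 24 := by
    rw [← hm]; exact lt_of_le_of_lt Nat.and_le_right (by norm_num)
  obtain ⟨g, hg, hgo, hgs⟩ := flag_to_base ho hs hm hcard
  rw [← ncard_octCut hm24]
  apply ncard_smul_transfer g
  intro x
  rw [smul_mem_octads_iff hg, ← hgo, ← hgs, ← Finset.smul_finset_inter, smul_left_cancel_iff]

theorem count_cut2 : countRange (fun c => octCut 3 (encF c)) 12 0 = 16 := by decide +kernel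
theorem count_cut4 : countRange (fun c => octCut 15 (encF c)) 12 0 = 4 := by decide +kernel

end Cfsg.Agent.Lib.Helper11
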