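import Mathlib
import Cfsg.Agent.Lib.Helper11.LeechXi2
import Cfsg.Agent.Lib.Helper11.M24Sets2

set_option autoImplicit false

namespace Cfsg.Agent.Lib.Helper11

open Cfsg Cfsg.Agent.Lib.Helper3
open scoped Pointwise

/-- every even subset of an octad is cut out by a code word. -/
theorem even_subset_cut {o : Finset GolayPt} (ho : o ∈ octads) :
    ∀ (n : ℕ) (E : Finset GolayPt), E.card = 2 * n → E ⊆ o → ∃ c ∈ CS, c ∩ o = E := by
  intro n
  induction n with
  | zero =>
    intro E hE _
    have : E = ∅ := Finset.card_eq_zero.1 (by omega)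
    exact ⟨∅, empty_mem_CS, by rw [this]; simp⟩
  | succ n ih =>
    intro E hE hEo
    obtain ⟨s, hsE, hs⟩ := Finset.exists_subset_card_eq (show 2 ≤ E.card by omega)
    have h16 := ncard_octads_cut ho (hsE.trans hEo) (m := 3) (by decide) (by rw [hs]; decide +kernel)
    rw [count_cut2] at h16
    obtain ⟨o', ho', hoo'⟩ : {o' : Finset GolayPt | o' ∈ octads ∧ o ∩ o' = s}.Nonempty := by
      rw [← Set.ncard_pos (Set.toFinite _), h16]; norm_num
    obtain ⟨c', hc', hc'o⟩ := ih (E \ s) (by rw [Finset.card_sdiff_of_subset hsE, hs, hE]; omega)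
      (Finset.sdiff_subset.trans hEo)
    refine ⟨symmDiff c' o', supports_symmDiff hc' ho'.1, ?_⟩
    ext p
    have h1 : p ∈ c' ∩ o ↔ p ∈ E \ s := by rw [hc'o]
    have h2 : p ∈ o ∩ o' ↔ p ∈ s := by rw [hoo']
    have h3 : p ∈ s → p ∈ E := fun h => hsE h
    have h4 : p ∈ E → p ∈ o := fun h => hEo h
    simp only [Finset.mem_inter, Finset.mem_sdiff, Finset.mem_symmDiff] at h1 h2 ⊢
    tauto

/-- sign pattern on two points. -/
theorem exists_CS_two {a b : GolayPt} (hab : a ≠ b) (p q : Prop) :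
    ∃ c ∈ CS, (a ∈ c ↔ p) ∧ (b ∈ c ↔ q) := by
  by_cases hp : p <;> by_cases hq : q
  · exact ⟨Finset.univ, univ_mem_CS, by simp [hp], by simp [hq]⟩
  · obtain ⟨o, ho, h1, h2⟩ := exists_octad_mem_not_mem (Ne.symm hab)
    exact ⟨o, ho.1, by simp [hp, h1], by simp [hq, h2]⟩
  · obtain ⟨o, ho, h1, h2⟩ := exists_octad_mem_not_mem hab
    exact ⟨o, ho.1, by simp [hp, h2], by simp [hq, h1]⟩
  · exact ⟨∅, empty_mem_CS, by simp [hp], by simp [hq]⟩

theorem exists_M24_two {a b a' b' : GolayPt} (hab : a ≠ b) (hab' : a' ≠ b') :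
    ∃ σ ∈ M24, σ a = a' ∧ σ b = b' := by
  let π : Equiv.Perm GolayPt := Equiv.swap (Equiv.swap a a' b) b' * Equiv.swap a a'
  have h1 : π a = a' := by
    show Equiv.swap (Equiv.swap a a' b) b' (Equiv.swap a a' a) = a'
    rw [Equiv.swap_apply_left]
    apply Equiv.swap_apply_of_ne_of_ne _ hab'
    intro h
    have : Equiv.swap a a' a = Equiv.swap a a' b := by rw [Equiv.swap_apply_left]; exact h
    exact hab ((Equiv.swap a a').injective this)
  have h2 : π b = b' := by
    show Equiv.swap (Equiv.swap a a' b) b' (Equiv.swap a a' b) = b'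
    rw [Equiv.swap_apply_left]
  obtain ⟨g, hg, hga⟩ := exists_M24_agree π {a, b} (by rw [Finset.card_pair hab]; norm_num)
  exact ⟨g, hg, by rw [hga a (by simp), h1], by rw [hga b (by simp), h2]⟩

theorem exists_M24_one (a a' : GolayPt) : ∃ σ ∈ M24, σ a = a' := by
  obtain ⟨g, hg, hga⟩ := exists_M24_agree (Equiv.swap a a') {a} (by simp)
  exact ⟨g, hg, by rw [hga a (by simp)]; simp⟩

theorem permCh_vOdd (σ : Equiv.Perm GolayPt) (j : GolayPt) : permCh σ (vOdd j) = vOdd (σ j) := by
  funext i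
  show vOdd j (σ.symm i) = vOdd (σ j) i
  unfold vOdd
  by_cases h : i = σ j
  · simp [h]
  · have : σ.symm i ≠ j := fun h' => h (by rw [← h']; simp)
    simp [h, this]

theorem permCh_vSet (σ : Equiv.Perm GolayPt) (A : Finset GolayPt) :
    permCh σ (vSet A) = vSet (σ • A) := by
  funext i
  show vSet A (σ.symm i) = vSet (σ • A) i
  have hj : i ∈ σ • A ↔ σ.symm i ∈ A := by
    rw [← Finset.inv_smul_mem_iff]; rfl
  unfold vSet
  by_cases h : σ.symm i ∈ A
  · rw [if_pos h, if_pos (hj.2 h)]
  · rw [if_neg h, if_neg (fun h' => h (hj.1 h'))]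

theorem permCh_vTwo (σ : Equiv.Perm GolayPt) (a b : GolayPt) (s t : ℤ) :
    permCh σ (vTwo a b s t) = vTwo (σ a) (σ b) s t := by
  funext i
  show vTwo a b s t (σ.symm i) = vTwo (σ a) (σ b) s t i
  rw [vTwo_apply, vTwo_apply]
  have e : ∀ c, σ.symm i = c ↔ i = σ c := fun c => by
    rw [Equiv.symm_apply_eq]
  simp only [e]

/-- if a termwise lower bound has the same sum, it is attained everywhere. -/
theorem eq_of_sum_eq {f g : GolayPt → ℤ} (hle : ∀ i, f i ≤ g i) (hs : ∑ i, g i ≤ ∑ i, f i) :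
    ∀ i, g i = f i := by
  have h0 : ∑ i, (g i - f i) = 0 := by
    apply le_antisymm
    · rw [Finset.sum_sub_distrib]; omega
    · exact Finset.sum_nonneg (fun i _ => by have := hle i; omega)
  have := (Finset.sum_eq_zero_iff_of_nonneg (fun i _ => by have := hle i; omega)).1 h0
  intro i
  have := this i (Finset.mem_univ i)
  omega

/-- normalisation of the signs of an odd vector. -/
theorem odd_normal {x : GolayPt → ℤ} (hx : x ∈ leechLattice) {i0 : GolayPt} (h : x i0 % 2 = 1) :
    ∃ y, Rel x y ∧ ∀ i, y i % 4 = 1 := by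
  rcases mem_leech_cases hx with ⟨h1, -, -⟩ | ⟨h1, -, h3⟩
  · have := h1 i0; omega
  · refine ⟨signCh (resSet x 3) x, rel_sign hx h3, fun i => ?_⟩
    have := h1 i
    unfold signCh
    by_cases hi : i ∈ resSet x 3
    · rw [if_pos hi]; rw [mem_resSet] at hi; omega
    · rw [if_neg hi]; rw [mem_resSet] at hi; omega

theorem sum_one_add_ite (F : Finset GolayPt) (a : ℤ) :
    ∑ i : GolayPt, (1 + if i ∈ F then a else 0) = 24 + a * (F.card : ℤ) := by
  rw [Finset.sum_add_distrib, sum_ite_const]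
  have h4 : (Finset.univ.filter fun j => j ∈ F) = F := by ext j; simp
  rw [h4]
  simp only [Finset.sum_const, Finset.card_univ, nsmul_eq_mul, mul_one]
  rfl

/-- odd vectors of norm 32. -/
theorem rel_odd32 {x : GolayPt → ℤ} (hx : x ∈ leechLattice) (hn : sqNorm x = 32) {i0 : GolayPt}
    (h : x i0 % 2 = 1) : Rel x (vOdd none) := by
  classical
  obtain ⟨y, hxy, hy⟩ := odd_normal hx h
  refine hxy.trans ?_
  have hyn : sqNorm y = 32 := by rw [hxy.sqNorm_eq, hn]
  have hyL : y ∈ leechLattice := hxy.2.1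
  let F : Finset GolayPt := Finset.univ.filter (fun i => y i ≠ 1)
  have hle : ∀ i, (1 + if i ∈ F then 8 else 0 : ℤ) ≤ y i ^ 2 := by
    intro i
    have := hy i
    by_cases hi : i ∈ F
    · rw [if_pos hi]
      have h1 : y i ≠ 1 := (Finset.mem_filter.1 hi).2
      have : y i ≤ -3 ∨ 5 ≤ y i := by omega
      rcases this with h | h <;> nlinarith
    · rw [if_neg hi]
      have h1 : y i = 1 := by
        by_contra hc
        exact hi (Finset.mem_filter.2 ⟨Finset.mem_univ _, hc⟩)
      rw [h1]; norm_num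
  have hsum := Finset.sum_le_sum (fun i (_ : i ∈ Finset.univ) => hle i)
  rw [sum_one_add_ite] at hsum
  have hsum' : 24 + 8 * (F.card : ℤ) ≤ 32 := by rw [← hyn]; exact hsum
  have hF1 : F.card = 1 := by
    have h1 : F.card ≤ 1 := by omega
    have h0 : F.card ≠ 0 := by
      intro h0
      have hall : ∀ i, y i = 1 := by
        intro i
        by_contra hc
        have : i ∈ F := Finset.mem_filter.2 ⟨Finset.mem_univ _, hc⟩
        rw [Finset.card_eq_zero.1 h0] at this
        simp at this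
      have : sqNorm y = 24 := by
        unfold sqNorm
        simp only [hall, one_pow, Finset.sum_const, Finset.card_univ, nsmul_eq_mul, mul_one]
        rfl
      omega
    omega
  have heq := eq_of_sum_eq hle (by
    rw [sum_one_add_ite, hF1]
    have : ∑ i, y i ^ 2 = 32 := hyn
    rw [this]; norm_num)
  obtain ⟨j, hj⟩ := Finset.card_eq_one.1 hF1
  have hyj : y = vOdd j := by
    funext i
    unfold vOdd
    have h1 := heq i
    have h2 := hy i
    by_cases hi : i = j
    · rw [if_pos hi]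
      have : i ∈ F := by rw [hj, hi]; simp
      rw [if_pos this] at h1
      have h3 : (y i - 3) * (y i + 3) = 0 := by linear_combination h1
      rcases mul_eq_zero.1 h3 with h | h <;> omega
    · rw [if_neg hi]
      have : i ∉ F := by rw [hj]; simpa using hi
      by_contra hc
      exact this (Finset.mem_filter.2 ⟨Finset.mem_univ _, hc⟩)
  obtain ⟨σ, hσ, hσj⟩ := exists_M24_one j none
  have := rel_perm hyL hσ
  rw [hyj, permCh_vOdd, hσj] at this
  rw [hyj]; exact this

end Cfsg.Agent.Lib.Helper11
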