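import Mathlib
import Cfsg.Agent.Lib.Helper11.LeechTrans

set_option autoImplicit false

namespace Cfsg.Agent.Lib.Helper11

open Cfsg Cfsg.Agent.Lib.Helper3
open scoped Pointwise

theorem sum_ite_mem (F : Finset GolayPt) (a : ℤ) :
    ∑ i : GolayPt, (if i ∈ F then a else 0) = a * (F.card : ℤ) := by
  rw [sum_ite_const]
  have h4 : (Finset.univ.filter fun j => j ∈ F) = F := by ext j; simp
  rw [h4]

/-- odd vectors of norm 32, explicit form. -/
theorem odd32_form {x : GolayPt → ℤ} (hx : x ∈ leechLattice) (hn : sqNorm x = 32) {i0 : GolayPt}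
    (h : x i0 % 2 = 1) : ∃ c ∈ CS, ∃ j, x = signCh c (vOdd j) := by
  classical
  rcases mem_leech_cases hx with ⟨h1, -, -⟩ | ⟨h1, -, h3⟩
  · have := h1 i0; omega
  refine ⟨resSet x 3, h3, ?_⟩
  set y := signCh (resSet x 3) x with hy0
  have hy : ∀ i, y i % 4 = 1 := by
    intro i
    have := h1 i
    rw [hy0]
    unfold signCh
    by_cases hi : i ∈ resSet x 3
    · rw [if_pos hi]; rw [mem_resSet] at hi; omega
    · rw [if_neg hi]; rw [mem_resSet] at hi; omega
  have hyn : sqNorm y = 32 := by rw [hy0, sqNorm_signCh, hn]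
  let F : Finset GolayPt := Finset.univ.filter (fun i => y i ≠ 1)
  have hle : ∀ i, (1 + if i ∈ F then 8 else 0 : ℤ) ≤ y i ^ 2 := by
    intro i
    have := hy i
    by_cases hi : i ∈ F
    · rw [if_pos hi]
      have h1 : y i ≠ 1 := (Finset.mem_filter.1 hi).2
      have : y i ≤ -3 ∨ 5 ≤ y i := by omega
      rcases this with h | h <;> nlinarith
    · rw [if_neg hi]
      have h1 : y i = 1 := by
        by_contra hc
        exact hi (Finset.mem_filter.2 ⟨Finset.mem_univ _, hc⟩)
      rw [h1]; norm_num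
  have hsum := Finset.sum_le_sum (fun i (_ : i ∈ Finset.univ) => hle i)
  rw [sum_one_add_ite] at hsum
  have hsum' : 24 + 8 * (F.card : ℤ) ≤ 32 := by rw [← hyn]; exact hsum
  have hF1 : F.card = 1 := by
    have h1 : F.card ≤ 1 := by omega
    have h0 : F.card ≠ 0 := by
      intro h0
      have hall : ∀ i, y i = 1 := by
        intro i
        by_contra hc
        have : i ∈ F := Finset.mem_filter.2 ⟨Finset.mem_univ _, hc⟩
        rw [Finset.card_eq_zero.1 h0] at this
        simp at this
      have : sqNorm y = 24 := by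
        unfold sqNorm
        simp only [hall, one_pow, Finset.sum_const, Finset.card_univ, nsmul_eq_mul, mul_one]
        rfl
      omega
    omega
  have heq := eq_of_sum_eq hle (by
    rw [sum_one_add_ite, hF1]
    have : ∑ i, y i ^ 2 = 32 := hyn
    rw [this]; norm_num)
  obtain ⟨j, hj⟩ := Finset.card_eq_one.1 hF1
  have hyj : y = vOdd j := by
    funext i
    unfold vOdd
    have h1 := heq i
    have h2 := hy i
    by_cases hi : i = j
    · rw [if_pos hi]
      have : i ∈ F := by rw [hj, hi]; simp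
      rw [if_pos this] at h1
      have h3 : (y i - 3) * (y i + 3) = 0 := by linear_combination h1
      rcases mul_eq_zero.1 h3 with h | h <;> omega
    · rw [if_neg hi]
      have : i ∉ F := by rw [hj]; simpa using hi
      by_contra hc
      exact this (Finset.mem_filter.2 ⟨Finset.mem_univ _, hc⟩)
  exact ⟨j, by rw [← hyj, hy0, signCh_signCh]⟩

/-- vectors of norm 32 with a coordinate congruent to 2 modulo 4. -/
theorem two32_form {x : GolayPt → ℤ} (hx : x ∈ leechLattice) (hn : sqNorm x = 32) {i0 : GolayPt}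
    (h : x i0 % 4 = 2) : ∃ o ∈ octads, ∃ c ∈ CS, x = signCh c (vSet o) := by
  classical
  rcases mem_leech_cases hx with ⟨h1, h2, h3⟩ | ⟨h1, -, -⟩
  swap
  · have := h1 i0; omega
  set A := resSet x 2 with hA
  have hi0 : i0 ∈ A := by rw [hA, mem_resSet]; omega
  have hle : ∀ i, (if i ∈ A then 4 else 0 : ℤ) ≤ x i ^ 2 := by
    intro i
    by_cases hi : i ∈ A
    · rw [if_pos hi]
      rw [hA, mem_resSet] at hi
      have : x i ≤ -2 ∨ 2 ≤ x i := by omega
      rcases this with h | h <;> nlinarith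
    · rw [if_neg hi]; positivity
  have hsum := Finset.sum_le_sum (fun i (_ : i ∈ Finset.univ) => hle i)
  rw [sum_ite_mem] at hsum
  have hsum' : 4 * (A.card : ℤ) ≤ 32 := by rw [← hn]; exact hsum
  have hA8 : A.card = 8 := by
    have hne : A.card ≠ 0 := by
      rw [Ne, Finset.card_eq_zero]
      intro h0
      rw [h0] at hi0
      simp at hi0
    rcases code_weights _ h3 with h | h | h | h | h <;> omega
  have heq := eq_of_sum_eq hle (by
    rw [sum_ite_mem, hA8]
    have : ∑ i, x i ^ 2 = 32 := hn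
    rw [this]; norm_num)
  have hAo : A ∈ octads := ⟨h3, hA8⟩
  have hval : ∀ i, x i = if i ∈ A then (if x i = -2 then -2 else 2) else 0 := by
    intro i
    have h4 := heq i
    by_cases hi : i ∈ A
    · rw [if_pos hi] at h4 ⊢
      have h3 : (x i - 2) * (x i + 2) = 0 := by linear_combination h4
      rcases mul_eq_zero.1 h3 with h | h
      · have : x i = 2 := by omega
        rw [this]; norm_num
      · have : x i = -2 := by omega
        rw [if_pos this]; exact this
    · rw [if_neg hi] at h4 ⊢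
      exact pow_eq_zero_iff (by norm_num) |>.1 h4
  let E : Finset GolayPt := A.filter (fun i => x i = -2)
  have hsumx : ∑ i, x i = 16 - 4 * (E.card : ℤ) := by
    have : ∀ i, x i = (if i ∈ A then 2 else 0) + (if i ∈ E then -4 else 0) := by
      intro i
      have h5 := hval i
      by_cases hi : i ∈ A
      · rw [if_pos hi] at h5 ⊢
        by_cases h6 : x i = -2
        · have : i ∈ E := Finset.mem_filter.2 ⟨hi, h6⟩
          rw [if_pos this, h6]; norm_num
        · have : i ∉ E := fun h => h6 (Finset.mem_filter.1 h).2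
          rw [if_neg this, h5, if_neg h6]; norm_num
      · have : i ∉ E := fun h => hi (Finset.mem_filter.1 h).1
        rw [if_neg hi] at h5 ⊢
        rw [if_neg this, h5]; norm_num
    rw [Finset.sum_congr rfl (fun i _ => this i), Finset.sum_add_distrib, sum_ite_mem, sum_ite_mem,
      hA8]
    push_cast; ring
  obtain ⟨n, hn2⟩ : ∃ n, E.card = 2 * n := ⟨E.card / 2, by omega⟩
  obtain ⟨c, hc, hcE⟩ := even_subset_cut hAo n E hn2 (Finset.filter_subset _ _)
  refine ⟨A, hAo, c, hc, ?_⟩
  funext i
  have h5 := hval i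
  have h7 : i ∈ c ∩ A ↔ i ∈ E := by rw [hcE]
  rw [Finset.mem_inter, Finset.mem_filter] at h7
  unfold signCh vSet
  by_cases hi : i ∈ A
  · rw [if_pos hi] at h5
    rw [if_pos hi]
    by_cases hic : i ∈ c
    · rw [if_pos hic]
      exact (h7.1 ⟨hic, hi⟩).2
    · rw [if_neg hic]
      have : x i ≠ -2 := fun h => hic (h7.2 ⟨hi, h⟩).1
      rw [h5, if_neg this]
  · rw [if_neg hi] at h5
    rw [if_neg hi, h5]
    split <;> rfl

/-- vectors of norm 32 with all coordinates divisible by 4. -/
theorem four32_form {x : GolayPt → ℤ} (hn : sqNorm x = 32)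
    (h : ∀ i, x i % 4 = 0) : ∃ a b, a ≠ b ∧ ∃ s t : ℤ, (s = 4 ∨ s = -4) ∧ (t = 4 ∨ t = -4) ∧
      x = vTwo a b s t := by
  classical
  let F : Finset GolayPt := Finset.univ.filter (fun i => x i ≠ 0)
  have hF : ∀ i, i ∈ F ↔ x i ≠ 0 := fun i => by simp [F]
  have hle : ∀ i, (if i ∈ F then 16 else 0 : ℤ) ≤ x i ^ 2 := by
    intro i
    by_cases hi : i ∈ F
    · rw [if_pos hi]
      rw [hF] at hi
      have := h i
      have : x i ≤ -4 ∨ 4 ≤ x i := by omega
      rcases this with h | h <;> nlinarith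
    · rw [if_neg hi]; positivity
  have hsum := Finset.sum_le_sum (fun i (_ : i ∈ Finset.univ) => hle i)
  rw [sum_ite_mem] at hsum
  have hsum' : 16 * (F.card : ℤ) ≤ 32 := by rw [← hn]; exact hsum
  have hsq : sqNorm x = ∑ i ∈ F, x i ^ 2 := by
    unfold sqNorm
    symm
    apply Finset.sum_subset (Finset.subset_univ _)
    intro i _ hi
    rw [hF] at hi
    push Not at hi
    rw [hi]; norm_num
  have hF2 : F.card = 2 := by
    have h2 : F.card ≤ 2 := by omega
    interval_cases hc : F.card
    · rw [Finset.card_eq_zero.1 hc] at hsq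
      simp at hsq
      omega
    · obtain ⟨j, hj⟩ := Finset.card_eq_one.1 hc
      rw [hj, Finset.sum_singleton, hn] at hsq
      have h4 := h j
      obtain ⟨k, hk⟩ : ∃ k, x j = 4 * k := ⟨x j / 4, by omega⟩
      rw [hk] at hsq
      have : k ^ 2 = 2 := by nlinarith
      have hk2 : k ≤ 1 ∧ -1 ≤ k := by constructor <;> nlinarith
      have : k = -1 ∨ k = 0 ∨ k = 1 := by omega
      rcases this with h | h | h <;> rw [h] at this <;> norm_num at this
    · rfl
  have heq := eq_of_sum_eq hle (by
    rw [sum_ite_mem, hF2]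
    have : ∑ i, x i ^ 2 = 32 := hn
    rw [this]; norm_num)
  obtain ⟨a, b, hab, hFab⟩ := Finset.card_eq_two.1 hF2
  have hv : ∀ i ∈ F, x i = 4 ∨ x i = -4 := by
    intro i hi
    have h4 := heq i
    rw [if_pos hi] at h4
    have h3 : (x i - 4) * (x i + 4) = 0 := by linear_combination h4
    rcases mul_eq_zero.1 h3 with h | h
    · left; omega
    · right; omega
  refine ⟨a, b, hab, x a, x b, hv a (by rw [hFab]; simp), hv b (by rw [hFab]; simp), ?_⟩
  funext i
  rw [vTwo_apply]
  by_cases h1 : i = a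
  · have : i ≠ b := fun h => hab (h1.symm.trans h)
    rw [if_pos h1, if_neg this, h1]; ring
  · by_cases h2 : i = b
    · rw [if_neg h1, if_pos h2, h2]; ring
    · rw [if_neg h1, if_neg h2]
      have : i ∉ F := by rw [hFab]; simp [h1, h2]
      rw [hF] at this
      push Not at this
      rw [this]; ring

/-- the three shapes of minimal vectors. -/
theorem L2_cases {x : GolayPt → ℤ} (hx : x ∈ leechLattice) (hn : sqNorm x = 32) :
    (∃ c ∈ CS, ∃ j, x = signCh c (vOdd j)) ∨ (∃ o ∈ octads, ∃ c ∈ CS, x = signCh c (vSet o)) ∨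
    (∃ a b, a ≠ b ∧ ∃ s t : ℤ, (s = 4 ∨ s = -4) ∧ (t = 4 ∨ t = -4) ∧ x = vTwo a b s t) := by
  by_cases h1 : ∃ i, x i % 2 = 1
  · obtain ⟨i, hi⟩ := h1
    exact Or.inl (odd32_form hx hn hi)
  by_cases h2 : ∃ i, x i % 4 = 2
  · obtain ⟨i, hi⟩ := h2
    exact Or.inr (Or.inl (two32_form hx hn hi))
  · push Not at h1 h2
    exact Or.inr (Or.inr (four32_form hn (fun i => by have := h1 i; have := h2 i; omega)))

end Cfsg.Agent.Lib.Helper11
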