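import Mathlib
import Cfsg.Agent.Lib.Helper11.LeechShape

set_option autoImplicit false

namespace Cfsg.Agent.Lib.Helper11

open Cfsg Cfsg.Agent.Lib.Helper3
open scoped Pointwise

theorem o1_mem : unmask 0xc75001 ∈ octads := by
  rw [mem_octads_iff, mask_unmask (by norm_num)]
  decide +kernel

theorem xi_o1_odd : xi (vSet (unmask 0xc75001)) none % 2 = 1 := by decide +kernel

theorem xi_two_two : xi (vTwo (pt 0) (pt 4) 4 4) none % 4 = 0 ∧
    xi (vTwo (pt 0) (pt 4) 4 4) (pt 0) % 4 = 2 := by decide +kernel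

theorem rel_two32 {x : GolayPt → ℤ} (hx : x ∈ leechLattice) (hn : sqNorm x = 32) {i0 : GolayPt}
    (h : x i0 % 4 = 2) : Rel x (vOdd none) := by
  obtain ⟨o, ho, c, hc, rfl⟩ := two32_form hx hn h
  have h1 := rel_sign hx hc
  rw [signCh_signCh] at h1
  refine h1.trans ?_
  obtain ⟨g, hg, hgo⟩ := trans_octads ho o1_mem
  have h2 := rel_perm (vSet_mem ho.1) hg
  rw [permCh_vSet, hgo] at h2
  refine h2.trans ?_
  have h3 := rel_xi (vSet_mem o1_mem.1)
  refine h3.trans ?_
  apply rel_odd32 h3.2.1 _ xi_o1_odd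
  rw [h3.sqNorm_eq, sqNorm_vSet, o1_mem.2]; norm_num

theorem signCh_vTwo (c : Finset GolayPt) (a b : GolayPt) (s t : ℤ) :
    signCh c (vTwo a b s t) = vTwo a b (if a ∈ c then -s else s) (if b ∈ c then -t else t) := by
  funext i
  unfold signCh
  rw [vTwo_apply, vTwo_apply]
  by_cases h1 : i = a
  · subst h1
    by_cases h2 : i = b
    · subst h2
      split <;> simp <;> ring
    · split <;> simp [h2]
  · by_cases h2 : i = b
    · subst h2
      split <;> simp [h1]
    · simp [h1, h2]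

theorem rel_four32 {a b : GolayPt} (hab : a ≠ b) {s t : ℤ} (hs : s = 4 ∨ s = -4)
    (ht : t = 4 ∨ t = -4) : Rel (vTwo a b s t) (vOdd none) := by
  have hm : vTwo a b s t ∈ leechLattice := by
    apply vTwo_mem
    · rcases hs with h | h <;> rw [h] <;> rfl
    · rcases ht with h | h <;> rw [h] <;> rfl
    · rcases hs with h | h <;> rcases ht with h' | h' <;> rw [h, h'] <;> rfl
  obtain ⟨c, hc, h1, h2⟩ := exists_CS_two hab (s = -4) (t = -4)
  have r1 := rel_sign hm hc
  have e1 : (if a ∈ c then -s else s) = 4 := by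
    by_cases h : s = -4
    · rw [if_pos (h1.2 h), h]; norm_num
    · rw [if_neg (fun h' => h (h1.1 h'))]; tauto
  have e2 : (if b ∈ c then -t else t) = 4 := by
    by_cases h : t = -4
    · rw [if_pos (h2.2 h), h]; norm_num
    · rw [if_neg (fun h' => h (h2.1 h'))]; tauto
  rw [signCh_vTwo, e1, e2] at r1
  refine r1.trans ?_
  obtain ⟨σ, hσ, e3, e4⟩ := exists_M24_two hab (show pt 0 ≠ pt 4 by decide)
  have r2 := rel_perm r1.2.1 hσ
  rw [permCh_vTwo, e3, e4] at r2
  refine r2.trans ?_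
  have r3 := rel_xi r2.2.1
  refine r3.trans ?_
  apply rel_two32 r3.2.1 _ xi_two_two.2
  rw [r3.sqNorm_eq, sqNorm_vTwo (by decide)]; norm_num

/-- all minimal vectors are equivalent. -/
theorem rel32 {x : GolayPt → ℤ} (hx : x ∈ leechLattice) (hn : sqNorm x = 32) :
    Rel x (vOdd none) := by
  by_cases h1 : ∃ i, x i % 2 = 1
  · obtain ⟨i, hi⟩ := h1
    exact rel_odd32 hx hn hi
  by_cases h2 : ∃ i, x i % 4 = 2
  · obtain ⟨i, hi⟩ := h2
    exact rel_two32 hx hn hi
  · push Not at h1 h2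
    obtain ⟨a, b, hab, s, t, hs, ht, rfl⟩ :=
      four32_form hn (fun i => by have := h1 i; have := h2 i; omega)
    exact rel_four32 hab hs ht

end Cfsg.Agent.Lib.Helper11
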