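import Mathlib
import Cfsg.Agent.Lib.Helper11.Descent
import Cfsg.Agent.Lib.Helper11.LeechT2

set_option autoImplicit false

namespace Cfsg.Agent.Lib.Helper11

open Cfsg Cfsg.Agent.Lib.Helper3
open scoped Pointwise

/-- transport of a count along an automorphism. -/
theorem ncard_transfer {v v0 : GolayPt → ℤ} (h : Rel v v0) (N t : ℤ) :
    {w : GolayPt → ℤ | w ∈ leechLattice ∧ sqNorm w = N ∧ dotInt v w = t}.ncard =
      {w : GolayPt → ℤ | w ∈ leechLattice ∧ sqNorm w = N ∧ dotInt v0 w = t}.ncard := by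
  obtain ⟨hv, hv0, g, hg⟩ := h
  apply Set.ncard_congr (fun w hw => ((g • (⟨w, hw.1⟩ : ↥leechLattice) : ↥leechLattice) : GolayPt → ℤ))
  · rintro w ⟨h1, h2, h3⟩
    refine ⟨(g • (⟨w, h1⟩ : ↥leechLattice)).2, ?_, ?_⟩
    · rw [Co0_sqNorm]; exact h2
    · have := Co0_dot g ⟨v, hv⟩ ⟨w, h1⟩
      rw [hg] at this
      rw [this]; exact h3
  · rintro w w' ⟨h1, _, _⟩ ⟨h1', _, _⟩ he
    have := MulAction.injective g (Subtype.ext he)
    exact congrArg Subtype.val this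
  · rintro y ⟨h1, h2, h3⟩
    refine ⟨((g⁻¹ • (⟨y, h1⟩ : ↥leechLattice) : ↥leechLattice) : GolayPt → ℤ),
      ⟨(g⁻¹ • (⟨y, h1⟩ : ↥leechLattice)).2, ?_, ?_⟩, ?_⟩
    · rw [Co0_sqNorm]; exact h2
    · have := Co0_dot g⁻¹ ⟨v0, hv0⟩ ⟨y, h1⟩
      have e : g⁻¹ • (⟨v0, hv0⟩ : ↥leechLattice) = ⟨v, hv⟩ := by rw [← hg, inv_smul_smul]
      rw [e] at this
      rw [this]; exact h3
    · simp

/-- transitivity of a vector stabiliser, from the case of a standard vector. -/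
theorem trans_one {b : GolayPt → ℤ} {B : Set (GolayPt → ℤ)} (hbB : b ∈ B)
    {v : ↥leechLattice} (hvb : Rel v.1 b) (t : ℤ)
    (H : ∀ x x' : GolayPt → ℤ, x ∈ leechLattice → sqNorm x = 32 → dotInt b x = t →
      x' ∈ leechLattice → sqNorm x' = 32 → dotInt b x' = t → RelB B x x')
    (w w' : ↥leechLattice) (hw : sqNorm w.1 = 32) (hw' : sqNorm w'.1 = 32)
    (hd : dotInt v.1 w.1 = t) (hd' : dotInt v.1 w'.1 = t) :
    ∃ g : ↥Co0, g • v = v ∧ g • w = w' := by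
  obtain ⟨hv, hb, h, hh⟩ := hvb
  have hh' : h • v = ⟨b, hb⟩ := hh
  have e1 : dotInt b (h • w).1 = t := by
    have := Co0_dot h v w
    rw [hh'] at this
    rw [this]; exact hd
  have e2 : dotInt b (h • w').1 = t := by
    have := Co0_dot h v w'
    rw [hh'] at this
    rw [this]; exact hd'
  obtain ⟨_, _, k, hk1, hk2⟩ := H (h • w).1 (h • w').1 (h • w).2 (by rw [Co0_sqNorm]; exact hw) e1
    (h • w').2 (by rw [Co0_sqNorm]; exact hw') e2
  have hk2' : k • (h • w) = h • w' := hk2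
  refine ⟨h⁻¹ * k * h, ?_, ?_⟩
  · rw [mul_smul, mul_smul, hh', hk1 b hb hbB, ← hh', inv_smul_smul]
  · rw [mul_smul, mul_smul, hk2', inv_smul_smul]

theorem forall_lt_one {P : ℕ → Prop} : (∀ r < 1, P r) ↔ P 0 :=
  ⟨fun h => h 0 (by norm_num), fun h r hr => by
    have : r = 0 := by omega
    rw [this]; exact h⟩

end Cfsg.Agent.Lib.Helper11
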