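import Mathlib
import Cfsg.Agent.Lib.Helper11.L2Parts2
import Cfsg.Agent.Lib.Helper11.TransLib

set_option autoImplicit false

namespace Cfsg.Agent.Lib.Helper11

open Cfsg Cfsg.Agent.Lib.Helper3
open scoped Pointwise

/-- counting with the help of a complete list of the right length. -/
theorem list_count {S : Set (GolayPt → ℤ)} (hR : ∀ w ∈ S, InR w) (l : List ℕ)
    (hc : ∀ w ∈ S, encV w ∈ l) (hn : S.ncard = l.length) (Q : ℕ → Bool) :
    {w : GolayPt → ℤ | w ∈ S ∧ Q (encV w) = true}.ncard = l.countP Q := by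
  have hinj : Set.InjOn encV S := fun x hx y hy h => encV_inj (hR x hx) (hR y hy) h
  have h1 : (encV '' S).ncard = l.length := by rw [hinj.ncard_image, hn]
  have h2 : encV '' S ⊆ (↑l.toFinset : Set ℕ) := by
    rintro _ ⟨x, hx, rfl⟩
    rw [Finset.mem_coe, List.mem_toFinset]
    exact hc x hx
  have h3 : l.toFinset.card ≤ l.length := List.toFinset_card_le _
  have h4 : l.length ≤ l.toFinset.card := by
    rw [← h1, ← Set.ncard_coe_finset]
    exact Set.ncard_le_ncard h2 (Finset.finite_toSet _)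
  have himg : encV '' S = (↑l.toFinset : Set ℕ) := by
    apply Set.eq_of_subset_of_ncard_le h2 _ (Finset.finite_toSet _)
    rw [h1, Set.ncard_coe_finset]; exact h3
  have hnd : l.Nodup := by
    have : (↑l : Multiset ℕ).toFinset.card = Multiset.card (↑l : Multiset ℕ) := by
      show l.toFinset.card = l.length
      omega
    exact Multiset.coe_nodup.1 (Multiset.toFinset_card_eq_card_iff_nodup.1 this)
  have hinj2 : Set.InjOn encV {w : GolayPt → ℤ | w ∈ S ∧ Q (encV w) = true} :=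
    fun x hx y hy h => hinj hx.1 hy.1 h
  rw [← hinj2.ncard_image]
  have : encV '' {w : GolayPt → ℤ | w ∈ S ∧ Q (encV w) = true} =
      (↑(l.toFinset.filter (fun n => Q n = true)) : Set ℕ) := by
    ext n
    rw [Finset.coe_filter]
    constructor
    · rintro ⟨x, ⟨h1, h3⟩, rfl⟩
      refine ⟨?_, h3⟩
      rw [← Finset.mem_coe, ← himg]
      exact ⟨x, h1, rfl⟩
    · rintro ⟨h1, h2⟩
      rw [← Finset.mem_coe, ← himg] at h1
      obtain ⟨x, h3, rfl⟩ := h1
      exact ⟨x, ⟨h3, h2⟩, rfl⟩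
  rw [this, Set.ncard_coe_finset, hnd.card_eq_countP]
  congr 1
  funext n
  simp

/-- transitivity from a computation on a complete list. -/
theorem descent_of_list {Tb R : ℕ} {Ts : List ℕ} (hR : R ≤ 24) (hg : chkGens8 Tb R Ts = true)
    {tts : ℕ → ℕ} {t : ℕ → ℤ} (htt : chkTT Tb R tts t = true) (rk : ℕ → ℕ) (n0 : ℕ) (l : List ℕ)
    (hl : ∀ w ∈ leechLattice, sqNorm w = 32 → (∀ r < R, dotInt (bvec Tb r) w = t r) → encV w ∈ l)
    (hall : l.all (fun n => bif condAll Tb R tts n then stepOK Ts rk n0 n else true) = true)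
    {w w' : GolayPt → ℤ} (hw : w ∈ leechLattice) (hn : sqNorm w = 32)
    (hP : ∀ r < R, dotInt (bvec Tb r) w = t r) (hw' : w' ∈ leechLattice) (hn' : sqNorm w' = 32)
    (hP' : ∀ r < R, dotInt (bvec Tb r) w' = t r) : RelB (baseSet Tb R) w w' := by
  obtain ⟨h1, h2⟩ := chkTT_sound htt
  apply descent_main hg h2 t rk n0 _ hw hn hP hw' hn' hP'
  intro x hx hxn hxP
  rw [List.all_eq_true] at hall
  have := hall _ (hl x hx hxn hxP)
  rwa [(condAll_iff hR h1 (inR_of_32 hxn)).2 hxP, cond_true] at this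

/-- transport of transitivity to an arbitrary configuration. -/
theorem trans_gen {B : Set (GolayPt → ℤ)} {R : ℕ} (bs : ℕ → GolayPt → ℤ) (hB : ∀ r < R, bs r ∈ B)
    (us : ℕ → ↥leechLattice) (h : ↥Co0) (hh : ∀ r < R, ((h • us r : ↥leechLattice) : GolayPt → ℤ) = bs r)
    (t : ℕ → ℤ)
    (H : ∀ x x' : GolayPt → ℤ, x ∈ leechLattice → sqNorm x = 32 → (∀ r < R, dotInt (bs r) x = t r) →
      x' ∈ leechLattice → sqNorm x' = 32 → (∀ r < R, dotInt (bs r) x' = t r) → RelB B x x')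
    (x x' : ↥leechLattice) (hx : sqNorm x.1 = 32) (hx' : sqNorm x'.1 = 32)
    (hd : ∀ r < R, dotInt (us r).1 x.1 = t r) (hd' : ∀ r < R, dotInt (us r).1 x'.1 = t r) :
    ∃ g : ↥Co0, (∀ r < R, g • us r = us r) ∧ g • x = x' := by
  have e : ∀ y : ↥leechLattice, ∀ r < R, dotInt (bs r) (h • y).1 = dotInt (us r).1 y.1 := by
    intro y r hr
    rw [← hh r hr, Co0_dot]
  obtain ⟨_, _, k, hk1, hk2⟩ := H (h • x).1 (h • x').1 (h • x).2 (by rw [Co0_sqNorm]; exact hx)
    (fun r hr => by rw [e x r hr, hd r hr]) (h • x').2 (by rw [Co0_sqNorm]; exact hx')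
    (fun r hr => by rw [e x' r hr, hd' r hr])
  have hk2' : k • (h • x) = h • x' := hk2
  refine ⟨h⁻¹ * k * h, fun r hr => ?_, ?_⟩
  · have h1 : k • (h • us r) = h • us r := by
      have := hk1 (h • us r).1 (h • us r).2 (by rw [hh r hr]; exact hB r hr)
      exact this
    rw [mul_smul, mul_smul, h1, inv_smul_smul]
  · rw [mul_smul, mul_smul, hk2', inv_smul_smul]

/-- transport of a count to an arbitrary configuration. -/
theorem ncard_gen {R : ℕ} (bs : ℕ → GolayPt → ℤ) (us : ℕ → ↥leechLattice) (h : ↥Co0)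
    (hh : ∀ r < R, ((h • us r : ↥leechLattice) : GolayPt → ℤ) = bs r) (t : ℕ → ℤ) :
    {x : ↥leechLattice | sqNorm x.1 = 32 ∧ ∀ r < R, dotInt (us r).1 x.1 = t r}.ncard =
      {x : GolayPt → ℤ | x ∈ leechLattice ∧ sqNorm x = 32 ∧ ∀ r < R, dotInt (bs r) x = t r}.ncard := by
  have e : ∀ y : ↥leechLattice, ∀ r < R, dotInt (bs r) (h • y).1 = dotInt (us r).1 y.1 := by
    intro y r hr
    rw [← hh r hr, Co0_dot]
  apply Set.ncard_congr (fun x _ => ((h • x : ↥leechLattice) : GolayPt → ℤ))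
  · rintro x ⟨h1, h2⟩
    exact ⟨(h • x).2, by rw [Co0_sqNorm]; exact h1, fun r hr => by rw [e x r hr, h2 r hr]⟩
  · rintro x x' _ _ he
    exact MulAction.injective h (Subtype.ext he)
  · rintro y ⟨h1, h2, h3⟩
    refine ⟨h⁻¹ • ⟨y, h1⟩, ⟨by rw [Co0_sqNorm]; exact h2, fun r hr => ?_⟩, by simp⟩
    rw [← e _ r hr, smul_inv_smul]
    exact h3 r hr

/-- one more vector can be brought to its standard position. -/
theorem extend_gen {B : Set (GolayPt → ℤ)} {R : ℕ} (bs : ℕ → GolayPt → ℤ) (hB : ∀ r < R, bs r ∈ B)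
    (us : ℕ → ↥leechLattice) (h : ↥Co0) (hh : ∀ r < R, ((h • us r : ↥leechLattice) : GolayPt → ℤ) = bs r)
    (t : ℕ → ℤ)
    (H : ∀ x x' : GolayPt → ℤ, x ∈ leechLattice → sqNorm x = 32 → (∀ r < R, dotInt (bs r) x = t r) →
      x' ∈ leechLattice → sqNorm x' = 32 → (∀ r < R, dotInt (bs r) x' = t r) → RelB B x x')
    (hx : sqNorm (us R).1 = 32) (hd : ∀ r < R, dotInt (us r).1 (us R).1 = t r)
    (hb : bs R ∈ leechLattice) (hbn : sqNorm (bs R) = 32) (hbd : ∀ r < R, dotInt (bs r) (bs R) = t r) :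
    ∃ h' : ↥Co0, ∀ r < R + 1, ((h' • us r : ↥leechLattice) : GolayPt → ℤ) = bs r := by
  have e : ∀ y : ↥leechLattice, ∀ r < R, dotInt (bs r) (h • y).1 = dotInt (us r).1 y.1 := by
    intro y r hr
    rw [← hh r hr, Co0_dot]
  obtain ⟨_, _, k, hk1, hk2⟩ := H (h • us R).1 (bs R) (h • us R).2 (by rw [Co0_sqNorm]; exact hx)
    (fun r hr => by rw [e _ r hr, hd r hr]) hb hbn hbd
  refine ⟨k * h, fun r hr => ?_⟩
  rcases Nat.lt_succ_iff_lt_or_eq.1 hr with hr' | rfl
  · have h1 : k • (h • us r) = h • us r := by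
      have := hk1 (h • us r).1 (h • us r).2 (by rw [hh r hr']; exact hB r hr')
      exact this
    rw [mul_smul, h1, hh r hr']
  · rw [mul_smul]
    exact congrArg Subtype.val hk2

end Cfsg.Agent.Lib.Helper11
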