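import Mathlib
import Cfsg.Agent.Lib.Helper11.ListLib

set_option autoImplicit false

namespace Cfsg.Agent.Lib.Helper11

open Cfsg Cfsg.Agent.Lib.Helper3
open scoped Pointwise

/-- membership in a list of numbers. -/
def memL (l : List ℕ) (n : ℕ) : Bool := l.any (fun m => Nat.beq m n)

theorem memL_sound {l : List ℕ} {n : ℕ} (h : memL l n = true) : n ∈ l := by
  unfold memL at h
  rw [List.any_eq_true] at h
  obtain ⟨m, hm, h2⟩ := h
  rw [← Nat.eq_of_beq_eq_true h2]; exact hm

/-- selection among three things. -/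
def sel3 {α : Type*} (a b c : α) : ℕ → α
  | 0 => a
  | 1 => b
  | _ => c

theorem forall_lt_two {P : ℕ → Prop} : (∀ r < 2, P r) ↔ P 0 ∧ P 1 :=
  ⟨fun h => ⟨h 0 (by norm_num), h 1 (by norm_num)⟩, fun h r hr => by
    interval_cases r
    · exact h.1
    · exact h.2⟩

theorem forall_lt_three {P : ℕ → Prop} : (∀ r < 3, P r) ↔ P 0 ∧ P 1 ∧ P 2 :=
  ⟨fun h => ⟨h 0 (by norm_num), h 1 (by norm_num), h 2 (by norm_num)⟩, fun h r hr => by
    interval_cases r
    · exact h.1
    · exact h.2.1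
    · exact h.2.2⟩

end Cfsg.Agent.Lib.Helper11
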