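import Mathlib
import Cfsg.Agent.Lib.Helper11.TransLib

set_option autoImplicit false

namespace Cfsg.Agent.Lib.Helper11

open Cfsg Cfsg.Agent.Lib.Helper3
open scoped Pointwise

theorem dotInt_comm (x y : GolayPt → ℤ) : dotInt x y = dotInt y x := by
  unfold dotInt
  exact Finset.sum_congr rfl (fun i _ => by ring)

theorem dotInt_add_left (x y z : GolayPt → ℤ) : dotInt (x + y) z = dotInt x z + dotInt y z := by
  unfold dotInt
  rw [← Finset.sum_add_distrib]
  exact Finset.sum_congr rfl (fun i _ => by simp only [Pi.add_apply]; ring)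

theorem dotInt_self (x : GolayPt → ℤ) : dotInt x x = sqNorm x := by
  unfold dotInt sqNorm
  exact Finset.sum_congr rfl (fun i _ => by ring)

/-- transitivity on sums of two minimal vectors, by counting. -/
theorem trans_by_count (N t : ℤ) (hN : N = 64 + 2 * t) (cN c1 c2 : ℕ)
    (hS : {x : GolayPt → ℤ | x ∈ leechLattice ∧ sqNorm x = N}.ncard = cN) (hcN : cN ≠ 0)
    (H1 : ∀ v ∈ leechLattice, sqNorm v = 32 →
      {w : GolayPt → ℤ | w ∈ leechLattice ∧ sqNorm w = 32 ∧ dotInt v w = t}.ncard = c1)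
    (u0 : GolayPt → ℤ)
    (H2 : ∀ v ∈ leechLattice, ∀ w ∈ leechLattice, sqNorm v = 32 → sqNorm w = 32 → dotInt v w = t →
      Rel (v + w) u0)
    (H3 : {v : GolayPt → ℤ | v ∈ leechLattice ∧ sqNorm v = 32 ∧ dotInt u0 v = 32 + t}.ncard = c2)
    (harith : 196560 * c1 = c2 * cN) (hc2 : c2 ≠ 0)
    {u : GolayPt → ℤ} (hu : u ∈ leechLattice) (hun : sqNorm u = N) : Rel u u0 := by
  classical
  have fA : {x : GolayPt → ℤ | x ∈ leechLattice ∧ sqNorm x = 32}.Finite :=
    Set.finite_of_ncard_ne_zero (by rw [Cfsg.Agent.S0394.result]; norm_num)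
  have fS : {x : GolayPt → ℤ | x ∈ leechLattice ∧ sqNorm x = N}.Finite :=
    Set.finite_of_ncard_ne_zero (by rw [hS]; exact hcN)
  set FA := fA.toFinset with hFA
  set FS := fS.toFinset with hFS
  have mA : ∀ x, x ∈ FA ↔ x ∈ leechLattice ∧ sqNorm x = 32 := fun x => fA.mem_toFinset
  have mS : ∀ x, x ∈ FS ↔ x ∈ leechLattice ∧ sqNorm x = N := fun x => fS.mem_toFinset
  have cA : FA.card = 196560 := by
    rw [← Cfsg.Agent.S0394.result, Set.ncard_eq_toFinset_card _ fA]
  have cS : FS.card = cN := by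
    rw [← hS, Set.ncard_eq_toFinset_card _ fS]
  have cfil : ∀ (b : GolayPt → ℤ) (s : ℤ), (FA.filter (fun w => dotInt b w = s)).card =
      {w : GolayPt → ℤ | w ∈ leechLattice ∧ sqNorm w = 32 ∧ dotInt b w = s}.ncard := by
    intro b s
    rw [← Set.ncard_coe_finset]
    congr 1
    ext w
    simp only [Finset.coe_filter, Set.mem_ofPred_eq, mA]
    tauto
  let T := (FA ×ˢ FA).filter (fun p => dotInt p.1 p.2 = t)
  have mT : ∀ p, p ∈ T ↔ (p.1 ∈ FA ∧ p.2 ∈ FA) ∧ dotInt p.1 p.2 = t := by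
    intro p
    simp only [T, Finset.mem_filter, Finset.mem_product]
  have cT1 : T.card = 196560 * c1 := by
    rw [Finset.card_eq_sum_card_fiberwise (f := Prod.fst) (t := FA)
      (fun p hp => ((mT p).1 hp).1.1)]
    have : ∀ v ∈ FA, (T.filter (fun p => p.1 = v)).card = c1 := by
      intro v hv
      rw [← H1 v ((mA v).1 hv).1 ((mA v).1 hv).2, ← cfil]
      apply Finset.card_nbij' Prod.snd (fun w => (v, w))
      · intro p hp
        simp only [Finset.coe_filter, Set.mem_ofPred_eq, mT] at hp ⊢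
        obtain ⟨⟨⟨_, h2⟩, h3⟩, rfl⟩ := hp
        exact ⟨h2, h3⟩
      · intro w hw
        simp only [Finset.coe_filter, Set.mem_ofPred_eq, mT] at hw ⊢
        exact ⟨⟨⟨hv, hw.1⟩, hw.2⟩, trivial⟩
      · intro p hp
        simp only [Finset.coe_filter, Set.mem_ofPred_eq] at hp
        obtain ⟨_, rfl⟩ := hp
        rfl
      · intro w _
        rfl
    rw [Finset.sum_congr rfl this, Finset.sum_const, cA, smul_eq_mul]
  let O := FS.filter (fun x => Rel x u0)
  have maps : ∀ p ∈ T, p.1 + p.2 ∈ O := by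
    intro p hp
    obtain ⟨⟨h1, h2⟩, h3⟩ := (mT p).1 hp
    rw [mA] at h1 h2
    simp only [O, Finset.mem_filter, mS]
    refine ⟨⟨leechLattice.add_mem h1.1 h2.1, ?_⟩, H2 _ h1.1 _ h2.1 h1.2 h2.2 h3⟩
    rw [sqNorm_add, h1.2, h2.2, h3, hN]; ring
  have cT2 : T.card = c2 * O.card := by
    rw [Finset.card_eq_sum_card_fiberwise (f := fun p => p.1 + p.2) (t := O)
      (fun p hp => maps p hp)]
    have : ∀ x ∈ O, (T.filter (fun p => p.1 + p.2 = x)).card = c2 := by
      intro x hx
      simp only [O, Finset.mem_filter, mS] at hx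
      obtain ⟨⟨hx1, hx2⟩, hx3⟩ := hx
      rw [← H3, ← ncard_transfer hx3 32 (32 + t), ← cfil]
      apply Finset.card_nbij' Prod.fst (fun v => (v, x - v))
      · intro p hp
        simp only [Finset.coe_filter, Set.mem_ofPred_eq, mT] at hp ⊢
        obtain ⟨⟨⟨h1, h2⟩, h3⟩, rfl⟩ := hp
        refine ⟨h1, ?_⟩
        rw [dotInt_add_left, dotInt_self, ((mA _).1 h1).2, dotInt_comm, h3]
      · intro v hv
        simp only [Finset.coe_filter, Set.mem_ofPred_eq, mT] at hv ⊢
        obtain ⟨h1, h2⟩ := hv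
        have h1' := (mA _).1 h1
        have e1 : dotInt v (x - v) = t := by
          have : x = (x - v) + v := by abel
          rw [this, dotInt_add_left, dotInt_self, h1'.2, dotInt_comm] at h2
          omega
        refine ⟨⟨⟨h1, (mA _).2 ⟨leechLattice.sub_mem hx1 h1'.1, ?_⟩⟩, e1⟩, by abel⟩
        rw [sqNorm_sub, hx2, h2, h1'.2, hN]; ring
      · intro p hp
        simp only [Finset.coe_filter, Set.mem_ofPred_eq] at hp
        obtain ⟨_, rfl⟩ := hp
        simp
      · intro v _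
        rfl
    rw [Finset.sum_congr rfl this, Finset.sum_const, smul_eq_mul, mul_comm]
  have cO : O.card = cN := by
    have : c2 * O.card = c2 * cN := by rw [← cT2, cT1, harith]
    exact Nat.eq_of_mul_eq_mul_left (Nat.pos_of_ne_zero hc2) this
  have hO : O = FS := Finset.eq_of_subset_of_card_le (Finset.filter_subset _ _) (by rw [cO, cS])
  have : u ∈ O := by rw [hO, mS]; exact ⟨hu, hun⟩
  exact (Finset.mem_filter.1 this).2

end Cfsg.Agent.Lib.Helper11
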