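import Mathlib
import Cfsg.Agent.Lib.Helper11.U3Base
import Cfsg.Agent.Lib.Helper11.L2Parts
set_option autoImplicit false
set_option maxRecDepth 100000
namespace Cfsg.Agent.Lib.Helper11
open Cfsg Cfsg.Agent.Lib.Helper3

def u3ctts : ℕ → ℕ := fun _ => 4344
def u3ct : ℕ → ℤ := fun _ => (24)
theorem u3c_htt : chkTT u3Tb 1 u3ctts u3ct = true := by decide +kernel
end Cfsg.Agent.Lib.Helper11
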