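import Mathlib
import Cfsg.Agent.Lib.Helper11.U3CntData
set_option autoImplicit false
set_option maxRecDepth 100000
namespace Cfsg.Agent.Lib.Helper11
open Cfsg Cfsg.Agent.Lib.Helper3
theorem u3c_cnt0 : cntPart (condAll u3Tb 1 u3ctts) (256 * 0) = 134 := by decide +kernel
theorem u3c_cnt1 : cntPart (condAll u3Tb 1 u3ctts) (256 * 1) = 64 := by decide +kernel
theorem u3c_cnt2 : cntPart (condAll u3Tb 1 u3ctts) (256 * 2) = 64 := by decide +kernel
theorem u3c_cnt3 : cntPart (condAll u3Tb 1 u3ctts) (256 * 3) = 24 := by decide +kernel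
end Cfsg.Agent.Lib.Helper11
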