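import Mathlib
import Cfsg.Agent.Lib.Helper11.U3CntP0
import Cfsg.Agent.Lib.Helper11.U3CntP1
import Cfsg.Agent.Lib.Helper11.U3CntP2
import Cfsg.Agent.Lib.Helper11.U3CntP3
import Cfsg.Agent.Lib.Helper11.L2Parts2
set_option autoImplicit false
set_option maxRecDepth 100000
namespace Cfsg.Agent.Lib.Helper11
open Cfsg Cfsg.Agent.Lib.Helper3
theorem u3c_cnt : cntL2 (condAll u3Tb 1 u3ctts) = 552 := by
  have h := cntL2_of_parts (Q := condAll u3Tb 1 u3ctts) (f := fun i => [134, 64, 64, 24, 56, 24, 24, 8, 56, 24, 24, 8, 24, 8, 8, 2].getD i 0) (by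
    intro i hi
    interval_cases i
    · exact u3c_cnt0
    · exact u3c_cnt1
    · exact u3c_cnt2
    · exact u3c_cnt3
    · exact u3c_cnt4
    · exact u3c_cnt5
    · exact u3c_cnt6
    · exact u3c_cnt7
    · exact u3c_cnt8
    · exact u3c_cnt9
    · exact u3c_cnt10
    · exact u3c_cnt11
    · exact u3c_cnt12
    · exact u3c_cnt13
    · exact u3c_cnt14
    · exact u3c_cnt15
    )
  rw [h]
  decide
end Cfsg.Agent.Lib.Helper11
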