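import Mathlib

set_option autoImplicit false

namespace Cfsg.Agent.Lib.Helper11

theorem sum_pow_lt {α : Type*} (X : Finset α) (h : α → ℕ) (B : ℕ) (hB : X.card < B) (k : ℕ) :
    ∑ x ∈ X.filter (fun x => h x < k), B ^ h x < B ^ k := by
  classical
  induction k with
  | zero => simp
  | succ k ih =>
    have hsplit : X.filter (fun x => h x < k + 1) =
        X.filter (fun x => h x < k) ∪ X.filter (fun x => h x = k) := by
      ext x
      simp only [Finset.mem_filter, Finset.mem_union]
      constructor
      · rintro ⟨h1, h2⟩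
        rcases Nat.lt_succ_iff_lt_or_eq.mp h2 with h3 | h3
        · exact Or.inl ⟨h1, h3⟩
        · exact Or.inr ⟨h1, h3⟩
      · rintro (⟨h1, h2⟩ | ⟨h1, h2⟩)
        · exact ⟨h1, by omega⟩
        · exact ⟨h1, by omega⟩
    have hdisj : Disjoint (X.filter (fun x => h x < k)) (X.filter (fun x => h x = k)) := by
      rw [Finset.disjoint_left]
      intro x h1 h2
      have := (Finset.mem_filter.1 h1).2
      have := (Finset.mem_filter.1 h2).2
      omega
    rw [hsplit, Finset.sum_union hdisj]
    have h2 : ∑ x ∈ X.filter (fun x => h x = k), B ^ h x = (X.filter (fun x => h x = k)).card * B ^ k := by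
      rw [Finset.sum_congr rfl (fun x hx => by rw [(Finset.mem_filter.1 hx).2]), Finset.sum_const,
        smul_eq_mul]
    have h3 : (X.filter (fun x => h x = k)).card ≤ B - 1 := by
      have := Finset.card_filter_le X (fun x => h x = k)
      omega
    rw [h2, pow_succ]
    calc _ < B ^ k + (B - 1) * B ^ k := by
          apply Nat.add_lt_add_of_lt_of_le ih (Nat.mul_le_mul_right _ h3)
      _ = B ^ k * B := by
          obtain ⟨b, rfl⟩ : ∃ b, B = b + 1 := ⟨B - 1, by omega⟩
          rw [Nat.add_sub_cancel]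
          ring

/-- reading off the number of terms with a given exponent. -/
theorem digit_sum {α : Type*} (X : Finset α) (h : α → ℕ) (B : ℕ) (hB : X.card < B) (k : ℕ) :
    (∑ x ∈ X, B ^ h x) / B ^ k % B = (X.filter (fun x => h x = k)).card := by
  classical
  have hB0 : 0 < B := by omega
  have hlt := sum_pow_lt X h B hB k
  have e1 : ∑ x ∈ X, B ^ h x = ∑ x ∈ X.filter (fun x => h x < k), B ^ h x +
      ∑ x ∈ X.filter (fun x => ¬ h x < k), B ^ h x :=
    (Finset.sum_filter_add_sum_filter_not X _ _).symm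
  have e2 : ∑ x ∈ X.filter (fun x => ¬ h x < k), B ^ h x =
      ∑ x ∈ (X.filter (fun x => ¬ h x < k)).filter (fun x => h x = k), B ^ h x +
      ∑ x ∈ (X.filter (fun x => ¬ h x < k)).filter (fun x => ¬ h x = k), B ^ h x :=
    (Finset.sum_filter_add_sum_filter_not _ _ _).symm
  have e3 : (X.filter (fun x => ¬ h x < k)).filter (fun x => h x = k) =
      X.filter (fun x => h x = k) := by
    ext x
    simp only [Finset.mem_filter]
    constructor
    · rintro ⟨⟨a, _⟩, c⟩; exact ⟨a, c⟩
    · rintro ⟨a, c⟩; exact ⟨⟨a, by omega⟩, c⟩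
  have e4 : ∑ x ∈ X.filter (fun x => h x = k), B ^ h x =
      (X.filter (fun x => h x = k)).card * B ^ k := by
    rw [Finset.sum_congr rfl (fun x hx => by rw [(Finset.mem_filter.1 hx).2]), Finset.sum_const,
      smul_eq_mul]
  have e5 : ∑ x ∈ (X.filter (fun x => ¬ h x < k)).filter (fun x => ¬ h x = k), B ^ h x =
      B ^ k * (B * ∑ x ∈ (X.filter (fun x => ¬ h x < k)).filter (fun x => ¬ h x = k),
        B ^ (h x - k - 1)) := by
    rw [Finset.mul_sum, Finset.mul_sum]
    apply Finset.sum_congr rfl
    intro x hx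
    rw [Finset.mem_filter, Finset.mem_filter] at hx
    have : h x = k + (1 + (h x - k - 1)) := by omega
    conv_lhs => rw [this]
    rw [pow_add, pow_add, pow_one]
  rw [e1, e2, e3, e4, e5]
  set L := ∑ x ∈ X.filter (fun x => h x < k), B ^ h x
  set M := ∑ x ∈ (X.filter (fun x => ¬ h x < k)).filter (fun x => ¬ h x = k), B ^ (h x - k - 1)
  set c := (X.filter (fun x => h x = k)).card
  have hc : c < B := lt_of_le_of_lt (Finset.card_filter_le _ _) hB
  have : L + (c * B ^ k + B ^ k * (B * M)) = L + B ^ k * (c + B * M) := by ring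
  rw [this, Nat.add_mul_div_left _ _ (pow_pos hB0 k), Nat.div_eq_of_lt hlt, zero_add,
    Nat.add_mul_mod_self_left, Nat.mod_eq_of_lt hc]

/-- counting the points of a box with a given value of an additive statistic. -/
theorem card_filter_eq_digit {ι : Type*} [Fintype ι] [DecidableEq ι] (V : ι → Finset ℤ)
    (e : ι → ℤ → ℕ) (B : ℕ) (hB : (Fintype.piFinset V).card < B) (k : ℕ) :
    ((Fintype.piFinset V).filter (fun x => ∑ i, e i (x i) = k)).card =
      (∏ i, ∑ v ∈ V i, B ^ e i v) / B ^ k % B := by
  rw [Finset.prod_univ_sum, ← digit_sum _ _ B hB k]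
  congr 2
  apply Finset.sum_congr rfl
  intro x _
  rw [Finset.prod_pow_eq_pow_sum]

end Cfsg.Agent.Lib.Helper11
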