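import Mathlib
import Cfsg.Agent.Lib.Helper11.Leech
import Cfsg.Agent.Lib.Helper11.Digit

set_option autoImplicit false

namespace Cfsg.Agent.Lib.Helper11

open Cfsg Cfsg.Agent.Lib.Helper3
open scoped Pointwise

/-- the base of the Kronecker substitution. -/
def BB : ℕ := 2 ^ 100

/-- exponent attached to a coordinate value: square and residue modulo 8. -/
def ev (v : ℤ) : ℕ := 256 * v.natAbs ^ 2 + (v % 8).toNat

/-- the possible coordinates of short vectors. -/
def vals : Finset ℤ := {-8, -7, -6, -5, -4, -3, -2, -1, 0, 1, 2, 3, 4, 5, 6, 7, 8}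

theorem mem_vals {v : ℤ} : v ∈ vals ↔ -8 ≤ v ∧ v ≤ 8 := by
  simp only [vals, Finset.mem_insert, Finset.mem_singleton]
  omega

/-- allowed values in a residue class modulo 4. -/
def Vs (Q : ℤ → Bool) (r : ℤ) : Finset ℤ := vals.filter (fun v => v % 4 = r % 4 ∧ Q v = true)

theorem mem_Vs {Q : ℤ → Bool} {r v : ℤ} :
    v ∈ Vs Q r ↔ (-8 ≤ v ∧ v ≤ 8) ∧ v % 4 = r % 4 ∧ Q v = true := by
  rw [Vs, Finset.mem_filter, mem_vals]

/-- the one-coordinate generating number. -/
def PP (Q : ℤ → Bool) (r : ℤ) : ℕ := ∑ v ∈ Vs Q r, BB ^ ev v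

/-- admissible values of the sum of the residues modulo 8. -/
def Sset (m : ℕ) : Finset ℕ := (Finset.range 256).filter (fun s => s % 8 = 4 * m)

/-- number of vectors with given parity, given norm and a given code word of weight `w`. -/
def cnt (Q : ℤ → Bool) (m w n : ℕ) : ℕ :=
  ∑ s ∈ Sset m, ((PP Q m ^ (24 - w) * PP Q (m + 2) ^ w) >>> (100 * (256 * n + s))) % BB

/-- total number of vectors of given norm. -/
def tot (Q : ℤ → Bool) (n : ℕ) : ℕ :=
  ∑ m ∈ Finset.range 2, (cnt Q m 0 n + 759 * cnt Q m 8 n + 2576 * cnt Q m 12 n +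
    759 * cnt Q m 16 n + cnt Q m 24 n)

/-- the box of vectors with prescribed residues. -/
def box (Q : ℤ → Bool) (m : ℕ) (A : Finset GolayPt) : Finset (GolayPt → ℤ) :=
  Fintype.piFinset (fun i => Vs Q (if i ∈ A then (m : ℤ) + 2 else m))

/-- the lattice vectors in a box. -/
def XX (Q : ℤ → Bool) (m n : ℕ) (A : Finset GolayPt) : Finset (GolayPt → ℤ) :=
  (box Q m A).filter (fun x => sqNorm x = n ∧ (∑ i, x i) % 8 = 4 * m)

theorem sqNorm_eq_natAbs (x : GolayPt → ℤ) : sqNorm x = ((∑ i, (x i).natAbs ^ 2 : ℕ) : ℤ) := by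
  unfold sqNorm
  push_cast
  apply Finset.sum_congr rfl
  intro i _
  rw [sq_abs]

theorem sum_ev (x : GolayPt → ℤ) :
    ∑ i, ev (x i) = 256 * (∑ i, (x i).natAbs ^ 2) + ∑ i, (x i % 8).toNat := by
  unfold ev
  rw [Finset.sum_add_distrib, Finset.mul_sum]

theorem S_lt (x : GolayPt → ℤ) : ∑ i, (x i % 8).toNat < 256 := by
  have : ∑ i, (x i % 8).toNat ≤ ∑ _i : GolayPt, 7 := by
    apply Finset.sum_le_sum
    intro i _
    omega
  have h2 : ∑ _i : GolayPt, 7 = 168 := by
    simp only [Finset.sum_const, Finset.card_univ, smul_eq_mul]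
    rfl
  omega

theorem S_mod (x : GolayPt → ℤ) : ((∑ i, (x i % 8).toNat : ℕ) : ℤ) % 8 = (∑ i, x i) % 8 := by
  push_cast
  rw [Finset.sum_int_mod Finset.univ 8 x]
  congr 1
  apply Finset.sum_congr rfl
  intro i _
  exact Int.toNat_of_nonneg (Int.emod_nonneg _ (by norm_num))

theorem stat_iff (x : GolayPt → ℤ) (m n : ℕ) (hm : m < 2) :
    (sqNorm x = n ∧ (∑ i, x i) % 8 = 4 * m) ↔ ∃ s ∈ Sset m, ∑ i, ev (x i) = 256 * n + s := by
  have h1 := S_lt x
  have h2 := S_mod x
  rw [sum_ev, sqNorm_eq_natAbs]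
  constructor
  · rintro ⟨h3, h4⟩
    refine ⟨∑ i, (x i % 8).toNat, ?_, ?_⟩
    · rw [Sset, Finset.mem_filter, Finset.mem_range]
      refine ⟨h1, ?_⟩
      rw [h4] at h2
      omega
    · have : ∑ i, (x i).natAbs ^ 2 = n := by exact_mod_cast h3
      rw [this]
  · rintro ⟨s, hs, h3⟩
    rw [Sset, Finset.mem_filter, Finset.mem_range] at hs
    have h4 : ∑ i, (x i).natAbs ^ 2 = n := by omega
    have h5 : ∑ i, (x i % 8).toNat = s := by omega
    refine ⟨by exact_mod_cast h4, ?_⟩
    rw [← h2, h5]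
    omega

theorem card_box_lt (Q : ℤ → Bool) (m : ℕ) (A : Finset GolayPt) : (box Q m A).card < BB := by
  unfold box
  rw [Fintype.card_piFinset]
  have : ∏ i : GolayPt, (Vs Q (if i ∈ A then (m : ℤ) + 2 else m)).card ≤ ∏ _i : GolayPt, 17 := by
    apply Finset.prod_le_prod'
    intro i _
    exact Finset.card_filter_le _ _
  refine lt_of_le_of_lt this ?_
  simp only [Finset.prod_const, Finset.card_univ]
  have : Fintype.card GolayPt = 24 := rfl
  rw [this]
  norm_num [BB]

theorem prod_box (Q : ℤ → Bool) (m : ℕ) (A : Finset GolayPt) :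
    ∏ i : GolayPt, ∑ v ∈ Vs Q (if i ∈ A then (m : ℤ) + 2 else m), BB ^ ev v =
      PP Q m ^ (24 - A.card) * PP Q (m + 2) ^ A.card := by
  have h1 : ∀ i : GolayPt, ∑ v ∈ Vs Q (if i ∈ A then (m : ℤ) + 2 else m), BB ^ ev v =
      if i ∈ A then PP Q (m + 2) else PP Q m := by
    intro i
    split <;> rfl
  rw [Finset.prod_congr rfl (fun i _ => h1 i), Finset.prod_ite, Finset.prod_const,
    Finset.prod_const, mul_comm]
  congr 2
  · have : (Finset.univ.filter fun i : GolayPt => ¬ i ∈ A) = Aᶜ := by ext i; simp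
    rw [this, Finset.card_compl]
    rfl
  · have : (Finset.univ.filter fun i : GolayPt => i ∈ A) = A := by ext i; simp
    rw [this]

theorem card_XX (Q : ℤ → Bool) (m n : ℕ) (hm : m < 2) (A : Finset GolayPt) :
    (XX Q m n A).card = cnt Q m A.card n := by
  classical
  have h1 : XX Q m n A = (Sset m).biUnion
      (fun s => (box Q m A).filter (fun x => ∑ i, ev (x i) = 256 * n + s)) := by
    ext x
    rw [XX, Finset.mem_filter, stat_iff x m n hm, Finset.mem_biUnion]
    constructor
    · rintro ⟨hx, s, hs, h⟩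
      exact ⟨s, hs, Finset.mem_filter.2 ⟨hx, h⟩⟩
    · rintro ⟨s, hs, h⟩
      rw [Finset.mem_filter] at h
      exact ⟨h.1, s, hs, h.2⟩
  rw [h1, Finset.card_biUnion]
  · unfold cnt
    apply Finset.sum_congr rfl
    intro s _
    have := card_filter_eq_digit (fun i => Vs Q (if i ∈ A then (m : ℤ) + 2 else m))
      (fun _ v => ev v) BB (card_box_lt Q m A) (256 * n + s)
    rw [prod_box] at this
    rw [Nat.shiftRight_eq_div_pow, pow_mul]
    exact this
  · intro s _ s' _ hne
    show Disjoint _ _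
    rw [Finset.disjoint_left]
    intro x hx hx'
    have e1 := (Finset.mem_filter.1 hx).2
    have e2 := (Finset.mem_filter.1 hx').2
    omega

/-- the code as a finite set. -/
noncomputable def CSF : Finset (Finset GolayPt) := (Set.toFinite CS).toFinset

theorem mem_CSF {A : Finset GolayPt} : A ∈ CSF ↔ A ∈ CS := Set.Finite.mem_toFinset _

/-- weight test. -/
def wtF (n x : ℕ) : Bool := Nat.beq (pcF x) n

theorem card_CSF_filter (w : ℕ) :
    (CSF.filter (fun A => A.card = w)).card = countRange (fun c => wtF w (encF c)) 12 0 := by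
  rw [← ncard_codeF (wtF w), ← Set.ncard_coe_finset]
  congr 1
  ext s
  simp only [Finset.coe_filter, Set.mem_ofPred_eq, mem_CSF, wtF, Nat.beq_eq, ← card_eq_pcF]

theorem cw0 : countRange (fun c => wtF 0 (encF c)) 12 0 = 1 := by decide +kernel
theorem cw8 : countRange (fun c => wtF 8 (encF c)) 12 0 = 759 := by decide +kernel
theorem cw12 : countRange (fun c => wtF 12 (encF c)) 12 0 = 2576 := by decide +kernel
theorem cw16 : countRange (fun c => wtF 16 (encF c)) 12 0 = 759 := by decide +kernel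
theorem cw24 : countRange (fun c => wtF 24 (encF c)) 12 0 = 1 := by decide +kernel

theorem sum_CSF (f : ℕ → ℕ) : ∑ A ∈ CSF, f A.card =
    f 0 + 759 * f 8 + 2576 * f 12 + 759 * f 16 + f 24 := by
  classical
  rw [← Finset.sum_fiberwise_of_maps_to (t := ({0, 8, 12, 16, 24} : Finset ℕ))
    (g := fun A : Finset GolayPt => A.card)]
  · have h : ∀ w, ∑ A ∈ CSF with A.card = w, f A.card =
        countRange (fun c => wtF w (encF c)) 12 0 * f w := by
      intro w
      rw [Finset.sum_congr rfl (fun A hA => by rw [(Finset.mem_filter.1 hA).2]), Finset.sum_const,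
        smul_eq_mul, card_CSF_filter]
    simp only [h]
    rw [Finset.sum_insert (by decide), Finset.sum_insert (by decide), Finset.sum_insert (by decide),
      Finset.sum_insert (by decide), Finset.sum_singleton, cw0, cw8, cw12, cw16, cw24]
    ring
  · intro A hA
    rw [mem_CSF] at hA
    simp only [Finset.mem_insert, Finset.mem_singleton]
    exact code_weights A hA

theorem mem_XX {Q : ℤ → Bool} {m n : ℕ} {A : Finset GolayPt} {x : GolayPt → ℤ} :
    x ∈ XX Q m n A ↔ (∀ i, (-8 ≤ x i ∧ x i ≤ 8) ∧ x i % 4 = (if i ∈ A then (m : ℤ) + 2 else m) % 4 ∧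
      Q (x i) = true) ∧ sqNorm x = n ∧ (∑ i, x i) % 8 = 4 * m := by
  rw [XX, Finset.mem_filter, box, Fintype.mem_piFinset]
  simp only [mem_Vs]

theorem XX_data {Q : ℤ → Bool} {m n : ℕ} {A : Finset GolayPt} {x : GolayPt → ℤ}
    (hx : x ∈ XX Q m n A) : (∀ i, x i % 2 = (m : ℤ) % 2) ∧ resSet x (m + 2) = A := by
  rw [mem_XX] at hx
  constructor
  · intro i
    have := (hx.1 i).2.1
    split at this <;> omega
  · ext i
    rw [mem_resSet]
    have := (hx.1 i).2.1
    by_cases hi : i ∈ A
    · rw [if_pos hi] at this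
      exact ⟨fun _ => hi, fun _ => this⟩
    · rw [if_neg hi] at this
      constructor
      · intro h; omega
      · intro h; exact absurd h hi

/-- the number of lattice vectors of given norm all of whose coordinates satisfy `Q`. -/
theorem ncard_leech (Q : ℤ → Bool) (n : ℕ) (hn : n ≤ 64) :
    {x : GolayPt → ℤ | x ∈ leechLattice ∧ sqNorm x = n ∧ ∀ i, Q (x i) = true}.ncard = tot Q n := by
  classical
  have hU : {x : GolayPt → ℤ | x ∈ leechLattice ∧ sqNorm x = n ∧ ∀ i, Q (x i) = true} =
      ⋃ p ∈ Finset.range 2 ×ˢ CSF, (↑(XX Q p.1 n p.2) : Set (GolayPt → ℤ)) := by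
    ext x
    simp only [Set.mem_ofPred_eq, Set.mem_iUnion, Finset.mem_product, Finset.mem_range, mem_CSF,
      Finset.mem_coe, exists_prop, Prod.exists]
    constructor
    · rintro ⟨hx, hxn, hQ⟩
      have hb : ∀ i, -8 ≤ x i ∧ x i ≤ 8 := by
        intro i
        have h1 := sq_le_sqNorm x i
        rw [hxn] at h1
        have h2 : x i ^ 2 ≤ 64 := h1.trans (by exact_mod_cast hn)
        constructor <;> nlinarith
      rcases mem_leech_cases hx with ⟨h1, h2, h3⟩ | ⟨h1, h2, h3⟩
      · refine ⟨0, resSet x 2, ⟨by norm_num, h3⟩, mem_XX.2 ⟨fun i => ⟨hb i, ?_, hQ i⟩, hxn, ?_⟩⟩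
        · have := h1 i
          by_cases hi : i ∈ resSet x 2
          · rw [if_pos hi]
            rw [mem_resSet] at hi
            simpa using hi
          · rw [if_neg hi]
            rw [mem_resSet] at hi
            simp only [Nat.cast_zero]
            omega
        · simpa using h2
      · refine ⟨1, resSet x 3, ⟨by norm_num, h3⟩, mem_XX.2 ⟨fun i => ⟨hb i, ?_, hQ i⟩, hxn, ?_⟩⟩
        · have := h1 i
          by_cases hi : i ∈ resSet x 3
          · rw [if_pos hi]
            rw [mem_resSet] at hi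
            simpa using hi
          · rw [if_neg hi]
            rw [mem_resSet] at hi
            simp only [Nat.cast_one]
            omega
        · simpa using h2
    · rintro ⟨m, A, ⟨hm, hA⟩, hx⟩
      obtain ⟨d1, d2⟩ := XX_data hx
      rw [mem_XX] at hx
      refine ⟨?_, hx.2.1, fun i => (hx.1 i).2.2⟩
      rw [mem_leechLattice, mem_leechSet_iff]
      refine ⟨m, d1, ?_, by rw [d2]; exact hA⟩
      rw [hx.2.2]
      omega
  rw [hU, ncard_biUnion_finset]
  · simp only [Set.ncard_coe_finset]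
    rw [Finset.sum_product]
    unfold tot
    apply Finset.sum_congr rfl
    intro m hm
    rw [Finset.sum_congr rfl (fun A _ => card_XX Q m n (Finset.mem_range.1 hm) A)]
    exact sum_CSF (fun w => cnt Q m w n)
  · intro p _
    exact Finset.finite_toSet _
  · rintro ⟨m, A⟩ hp ⟨m', A'⟩ hp' hne
    rw [Set.disjoint_left]
    intro x hx hx'
    apply hne
    obtain ⟨d1, d2⟩ := XX_data (Finset.mem_coe.1 hx)
    obtain ⟨d1', d2'⟩ := XX_data (Finset.mem_coe.1 hx')
    rw [Finset.mem_product, Finset.mem_range] at hp hp'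
    have hmm : m = m' := by
      have e1 := d1 none
      have e2 := d1' none
      have := hp.1
      have := hp'.1
      simp only at *
      omega
    subst hmm
    have : A = A' := d2.symm.trans d2'
    rw [this]

end Cfsg.Agent.Lib.Helper11
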