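import Mathlib
import Cfsg.Agent.Lib.Helper11.Co2OrbAData
set_option autoImplicit false
set_option maxRecDepth 100000
namespace Cfsg.Agent.Lib.Helper11
open Cfsg Cfsg.Agent.Lib.Helper3
theorem c2a_hall0 : allPart c2aQ (256 * 0) = true := by decide +kernel
theorem c2a_cnt0 : cntPart (condAll c2Tb 1 c2atts) (256 * 0) = 768 := by decide +kernel
theorem c2a_hall1 : allPart c2aQ (256 * 1) = true := by decide +kernel
theorem c2a_cnt1 : cntPart (condAll c2Tb 1 c2atts) (256 * 1) = 384 := by decide +kernel
theorem c2a_hall2 : allPart c2aQ (256 * 2) = true := by decide +kernel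
theorem c2a_cnt2 : cntPart (condAll c2Tb 1 c2atts) (256 * 2) = 384 := by decide +kernel
theorem c2a_hall3 : allPart c2aQ (256 * 3) = true := by decide +kernel
theorem c2a_cnt3 : cntPart (condAll c2Tb 1 c2atts) (256 * 3) = 256 := by decide +kernel
end Cfsg.Agent.Lib.Helper11
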