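import Mathlib
import Cfsg.Agent.Lib.Helper11.Co2OrbAData
set_option autoImplicit false
set_option maxRecDepth 100000
namespace Cfsg.Agent.Lib.Helper11
open Cfsg Cfsg.Agent.Lib.Helper3
theorem c2a_hall4 : allPart c2aQ (256 * 4) = true := by decide +kernel
theorem c2a_cnt4 : cntPart (condAll c2Tb 1 c2atts) (256 * 4) = 396 := by decide +kernel
theorem c2a_hall5 : allPart c2aQ (256 * 5) = true := by decide +kernel
theorem c2a_cnt5 : cntPart (condAll c2Tb 1 c2atts) (256 * 5) = 272 := by decide +kernel
theorem c2a_hall6 : allPart c2aQ (256 * 6) = true := by decide +kernel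
theorem c2a_cnt6 : cntPart (condAll c2Tb 1 c2atts) (256 * 6) = 272 := by decide +kernel
theorem c2a_hall7 : allPart c2aQ (256 * 7) = true := by decide +kernel
theorem c2a_cnt7 : cntPart (condAll c2Tb 1 c2atts) (256 * 7) = 128 := by decide +kernel
end Cfsg.Agent.Lib.Helper11
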