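import Mathlib
import Cfsg.Agent.Lib.Helper11.Co2OrbAData
set_option autoImplicit false
set_option maxRecDepth 100000
namespace Cfsg.Agent.Lib.Helper11
open Cfsg Cfsg.Agent.Lib.Helper3
theorem c2a_hall12 : allPart c2aQ (256 * 12) = true := by decide +kernel
theorem c2a_cnt12 : cntPart (condAll c2Tb 1 c2atts) (256 * 12) = 268 := by decide +kernel
theorem c2a_hall13 : allPart c2aQ (256 * 13) = true := by decide +kernel
theorem c2a_cnt13 : cntPart (condAll c2Tb 1 c2atts) (256 * 13) = 144 := by decide +kernel
theorem c2a_hall14 : allPart c2aQ (256 * 14) = true := by decide +kernel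
theorem c2a_cnt14 : cntPart (condAll c2Tb 1 c2atts) (256 * 14) = 144 := by decide +kernel
theorem c2a_hall15 : allPart c2aQ (256 * 15) = true := by decide +kernel
theorem c2a_cnt15 : cntPart (condAll c2Tb 1 c2atts) (256 * 15) = 160 := by decide +kernel
end Cfsg.Agent.Lib.Helper11
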