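import Mathlib
import Cfsg.Agent.Lib.Helper11.Co2OrbAP0
import Cfsg.Agent.Lib.Helper11.Co2OrbAP1
import Cfsg.Agent.Lib.Helper11.Co2OrbAP2
import Cfsg.Agent.Lib.Helper11.Co2OrbAP3
import Cfsg.Agent.Lib.Helper11.L2Parts2
set_option autoImplicit false
set_option maxRecDepth 100000
namespace Cfsg.Agent.Lib.Helper11
open Cfsg Cfsg.Agent.Lib.Helper3
theorem c2a_hall : allL2 (fun n => bif condAll c2Tb 1 c2atts n then stepOK c2Ts c2ark c2an0 n else true) = true := by
  apply allL2_of_parts
  intro i hi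
  interval_cases i
  · exact c2a_hall0
  · exact c2a_hall1
  · exact c2a_hall2
  · exact c2a_hall3
  · exact c2a_hall4
  · exact c2a_hall5
  · exact c2a_hall6
  · exact c2a_hall7
  · exact c2a_hall8
  · exact c2a_hall9
  · exact c2a_hall10
  · exact c2a_hall11
  · exact c2a_hall12
  · exact c2a_hall13
  · exact c2a_hall14
  · exact c2a_hall15
theorem c2a_cnt : cntL2 (condAll c2Tb 1 c2atts) = 4600 := by
  have h := cntL2_of_parts (Q := condAll c2Tb 1 c2atts) (f := fun i => [768, 384, 384, 256, 396, 272, 272, 128, 384, 256, 256, 128, 268, 144, 144, 160].getD i 0) (by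
    intro i hi
    interval_cases i
    · exact c2a_cnt0
    · exact c2a_cnt1
    · exact c2a_cnt2
    · exact c2a_cnt3
    · exact c2a_cnt4
    · exact c2a_cnt5
    · exact c2a_cnt6
    · exact c2a_cnt7
    · exact c2a_cnt8
    · exact c2a_cnt9
    · exact c2a_cnt10
    · exact c2a_cnt11
    · exact c2a_cnt12
    · exact c2a_cnt13
    · exact c2a_cnt14
    · exact c2a_cnt15
    )
  rw [h]
  decide
end Cfsg.Agent.Lib.Helper11
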