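import Mathlib
import Cfsg.Agent.Lib.Helper11.Co2OrbBData
set_option autoImplicit false
set_option maxRecDepth 100000
namespace Cfsg.Agent.Lib.Helper11
open Cfsg Cfsg.Agent.Lib.Helper3
theorem c2b_hall8 : allPart c2bQ (256 * 8) = true := by decide +kernel
theorem c2b_cnt8 : cntPart (condAll c2Tb 1 c2btts) (256 * 8) = 4096 := by decide +kernel
theorem c2b_hall9 : allPart c2bQ (256 * 9) = true := by decide +kernel
theorem c2b_cnt9 : cntPart (condAll c2Tb 1 c2btts) (256 * 9) = 2560 := by decide +kernel
theorem c2b_hall10 : allPart c2bQ (256 * 10) = true := by decide +kernel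
theorem c2b_cnt10 : cntPart (condAll c2Tb 1 c2btts) (256 * 10) = 2560 := by decide +kernel
theorem c2b_hall11 : allPart c2bQ (256 * 11) = true := by decide +kernel
theorem c2b_cnt11 : cntPart (condAll c2Tb 1 c2btts) (256 * 11) = 2048 := by decide +kernel
end Cfsg.Agent.Lib.Helper11
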