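import Mathlib
import Cfsg.Agent.Lib.Helper11.Co2OrbBP0
import Cfsg.Agent.Lib.Helper11.Co2OrbBP1
import Cfsg.Agent.Lib.Helper11.Co2OrbBP2
import Cfsg.Agent.Lib.Helper11.Co2OrbBP3
import Cfsg.Agent.Lib.Helper11.L2Parts2
set_option autoImplicit false
set_option maxRecDepth 100000
namespace Cfsg.Agent.Lib.Helper11
open Cfsg Cfsg.Agent.Lib.Helper3
theorem c2b_hall : allL2 (fun n => bif condAll c2Tb 1 c2btts n then stepOK c2Ts c2brk c2bn0 n else true) = true := by
  apply allL2_of_parts
  intro i hi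
  interval_cases i
  · exact c2b_hall0
  · exact c2b_hall1
  · exact c2b_hall2
  · exact c2b_hall3
  · exact c2b_hall4
  · exact c2b_hall5
  · exact c2b_hall6
  · exact c2b_hall7
  · exact c2b_hall8
  · exact c2b_hall9
  · exact c2b_hall10
  · exact c2b_hall11
  · exact c2b_hall12
  · exact c2b_hall13
  · exact c2b_hall14
  · exact c2b_hall15
theorem c2b_cnt : cntL2 (condAll c2Tb 1 c2btts) = 47104 := by
  have h := cntL2_of_parts (Q := condAll c2Tb 1 c2btts) (f := fun i => [5632, 4096, 4096, 2560, 4096, 2560, 2560, 2048, 4096, 2560, 2560, 2048, 2560, 2048, 2048, 1536].getD i 0) (by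
    intro i hi
    interval_cases i
    · exact c2b_cnt0
    · exact c2b_cnt1
    · exact c2b_cnt2
    · exact c2b_cnt3
    · exact c2b_cnt4
    · exact c2b_cnt5
    · exact c2b_cnt6
    · exact c2b_cnt7
    · exact c2b_cnt8
    · exact c2b_cnt9
    · exact c2b_cnt10
    · exact c2b_cnt11
    · exact c2b_cnt12
    · exact c2b_cnt13
    · exact c2b_cnt14
    · exact c2b_cnt15
    )
  rw [h]
  decide
end Cfsg.Agent.Lib.Helper11
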