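import Mathlib
import Cfsg.Agent.Lib.Helper11.Co2OrbCData
set_option autoImplicit false
set_option maxRecDepth 100000
namespace Cfsg.Agent.Lib.Helper11
open Cfsg Cfsg.Agent.Lib.Helper3
theorem c2c_hall0 : allPart c2cQ (256 * 0) = true := by decide +kernel
theorem c2c_cnt0 : cntPart (condAll c2Tb 1 c2ctts) (256 * 0) = 9999 := by decide +kernel
theorem c2c_hall1 : allPart c2cQ (256 * 1) = true := by decide +kernel
theorem c2c_cnt1 : cntPart (condAll c2Tb 1 c2ctts) (256 * 1) = 7500 := by decide +kernel
theorem c2c_hall2 : allPart c2cQ (256 * 2) = true := by decide +kernel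
theorem c2c_cnt2 : cntPart (condAll c2Tb 1 c2ctts) (256 * 2) = 7564 := by decide +kernel
theorem c2c_hall3 : allPart c2cQ (256 * 3) = true := by decide +kernel
theorem c2c_cnt3 : cntPart (condAll c2Tb 1 c2ctts) (256 * 3) = 5632 := by decide +kernel
end Cfsg.Agent.Lib.Helper11
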