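import Mathlib
import Cfsg.Agent.Lib.Helper11.Co2OrbCData
set_option autoImplicit false
set_option maxRecDepth 100000
namespace Cfsg.Agent.Lib.Helper11
open Cfsg Cfsg.Agent.Lib.Helper3
theorem c2c_hall12 : allPart c2cQ (256 * 12) = true := by decide +kernel
theorem c2c_cnt12 : cntPart (condAll c2Tb 1 c2ctts) (256 * 12) = 5647 := by decide +kernel
theorem c2c_hall13 : allPart c2cQ (256 * 13) = true := by decide +kernel
theorem c2c_cnt13 : cntPart (condAll c2Tb 1 c2ctts) (256 * 13) = 3916 := by decide +kernel
theorem c2c_hall14 : allPart c2cQ (256 * 14) = true := by decide +kernel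
theorem c2c_cnt14 : cntPart (condAll c2Tb 1 c2ctts) (256 * 14) = 3980 := by decide +kernel
theorem c2c_hall15 : allPart c2cQ (256 * 15) = true := by decide +kernel
theorem c2c_cnt15 : cntPart (condAll c2Tb 1 c2ctts) (256 * 15) = 3392 := by decide +kernel
end Cfsg.Agent.Lib.Helper11
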