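import Mathlib
import Cfsg.Agent.Lib.Helper11.Co2OrbCP0
import Cfsg.Agent.Lib.Helper11.Co2OrbCP1
import Cfsg.Agent.Lib.Helper11.Co2OrbCP2
import Cfsg.Agent.Lib.Helper11.Co2OrbCP3
import Cfsg.Agent.Lib.Helper11.L2Parts2
set_option autoImplicit false
set_option maxRecDepth 100000
namespace Cfsg.Agent.Lib.Helper11
open Cfsg Cfsg.Agent.Lib.Helper3
theorem c2c_hall : allL2 (fun n => bif condAll c2Tb 1 c2ctts n then stepOK c2Ts c2crk c2cn0 n else true) = true := by
  apply allL2_of_parts
  intro i hi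
  interval_cases i
  · exact c2c_hall0
  · exact c2c_hall1
  · exact c2c_hall2
  · exact c2c_hall3
  · exact c2c_hall4
  · exact c2c_hall5
  · exact c2c_hall6
  · exact c2c_hall7
  · exact c2c_hall8
  · exact c2c_hall9
  · exact c2c_hall10
  · exact c2c_hall11
  · exact c2c_hall12
  · exact c2c_hall13
  · exact c2c_hall14
  · exact c2c_hall15
theorem c2c_cnt : cntL2 (condAll c2Tb 1 c2ctts) = 93150 := by
  have h := cntL2_of_parts (Q := condAll c2Tb 1 c2ctts) (f := fun i => [9999, 7500, 7564, 5632, 7440, 5708, 5772, 3840, 7440, 5708, 5772, 3840, 5647, 3916, 3980, 3392].getD i 0) (by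
    intro i hi
    interval_cases i
    · exact c2c_cnt0
    · exact c2c_cnt1
    · exact c2c_cnt2
    · exact c2c_cnt3
    · exact c2c_cnt4
    · exact c2c_cnt5
    · exact c2c_cnt6
    · exact c2c_cnt7
    · exact c2c_cnt8
    · exact c2c_cnt9
    · exact c2c_cnt10
    · exact c2c_cnt11
    · exact c2c_cnt12
    · exact c2c_cnt13
    · exact c2c_cnt14
    · exact c2c_cnt15
    )
  rw [h]
  decide
end Cfsg.Agent.Lib.Helper11
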