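import Mathlib
import Cfsg.Agent.Lib.Helper11.CountTrans
import Cfsg.Agent.Lib.Helper11.U3Cnt
import Cfsg.Agent.S0400
import Cfsg.Agent.S0395
import Cfsg.Agent.S1573
import Cfsg.Agent.S1575

set_option autoImplicit false

namespace Cfsg.Agent.Lib.Helper11

open Cfsg Cfsg.Agent.Lib.Helper3
open scoped Pointwise

/-- transitivity on pairs of minimal vectors with inner product `-8`. -/
theorem pair_trans8 (v w v' w' : ↥leechLattice) (hv : sqNorm v.1 = 32) (hw : sqNorm w.1 = 32)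
    (hv' : sqNorm v'.1 = 32) (hw' : sqNorm w'.1 = 32) (hd : dotInt v.1 w.1 = -8)
    (hd' : dotInt v'.1 w'.1 = -8) : ∃ g : ↥Co0, g • v = v' ∧ g • w = w' := by
  obtain ⟨h, hh⟩ := Cfsg.Agent.S0400.result v v' hv hv'
  obtain ⟨k, hk1, hk2⟩ := Cfsg.Agent.S1575.result v' (h • w) w' hv' (by rw [Co0_sqNorm]; exact hw) hw'
    (by rw [← hh, Co0_dot]; exact hd) hd'
  exact ⟨k * h, by rw [mul_smul, hh, hk1], by rw [mul_smul, hk2]⟩

/-- the standard vector of norm 48. -/
def u3 : GolayPt → ℤ := bvec u3Tb 0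

theorem u3_eq : u3 = bvec c2Tb 0 + vOdd (pt 0) := by
  have : ∀ i, u3 i = bvec c2Tb 0 i + vOdd (pt 0) i := by decide +kernel
  exact funext this

theorem c2b_mem : bvec c2Tb 0 ∈ leechLattice := isLeech_sound (by decide +kernel)

theorem c2b_norm : sqNorm (bvec c2Tb 0) = 32 := by decide +kernel

theorem c2b_dot : dotInt (bvec c2Tb 0) (vOdd (pt 0)) = -8 := by decide +kernel

theorem u3_mem : u3 ∈ leechLattice := by
  rw [u3_eq]; exact leechLattice.add_mem c2b_mem (vOdd_mem _)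

theorem u3_norm : sqNorm u3 = 48 := by decide +kernel

theorem count_u3 :
    {v : GolayPt → ℤ | v ∈ leechLattice ∧ sqNorm v = 32 ∧ dotInt u3 v = 24}.ncard = 552 := by
  have h3 := count_of_check (Tb := u3Tb) (R := 1) (by norm_num) u3c_htt
  have e : {w : GolayPt → ℤ | w ∈ leechLattice ∧ sqNorm w = 32 ∧ dotInt u3 w = 24} =
      {w : GolayPt → ℤ | w ∈ leechLattice ∧ sqNorm w = 32 ∧
        ∀ r < 1, dotInt (bvec u3Tb r) w = u3ct r} := by
    ext w
    constructor
    · rintro ⟨a, b, c⟩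
      exact ⟨a, b, forall_lt_one.2 c⟩
    · rintro ⟨a, b, c⟩
      exact ⟨a, b, forall_lt_one.1 c⟩
  exact (congrArg Set.ncard e).trans (h3.trans u3c_cnt)

/-- all vectors of norm 48 are equivalent. -/
theorem rel48 {u : GolayPt → ℤ} (hu : u ∈ leechLattice) (hun : sqNorm u = 48) : Rel u u3 := by
  apply trans_by_count 48 (-8) (by norm_num) 16773120 47104 552 Cfsg.Agent.S0395.result (by norm_num)
    (fun v hv hvn => (Cfsg.Agent.S1573.result v hv hvn).2.1) u3 _ count_u3 (by norm_num)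
    (by norm_num) hu hun
  intro v hv w hw hvn hwn hd
  obtain ⟨g, h1, h2⟩ := pair_trans8 ⟨v, hv⟩ ⟨w, hw⟩ ⟨_, c2b_mem⟩ ⟨_, vOdd_mem (pt 0)⟩ hvn hwn
    c2b_norm (sqNorm_vOdd _) hd c2b_dot
  refine ⟨leechLattice.add_mem hv hw, u3_mem, g, ?_⟩
  have := Co0_add g ⟨v, hv⟩ ⟨w, hw⟩
  rw [h1, h2] at this
  apply Subtype.ext
  have e := congrArg Subtype.val this
  exact e.trans u3_eq.symm

/-- number of decompositions of a vector of norm 48. -/
theorem count48 {u : GolayPt → ℤ} (hu : u ∈ leechLattice) (hun : sqNorm u = 48) :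
    {v : GolayPt → ℤ | v ∈ leechLattice ∧ sqNorm v = 32 ∧ dotInt u v = 24}.ncard = 552 := by
  rw [ncard_transfer (rel48 hu hun) 32 24]; exact count_u3

end Cfsg.Agent.Lib.Helper11
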