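import Mathlib
import Cfsg.Agent.Lib.Helper11.X1MemData
set_option autoImplicit false
set_option maxRecDepth 100000
namespace Cfsg.Agent.Lib.Helper11
open Cfsg Cfsg.Agent.Lib.Helper3
theorem x1_hall4 : allPart x1Q (256 * 4) = true := by decide +kernel
theorem x1_hall5 : allPart x1Q (256 * 5) = true := by decide +kernel
theorem x1_hall6 : allPart x1Q (256 * 6) = true := by decide +kernel
theorem x1_hall7 : allPart x1Q (256 * 7) = true := by decide +kernel
end Cfsg.Agent.Lib.Helper11
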