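import Mathlib
import Cfsg.Agent.Lib.Helper11.X1MemData
set_option autoImplicit false
set_option maxRecDepth 100000
namespace Cfsg.Agent.Lib.Helper11
open Cfsg Cfsg.Agent.Lib.Helper3
theorem x1_hall8 : allPart x1Q (256 * 8) = true := by decide +kernel
theorem x1_hall9 : allPart x1Q (256 * 9) = true := by decide +kernel
theorem x1_hall10 : allPart x1Q (256 * 10) = true := by decide +kernel
theorem x1_hall11 : allPart x1Q (256 * 11) = true := by decide +kernel
end Cfsg.Agent.Lib.Helper11
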