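import Mathlib
import Cfsg.Agent.Lib.Helper11.X1MemP0
import Cfsg.Agent.Lib.Helper11.X1MemP1
import Cfsg.Agent.Lib.Helper11.X1MemP2
import Cfsg.Agent.Lib.Helper11.X1MemP3
import Cfsg.Agent.Lib.Helper11.L2Parts2
set_option autoImplicit false
set_option maxRecDepth 100000
namespace Cfsg.Agent.Lib.Helper11
open Cfsg Cfsg.Agent.Lib.Helper3
theorem x1_hall : allL2 x1Q = true := by
  apply allL2_of_parts
  intro i hi
  interval_cases i
  · exact x1_hall0
  · exact x1_hall1
  · exact x1_hall2
  · exact x1_hall3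
  · exact x1_hall4
  · exact x1_hall5
  · exact x1_hall6
  · exact x1_hall7
  · exact x1_hall8
  · exact x1_hall9
  · exact x1_hall10
  · exact x1_hall11
  · exact x1_hall12
  · exact x1_hall13
  · exact x1_hall14
  · exact x1_hall15
end Cfsg.Agent.Lib.Helper11
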