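import Mathlib
import Cfsg.Agent.Lib.Helper11.ZOrbP0
import Cfsg.Agent.Lib.Helper11.ZOrbP1
import Cfsg.Agent.Lib.Helper11.ZOrbP2
import Cfsg.Agent.Lib.Helper11.ZOrbP3
import Cfsg.Agent.Lib.Helper11.L2Parts2
set_option autoImplicit false
set_option maxRecDepth 100000
namespace Cfsg.Agent.Lib.Helper11
open Cfsg Cfsg.Agent.Lib.Helper3
theorem zo_hall : allL2 (fun n => bif condAll chM 1 zotts n then stepOK co3Ts zork zon0 n else true) = true := by
  apply allL2_of_parts
  intro i hi
  interval_cases i
  · exact zo_hall0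
  · exact zo_hall1
  · exact zo_hall2
  · exact zo_hall3
  · exact zo_hall4
  · exact zo_hall5
  · exact zo_hall6
  · exact zo_hall7
  · exact zo_hall8
  · exact zo_hall9
  · exact zo_hall10
  · exact zo_hall11
  · exact zo_hall12
  · exact zo_hall13
  · exact zo_hall14
  · exact zo_hall15
end Cfsg.Agent.Lib.Helper11
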