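import Mathlib
import Cfsg.Agent.Lib.Helper11.ChainList
import Cfsg.Agent.Lib.Helper11.X1Mem
import Cfsg.Agent.Lib.Helper11.ZOrb
import Cfsg.Agent.Lib.Helper11.L3Lib

set_option autoImplicit false
set_option maxRecDepth 100000

namespace Cfsg.Agent.Lib.Helper11

open Cfsg Cfsg.Agent.Lib.Helper3
open scoped Pointwise

theorem x1_complete {w : GolayPt → ℤ} (hw : w ∈ leechLattice) (hn : sqNorm w = 32)
    (hd : dotInt u3 w = 24) : encV w ∈ x1L := by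
  have h := allL2_sound x1_hall hw hn
  have h2 : condAll u3Tb 1 u3ctts (encV w) = true :=
    (condAll_iff (by norm_num) (chkTT_sound u3c_htt).1 (inR_of_32 hn)).2 (forall_lt_one.2 hd)
  have h3 : (bif condAll u3Tb 1 u3ctts (encV w) then memL x1L (encV w) else true) = true := h
  rw [h2, cond_true] at h3
  exact memL_sound h3

theorem chM0 : bvec chM 0 = u3 := by
  have : ∀ i, bvec chM 0 i = u3 i := by decide +kernel
  exact funext this

theorem chH0 : bvec chH 0 = u3 := by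
  have : ∀ i, bvec chH 0 i = u3 i := by decide +kernel
  exact funext this

theorem x1L_length : x1L.length = 552 := by decide +kernel

theorem hl_gen {Tb : ℕ} (hb : bvec Tb 0 = u3) {R : ℕ} (hR : 0 < R) {t : ℕ → ℤ} (ht : t 0 = 24) :
    ∀ w ∈ leechLattice, sqNorm w = 32 → (∀ r < R, dotInt (bvec Tb r) w = t r) → encV w ∈ x1L :=
  fun w hw hn h => x1_complete hw hn (by rw [← hb, h 0 hR, ht])

/-- counting inside the list. -/
theorem cnt_gen {Tb : ℕ} (hb : bvec Tb 0 = u3) {R : ℕ} (hR : 0 < R) (hR' : R ≤ 24) {tts : ℕ → ℕ}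
    {t : ℕ → ℤ} (ht : t 0 = 24) (htt : chkTT Tb R tts t = true) :
    {x : GolayPt → ℤ | x ∈ leechLattice ∧ sqNorm x = 32 ∧ ∀ r < R, dotInt (bvec Tb r) x = t r}.ncard =
      x1L.countP (condAll Tb R tts) := by
  have h := list_count (S := {w : GolayPt → ℤ | w ∈ leechLattice ∧ sqNorm w = 32 ∧ dotInt u3 w = 24})
    (fun w hw => inR_of_32 hw.2.1) x1L (fun w hw => x1_complete hw.1 hw.2.1 hw.2.2)
    (count_u3.trans x1L_length.symm) (condAll Tb R tts)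
  rw [← h]
  congr 1
  ext x
  constructor
  · rintro ⟨h1, h2, h3⟩
    exact ⟨⟨h1, h2, by rw [← hb, h3 0 hR, ht]⟩,
      (condAll_iff hR' (chkTT_sound htt).1 (inR_of_32 h2)).2 h3⟩
  · rintro ⟨⟨h1, h2, _⟩, h4⟩
    exact ⟨h1, h2, (condAll_iff hR' (chkTT_sound htt).1 (inR_of_32 h2)).1 h4⟩

/-- a vector of norm 48 in standard position. -/
theorem base1 {Tb : ℕ} (hb : bvec Tb 0 = u3) (us : ℕ → ↥leechLattice) (hu : sqNorm (us 0).1 = 48) :
    ∃ h : ↥Co0, ∀ r < 1, ((h • us r : ↥leechLattice) : GolayPt → ℤ) = bvec Tb r := by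
  obtain ⟨_, _, g, hg⟩ := rel48 (us 0).2 hu
  refine ⟨g, forall_lt_one.2 ?_⟩
  rw [hb]
  exact congrArg Subtype.val hg

theorem baseSet_mem (Tb R : ℕ) : ∀ r < R, bvec Tb r ∈ baseSet Tb R := fun r hr => ⟨r, hr, rfl⟩

theorem la_trans : ∀ x x' : GolayPt → ℤ, x ∈ leechLattice → sqNorm x = 32 →
    (∀ r < 1, dotInt (bvec chM r) x = lat r) → x' ∈ leechLattice → sqNorm x' = 32 →
    (∀ r < 1, dotInt (bvec chM r) x' = lat r) → RelB (baseSet chM 1) x x' :=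
  fun _ _ hw hn hP hw' hn' hP' => descent_of_list (by norm_num) co3_hg la_htt lark lan0 x1L
    (hl_gen chM0 (by norm_num) rfl) la_hall hw hn hP hw' hn' hP'

theorem baseSet_HM : baseSet chH 1 = baseSet chM 1 := by
  ext b
  constructor
  · rintro ⟨r, hr, rfl⟩
    have : r = 0 := by omega
    subst this
    exact ⟨0, hr, by rw [chH0, chM0]⟩
  · rintro ⟨r, hr, rfl⟩
    have : r = 0 := by omega
    subst this
    exact ⟨0, hr, by rw [chH0, chM0]⟩

theorem zo_trans : ∀ x x' : GolayPt → ℤ, x ∈ leechLattice → sqNorm x = 32 →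
    (∀ r < 1, dotInt (bvec chH r) x = zot r) → x' ∈ leechLattice → sqNorm x' = 32 →
    (∀ r < 1, dotInt (bvec chH r) x' = zot r) → RelB (baseSet chH 1) x x' := by
  intro x x' hw hn hP hw' hn' hP'
  rw [baseSet_HM]
  rw [forall_lt_one, chH0, ← chM0, ← forall_lt_one (P := fun r => dotInt (bvec chM r) x = zot r)] at hP
  rw [forall_lt_one, chH0, ← chM0, ← forall_lt_one (P := fun r => dotInt (bvec chM r) x' = zot r)] at hP'
  exact descent_of_check (by norm_num) co3_hg zo_htt zork zon0 zo_hall hw hn hP hw' hn' hP'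

/-! ### the chain McL -/

theorem lb_trans : ∀ x x' : GolayPt → ℤ, x ∈ leechLattice → sqNorm x = 32 →
    (∀ r < 2, dotInt (bvec chM r) x = lbt r) → x' ∈ leechLattice → sqNorm x' = 32 →
    (∀ r < 2, dotInt (bvec chM r) x' = lbt r) → RelB (baseSet chM 2) x x' :=
  fun _ _ hw hn hP hw' hn' hP' => descent_of_list (by norm_num) mcl_hg lb_htt lbrk lbn0 x1L
    (hl_gen chM0 (by norm_num) rfl) lb_hall hw hn hP hw' hn' hP'

theorem lc_trans : ∀ x x' : GolayPt → ℤ, x ∈ leechLattice → sqNorm x = 32 →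
    (∀ r < 3, dotInt (bvec chM r) x = lct r) → x' ∈ leechLattice → sqNorm x' = 32 →
    (∀ r < 3, dotInt (bvec chM r) x' = lct r) → RelB (baseSet chM 3) x x' :=
  fun _ _ hw hn hP hw' hn' hP' => descent_of_list (by norm_num) u43_hg lc_htt lcrk lcn0 x1L
    (hl_gen chM0 (by norm_num) rfl) lc_hall hw hn hP hw' hn' hP'

theorem ld_trans : ∀ x x' : GolayPt → ℤ, x ∈ leechLattice → sqNorm x = 32 →
    (∀ r < 3, dotInt (bvec chM r) x = ldt r) → x' ∈ leechLattice → sqNorm x' = 32 →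
    (∀ r < 3, dotInt (bvec chM r) x' = ldt r) → RelB (baseSet chM 3) x x' :=
  fun _ _ hw hn hP hw' hn' hP' => descent_of_list (by norm_num) u43_hg ld_htt ldrk ldn0 x1L
    (hl_gen chM0 (by norm_num) rfl) ld_hall hw hn hP hw' hn' hP'

theorem chM_norm1 : sqNorm (bvec chM 1) = 32 := by decide +kernel
theorem chM_norm2 : sqNorm (bvec chM 2) = 32 := by decide +kernel
theorem chM_dot01 : dotInt (bvec chM 0) (bvec chM 1) = lat 0 := by decide +kernel
theorem chM_dot02 : dotInt (bvec chM 0) (bvec chM 2) = lbt 0 := by decide +kernel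
theorem chM_dot12 : dotInt (bvec chM 1) (bvec chM 2) = lbt 1 := by decide +kernel
theorem chM_enc2 : encV (bvec chM 2) = encM2 := by decide +kernel

/-- two vectors in standard position. -/
theorem chM_base2 (us : ℕ → ↥leechLattice) (hu : sqNorm (us 0).1 = 48) (hv : sqNorm (us 1).1 = 32)
    (hd : dotInt (us 0).1 (us 1).1 = lat 0) :
    ∃ h : ↥Co0, ∀ r < 2, ((h • us r : ↥leechLattice) : GolayPt → ℤ) = bvec chM r := by
  obtain ⟨h, hh⟩ := base1 chM0 us hu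
  exact extend_gen (bvec chM) (baseSet_mem chM 1) us h hh lat la_trans hv (forall_lt_one.2 hd)
    ((chkTT_sound lb_htt).2 1 (by norm_num)) chM_norm1 (forall_lt_one.2 chM_dot01)

/-- three vectors in standard position. -/
theorem chM_base3 (us : ℕ → ↥leechLattice) (hu : sqNorm (us 0).1 = 48) (hv : sqNorm (us 1).1 = 32)
    (hd : dotInt (us 0).1 (us 1).1 = lat 0) (hx : sqNorm (us 2).1 = 32)
    (hd0 : dotInt (us 0).1 (us 2).1 = lbt 0) (hd1 : dotInt (us 1).1 (us 2).1 = lbt 1) :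
    ∃ h : ↥Co0, ∀ r < 3, ((h • us r : ↥leechLattice) : GolayPt → ℤ) = bvec chM r := by
  obtain ⟨h, hh⟩ := chM_base2 us hu hv hd
  exact extend_gen (bvec chM) (baseSet_mem chM 2) us h hh lbt lb_trans hx (forall_lt_two.2 ⟨hd0, hd1⟩)
    ((chkTT_sound lc_htt).2 2 (by norm_num)) chM_norm2 (forall_lt_two.2 ⟨chM_dot02, chM_dot12⟩)

theorem chM_count2 (u v : ↥leechLattice) (hu : sqNorm u.1 = 48) (hv : sqNorm v.1 = 32)
    (hd : dotInt u.1 v.1 = lat 0) :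
    {x : ↥leechLattice | sqNorm x.1 = 32 ∧ dotInt u.1 x.1 = lbt 0 ∧ dotInt v.1 x.1 = lbt 1}.ncard =
      x1L.countP (condAll chM 2 lbtts) := by
  obtain ⟨h, hh⟩ := chM_base2 (sel3 u v v) hu hv hd
  rw [← cnt_gen chM0 (by norm_num) (by norm_num) rfl lb_htt, ← ncard_gen (bvec chM) (sel3 u v v) h hh lbt]
  congr 1
  ext y
  exact and_congr_right (fun _ =>
    (forall_lt_two (P := fun r => dotInt (sel3 u v v r).1 y.1 = lbt r)).symm)

theorem chM_trans2 (u v : ↥leechLattice) (hu : sqNorm u.1 = 48) (hv : sqNorm v.1 = 32)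
    (hd : dotInt u.1 v.1 = lat 0) (x x' : ↥leechLattice) (hx : sqNorm x.1 = 32)
    (hx0 : dotInt u.1 x.1 = lbt 0) (hx1 : dotInt v.1 x.1 = lbt 1) (hx' : sqNorm x'.1 = 32)
    (hx0' : dotInt u.1 x'.1 = lbt 0) (hx1' : dotInt v.1 x'.1 = lbt 1) :
    ∃ g : ↥Co0, g • u = u ∧ g • v = v ∧ g • x = x' := by
  obtain ⟨h, hh⟩ := chM_base2 (sel3 u v v) hu hv hd
  obtain ⟨g, hg1, hg2⟩ := trans_gen (bvec chM) (baseSet_mem chM 2) (sel3 u v v) h hh lbt lb_trans x x'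
    hx hx' (forall_lt_two.2 ⟨hx0, hx1⟩) (forall_lt_two.2 ⟨hx0', hx1'⟩)
  exact ⟨g, hg1 0 (by norm_num), hg1 1 (by norm_num), hg2⟩

theorem chM_count3c (u v x : ↥leechLattice) (hu : sqNorm u.1 = 48) (hv : sqNorm v.1 = 32)
    (hd : dotInt u.1 v.1 = lat 0) (hx : sqNorm x.1 = 32)
    (hx0 : dotInt u.1 x.1 = lbt 0) (hx1 : dotInt v.1 x.1 = lbt 1) :
    {y : ↥leechLattice | sqNorm y.1 = 32 ∧ dotInt u.1 y.1 = lct 0 ∧ dotInt v.1 y.1 = lct 1 ∧
      dotInt x.1 y.1 = lct 2}.ncard = x1L.countP (condAll chM 3 lctts) := by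
  obtain ⟨h, hh⟩ := chM_base3 (sel3 u v x) hu hv hd hx hx0 hx1
  rw [← cnt_gen chM0 (by norm_num) (by norm_num) rfl lc_htt, ← ncard_gen (bvec chM) (sel3 u v x) h hh lct]
  congr 1
  ext y
  exact and_congr_right (fun _ =>
    (forall_lt_three (P := fun r => dotInt (sel3 u v x r).1 y.1 = lct r)).symm)

theorem chM_count3d (u v x : ↥leechLattice) (hu : sqNorm u.1 = 48) (hv : sqNorm v.1 = 32)
    (hd : dotInt u.1 v.1 = lat 0) (hx : sqNorm x.1 = 32)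
    (hx0 : dotInt u.1 x.1 = lbt 0) (hx1 : dotInt v.1 x.1 = lbt 1) :
    {y : ↥leechLattice | sqNorm y.1 = 32 ∧ dotInt u.1 y.1 = ldt 0 ∧ dotInt v.1 y.1 = ldt 1 ∧
      dotInt x.1 y.1 = ldt 2}.ncard = x1L.countP (condAll chM 3 ldtts) := by
  obtain ⟨h, hh⟩ := chM_base3 (sel3 u v x) hu hv hd hx hx0 hx1
  rw [← cnt_gen chM0 (by norm_num) (by norm_num) rfl ld_htt, ← ncard_gen (bvec chM) (sel3 u v x) h hh ldt]
  congr 1
  ext y
  exact and_congr_right (fun _ =>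
    (forall_lt_three (P := fun r => dotInt (sel3 u v x r).1 y.1 = ldt r)).symm)

theorem chM_trans3c (u v x : ↥leechLattice) (hu : sqNorm u.1 = 48) (hv : sqNorm v.1 = 32)
    (hd : dotInt u.1 v.1 = lat 0) (hx : sqNorm x.1 = 32)
    (hx0 : dotInt u.1 x.1 = lbt 0) (hx1 : dotInt v.1 x.1 = lbt 1)
    (y y' : ↥leechLattice) (hy : sqNorm y.1 = 32)
    (hy0 : dotInt u.1 y.1 = lct 0) (hy1 : dotInt v.1 y.1 = lct 1) (hy2 : dotInt x.1 y.1 = lct 2)
    (hy' : sqNorm y'.1 = 32) (hy0' : dotInt u.1 y'.1 = lct 0) (hy1' : dotInt v.1 y'.1 = lct 1)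
    (hy2' : dotInt x.1 y'.1 = lct 2) :
    ∃ g : ↥Co0, g • u = u ∧ g • v = v ∧ g • x = x ∧ g • y = y' := by
  obtain ⟨h, hh⟩ := chM_base3 (sel3 u v x) hu hv hd hx hx0 hx1
  obtain ⟨g, hg1, hg2⟩ := trans_gen (bvec chM) (baseSet_mem chM 3) (sel3 u v x) h hh lct lc_trans y y'
    hy hy' (forall_lt_three.2 ⟨hy0, hy1, hy2⟩) (forall_lt_three.2 ⟨hy0', hy1', hy2'⟩)
  exact ⟨g, hg1 0 (by norm_num), hg1 1 (by norm_num), hg1 2 (by norm_num), hg2⟩

theorem chM_trans3d (u v x : ↥leechLattice) (hu : sqNorm u.1 = 48) (hv : sqNorm v.1 = 32)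
    (hd : dotInt u.1 v.1 = lat 0) (hx : sqNorm x.1 = 32)
    (hx0 : dotInt u.1 x.1 = lbt 0) (hx1 : dotInt v.1 x.1 = lbt 1)
    (y y' : ↥leechLattice) (hy : sqNorm y.1 = 32)
    (hy0 : dotInt u.1 y.1 = ldt 0) (hy1 : dotInt v.1 y.1 = ldt 1) (hy2 : dotInt x.1 y.1 = ldt 2)
    (hy' : sqNorm y'.1 = 32) (hy0' : dotInt u.1 y'.1 = ldt 0) (hy1' : dotInt v.1 y'.1 = ldt 1)
    (hy2' : dotInt x.1 y'.1 = ldt 2) :
    ∃ g : ↥Co0, g • u = u ∧ g • v = v ∧ g • x = x ∧ g • y = y' := by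
  obtain ⟨h, hh⟩ := chM_base3 (sel3 u v x) hu hv hd hx hx0 hx1
  obtain ⟨g, hg1, hg2⟩ := trans_gen (bvec chM) (baseSet_mem chM 3) (sel3 u v x) h hh ldt ld_trans y y'
    hy hy' (forall_lt_three.2 ⟨hy0, hy1, hy2⟩) (forall_lt_three.2 ⟨hy0', hy1', hy2'⟩)
  exact ⟨g, hg1 0 (by norm_num), hg1 1 (by norm_num), hg1 2 (by norm_num), hg2⟩

theorem chM_tri_base {w : GolayPt → ℤ} (hw : w ∈ leechLattice) (hn : sqNorm w = 32)
    (h : ∀ r < 2, dotInt (bvec chM r) w = lbt r) :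
    dotInt (bvec chM 2) w = lct 2 ∨ dotInt (bvec chM 2) w = ldt 2 ∨ w = bvec chM 2 := by
  have h1 := triM
  rw [List.all_eq_true] at h1
  have h2 := h1 _ (hl_gen chM0 (by norm_num) rfl w hw hn h)
  rw [(condAll_iff (by norm_num) (chkTT_sound lb_htt).1 (inR_of_32 hn)).2 h, cond_true,
    Bool.or_eq_true, Bool.or_eq_true] at h2
  rcases h2 with (h2 | h2) | h2
  · exact Or.inl ((condAll_iff (by norm_num) (chkTT_sound lc_htt).1 (inR_of_32 hn)).1 h2 2 (by norm_num))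
  · exact Or.inr (Or.inl
      ((condAll_iff (by norm_num) (chkTT_sound ld_htt).1 (inR_of_32 hn)).1 h2 2 (by norm_num)))
  · refine Or.inr (Or.inr (encV_inj (inR_of_32 hn) (inR_of_32 chM_norm2) ?_))
    rw [chM_enc2]
    exact Nat.eq_of_beq_eq_true h2

theorem chM_tri (u v x : ↥leechLattice) (hu : sqNorm u.1 = 48) (hv : sqNorm v.1 = 32)
    (hd : dotInt u.1 v.1 = lat 0) (hx : sqNorm x.1 = 32)
    (hx0 : dotInt u.1 x.1 = lbt 0) (hx1 : dotInt v.1 x.1 = lbt 1)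
    (y : ↥leechLattice) (hy : sqNorm y.1 = 32)
    (hy0 : dotInt u.1 y.1 = lbt 0) (hy1 : dotInt v.1 y.1 = lbt 1) :
    dotInt x.1 y.1 = lct 2 ∨ dotInt x.1 y.1 = ldt 2 ∨ y = x := by
  obtain ⟨h, hh⟩ := chM_base3 (sel3 u v x) hu hv hd hx hx0 hx1
  have e : ∀ r < 3, dotInt (bvec chM r) (h • y).1 = dotInt (sel3 u v x r).1 y.1 := by
    intro r hr
    rw [← hh r hr, Co0_dot]
  have := chM_tri_base (h • y).2 (by rw [Co0_sqNorm]; exact hy) (forall_lt_two.2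
    ⟨by rw [e 0 (by norm_num)]; exact hy0, by rw [e 1 (by norm_num)]; exact hy1⟩)
  rw [e 2 (by norm_num)] at this
  rcases this with h1 | h1 | h1
  · exact Or.inl h1
  · exact Or.inr (Or.inl h1)
  · refine Or.inr (Or.inr ?_)
    rw [← hh 2 (by norm_num)] at h1
    exact MulAction.injective h (Subtype.ext h1)

/-! ### the chain HS -/

theorem ha_trans : ∀ x x' : GolayPt → ℤ, x ∈ leechLattice → sqNorm x = 32 →
    (∀ r < 2, dotInt (bvec chH r) x = hat r) → x' ∈ leechLattice → sqNorm x' = 32 →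
    (∀ r < 2, dotInt (bvec chH r) x' = hat r) → RelB (baseSet chH 2) x x' :=
  fun _ _ hw hn hP hw' hn' hP' => descent_of_list (by norm_num) hs_hg ha_htt hark han0 x1L
    (hl_gen chH0 (by norm_num) rfl) ha_hall hw hn hP hw' hn' hP'

theorem hb_trans : ∀ x x' : GolayPt → ℤ, x ∈ leechLattice → sqNorm x = 32 →
    (∀ r < 3, dotInt (bvec chH r) x = hbt r) → x' ∈ leechLattice → sqNorm x' = 32 →
    (∀ r < 3, dotInt (bvec chH r) x' = hbt r) → RelB (baseSet chH 3) x x' :=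
  fun _ _ hw hn hP hw' hn' hP' => descent_of_list (by norm_num) m22_hg hb_htt hbrk hbn0 x1L
    (hl_gen chH0 (by norm_num) rfl) hb_hall hw hn hP hw' hn' hP'

theorem hc_trans : ∀ x x' : GolayPt → ℤ, x ∈ leechLattice → sqNorm x = 32 →
    (∀ r < 3, dotInt (bvec chH r) x = hct r) → x' ∈ leechLattice → sqNorm x' = 32 →
    (∀ r < 3, dotInt (bvec chH r) x' = hct r) → RelB (baseSet chH 3) x x' :=
  fun _ _ hw hn hP hw' hn' hP' => descent_of_list (by norm_num) m22_hg hc_htt hcrk hcn0 x1L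
    (hl_gen chH0 (by norm_num) rfl) hc_hall hw hn hP hw' hn' hP'

theorem chH_norm1 : sqNorm (bvec chH 1) = 32 := by decide +kernel
theorem chH_norm2 : sqNorm (bvec chH 2) = 32 := by decide +kernel
theorem chH_dot01 : dotInt (bvec chH 0) (bvec chH 1) = zot 0 := by decide +kernel
theorem chH_dot02 : dotInt (bvec chH 0) (bvec chH 2) = hat 0 := by decide +kernel
theorem chH_dot12 : dotInt (bvec chH 1) (bvec chH 2) = hat 1 := by decide +kernel
theorem chH_enc2 : encV (bvec chH 2) = encH2 := by decide +kernel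

/-- two vectors in standard position. -/
theorem chH_base2 (us : ℕ → ↥leechLattice) (hu : sqNorm (us 0).1 = 48) (hv : sqNorm (us 1).1 = 32)
    (hd : dotInt (us 0).1 (us 1).1 = zot 0) :
    ∃ h : ↥Co0, ∀ r < 2, ((h • us r : ↥leechLattice) : GolayPt → ℤ) = bvec chH r := by
  obtain ⟨h, hh⟩ := base1 chH0 us hu
  exact extend_gen (bvec chH) (baseSet_mem chH 1) us h hh zot zo_trans hv (forall_lt_one.2 hd)
    ((chkTT_sound ha_htt).2 1 (by norm_num)) chH_norm1 (forall_lt_one.2 chH_dot01)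

/-- three vectors in standard position. -/
theorem chH_base3 (us : ℕ → ↥leechLattice) (hu : sqNorm (us 0).1 = 48) (hv : sqNorm (us 1).1 = 32)
    (hd : dotInt (us 0).1 (us 1).1 = zot 0) (hx : sqNorm (us 2).1 = 32)
    (hd0 : dotInt (us 0).1 (us 2).1 = hat 0) (hd1 : dotInt (us 1).1 (us 2).1 = hat 1) :
    ∃ h : ↥Co0, ∀ r < 3, ((h • us r : ↥leechLattice) : GolayPt → ℤ) = bvec chH r := by
  obtain ⟨h, hh⟩ := chH_base2 us hu hv hd
  exact extend_gen (bvec chH) (baseSet_mem chH 2) us h hh hat ha_trans hx (forall_lt_two.2 ⟨hd0, hd1⟩)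
    ((chkTT_sound hb_htt).2 2 (by norm_num)) chH_norm2 (forall_lt_two.2 ⟨chH_dot02, chH_dot12⟩)

theorem chH_count2 (u v : ↥leechLattice) (hu : sqNorm u.1 = 48) (hv : sqNorm v.1 = 32)
    (hd : dotInt u.1 v.1 = zot 0) :
    {x : ↥leechLattice | sqNorm x.1 = 32 ∧ dotInt u.1 x.1 = hat 0 ∧ dotInt v.1 x.1 = hat 1}.ncard =
      x1L.countP (condAll chH 2 hatts) := by
  obtain ⟨h, hh⟩ := chH_base2 (sel3 u v v) hu hv hd
  rw [← cnt_gen chH0 (by norm_num) (by norm_num) rfl ha_htt, ← ncard_gen (bvec chH) (sel3 u v v) h hh hat]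
  congr 1
  ext y
  exact and_congr_right (fun _ =>
    (forall_lt_two (P := fun r => dotInt (sel3 u v v r).1 y.1 = hat r)).symm)

theorem chH_trans2 (u v : ↥leechLattice) (hu : sqNorm u.1 = 48) (hv : sqNorm v.1 = 32)
    (hd : dotInt u.1 v.1 = zot 0) (x x' : ↥leechLattice) (hx : sqNorm x.1 = 32)
    (hx0 : dotInt u.1 x.1 = hat 0) (hx1 : dotInt v.1 x.1 = hat 1) (hx' : sqNorm x'.1 = 32)
    (hx0' : dotInt u.1 x'.1 = hat 0) (hx1' : dotInt v.1 x'.1 = hat 1) :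
    ∃ g : ↥Co0, g • u = u ∧ g • v = v ∧ g • x = x' := by
  obtain ⟨h, hh⟩ := chH_base2 (sel3 u v v) hu hv hd
  obtain ⟨g, hg1, hg2⟩ := trans_gen (bvec chH) (baseSet_mem chH 2) (sel3 u v v) h hh hat ha_trans x x'
    hx hx' (forall_lt_two.2 ⟨hx0, hx1⟩) (forall_lt_two.2 ⟨hx0', hx1'⟩)
  exact ⟨g, hg1 0 (by norm_num), hg1 1 (by norm_num), hg2⟩

theorem chH_count3b (u v x : ↥leechLattice) (hu : sqNorm u.1 = 48) (hv : sqNorm v.1 = 32)
    (hd : dotInt u.1 v.1 = zot 0) (hx : sqNorm x.1 = 32)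
    (hx0 : dotInt u.1 x.1 = hat 0) (hx1 : dotInt v.1 x.1 = hat 1) :
    {y : ↥leechLattice | sqNorm y.1 = 32 ∧ dotInt u.1 y.1 = hbt 0 ∧ dotInt v.1 y.1 = hbt 1 ∧
      dotInt x.1 y.1 = hbt 2}.ncard = x1L.countP (condAll chH 3 hbtts) := by
  obtain ⟨h, hh⟩ := chH_base3 (sel3 u v x) hu hv hd hx hx0 hx1
  rw [← cnt_gen chH0 (by norm_num) (by norm_num) rfl hb_htt, ← ncard_gen (bvec chH) (sel3 u v x) h hh hbt]
  congr 1
  ext y
  exact and_congr_right (fun _ =>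
    (forall_lt_three (P := fun r => dotInt (sel3 u v x r).1 y.1 = hbt r)).symm)

theorem chH_count3c (u v x : ↥leechLattice) (hu : sqNorm u.1 = 48) (hv : sqNorm v.1 = 32)
    (hd : dotInt u.1 v.1 = zot 0) (hx : sqNorm x.1 = 32)
    (hx0 : dotInt u.1 x.1 = hat 0) (hx1 : dotInt v.1 x.1 = hat 1) :
    {y : ↥leechLattice | sqNorm y.1 = 32 ∧ dotInt u.1 y.1 = hct 0 ∧ dotInt v.1 y.1 = hct 1 ∧
      dotInt x.1 y.1 = hct 2}.ncard = x1L.countP (condAll chH 3 hctts) := by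
  obtain ⟨h, hh⟩ := chH_base3 (sel3 u v x) hu hv hd hx hx0 hx1
  rw [← cnt_gen chH0 (by norm_num) (by norm_num) rfl hc_htt, ← ncard_gen (bvec chH) (sel3 u v x) h hh hct]
  congr 1
  ext y
  exact and_congr_right (fun _ =>
    (forall_lt_three (P := fun r => dotInt (sel3 u v x r).1 y.1 = hct r)).symm)

theorem chH_trans3b (u v x : ↥leechLattice) (hu : sqNorm u.1 = 48) (hv : sqNorm v.1 = 32)
    (hd : dotInt u.1 v.1 = zot 0) (hx : sqNorm x.1 = 32)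
    (hx0 : dotInt u.1 x.1 = hat 0) (hx1 : dotInt v.1 x.1 = hat 1)
    (y y' : ↥leechLattice) (hy : sqNorm y.1 = 32)
    (hy0 : dotInt u.1 y.1 = hbt 0) (hy1 : dotInt v.1 y.1 = hbt 1) (hy2 : dotInt x.1 y.1 = hbt 2)
    (hy' : sqNorm y'.1 = 32) (hy0' : dotInt u.1 y'.1 = hbt 0) (hy1' : dotInt v.1 y'.1 = hbt 1)
    (hy2' : dotInt x.1 y'.1 = hbt 2) :
    ∃ g : ↥Co0, g • u = u ∧ g • v = v ∧ g • x = x ∧ g • y = y' := by
  obtain ⟨h, hh⟩ := chH_base3 (sel3 u v x) hu hv hd hx hx0 hx1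
  obtain ⟨g, hg1, hg2⟩ := trans_gen (bvec chH) (baseSet_mem chH 3) (sel3 u v x) h hh hbt hb_trans y y'
    hy hy' (forall_lt_three.2 ⟨hy0, hy1, hy2⟩) (forall_lt_three.2 ⟨hy0', hy1', hy2'⟩)
  exact ⟨g, hg1 0 (by norm_num), hg1 1 (by norm_num), hg1 2 (by norm_num), hg2⟩

theorem chH_trans3c (u v x : ↥leechLattice) (hu : sqNorm u.1 = 48) (hv : sqNorm v.1 = 32)
    (hd : dotInt u.1 v.1 = zot 0) (hx : sqNorm x.1 = 32)
    (hx0 : dotInt u.1 x.1 = hat 0) (hx1 : dotInt v.1 x.1 = hat 1)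
    (y y' : ↥leechLattice) (hy : sqNorm y.1 = 32)
    (hy0 : dotInt u.1 y.1 = hct 0) (hy1 : dotInt v.1 y.1 = hct 1) (hy2 : dotInt x.1 y.1 = hct 2)
    (hy' : sqNorm y'.1 = 32) (hy0' : dotInt u.1 y'.1 = hct 0) (hy1' : dotInt v.1 y'.1 = hct 1)
    (hy2' : dotInt x.1 y'.1 = hct 2) :
    ∃ g : ↥Co0, g • u = u ∧ g • v = v ∧ g • x = x ∧ g • y = y' := by
  obtain ⟨h, hh⟩ := chH_base3 (sel3 u v x) hu hv hd hx hx0 hx1
  obtain ⟨g, hg1, hg2⟩ := trans_gen (bvec chH) (baseSet_mem chH 3) (sel3 u v x) h hh hct hc_trans y y'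
    hy hy' (forall_lt_three.2 ⟨hy0, hy1, hy2⟩) (forall_lt_three.2 ⟨hy0', hy1', hy2'⟩)
  exact ⟨g, hg1 0 (by norm_num), hg1 1 (by norm_num), hg1 2 (by norm_num), hg2⟩

theorem chH_tri_base {w : GolayPt → ℤ} (hw : w ∈ leechLattice) (hn : sqNorm w = 32)
    (h : ∀ r < 2, dotInt (bvec chH r) w = hat r) :
    dotInt (bvec chH 2) w = hbt 2 ∨ dotInt (bvec chH 2) w = hct 2 ∨ w = bvec chH 2 := by
  have h1 := triH
  rw [List.all_eq_true] at h1
  have h2 := h1 _ (hl_gen chH0 (by norm_num) rfl w hw hn h)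
  rw [(condAll_iff (by norm_num) (chkTT_sound ha_htt).1 (inR_of_32 hn)).2 h, cond_true,
    Bool.or_eq_true, Bool.or_eq_true] at h2
  rcases h2 with (h2 | h2) | h2
  · exact Or.inl ((condAll_iff (by norm_num) (chkTT_sound hb_htt).1 (inR_of_32 hn)).1 h2 2 (by norm_num))
  · exact Or.inr (Or.inl
      ((condAll_iff (by norm_num) (chkTT_sound hc_htt).1 (inR_of_32 hn)).1 h2 2 (by norm_num)))
  · refine Or.inr (Or.inr (encV_inj (inR_of_32 hn) (inR_of_32 chH_norm2) ?_))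
    rw [chH_enc2]
    exact Nat.eq_of_beq_eq_true h2

theorem chH_tri (u v x : ↥leechLattice) (hu : sqNorm u.1 = 48) (hv : sqNorm v.1 = 32)
    (hd : dotInt u.1 v.1 = zot 0) (hx : sqNorm x.1 = 32)
    (hx0 : dotInt u.1 x.1 = hat 0) (hx1 : dotInt v.1 x.1 = hat 1)
    (y : ↥leechLattice) (hy : sqNorm y.1 = 32)
    (hy0 : dotInt u.1 y.1 = hat 0) (hy1 : dotInt v.1 y.1 = hat 1) :
    dotInt x.1 y.1 = hbt 2 ∨ dotInt x.1 y.1 = hct 2 ∨ y = x := by
  obtain ⟨h, hh⟩ := chH_base3 (sel3 u v x) hu hv hd hx hx0 hx1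
  have e : ∀ r < 3, dotInt (bvec chH r) (h • y).1 = dotInt (sel3 u v x r).1 y.1 := by
    intro r hr
    rw [← hh r hr, Co0_dot]
  have := chH_tri_base (h • y).2 (by rw [Co0_sqNorm]; exact hy) (forall_lt_two.2
    ⟨by rw [e 0 (by norm_num)]; exact hy0, by rw [e 1 (by norm_num)]; exact hy1⟩)
  rw [e 2 (by norm_num)] at this
  rcases this with h1 | h1 | h1
  · exact Or.inl h1
  · exact Or.inr (Or.inl h1)
  · refine Or.inr (Or.inr ?_)
    rw [← hh 2 (by norm_num)] at h1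
    exact MulAction.injective h (Subtype.ext h1)

end Cfsg.Agent.Lib.Helper11
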