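import Mathlib
import Cfsg.Agent.Lib.Helper11.CyclicTI2

set_option autoImplicit false

namespace Cfsg.Agent.Lib.Helper11

open Cfsg Cfsg.Agent.Lib.Helper7

theorem matrix_lemma {I J : Type*} [Fintype I] [Fintype J] (A : I → J → ℂ)
    (hA : ∀ i i' j j', A i j + A i' j' = A i j' + A i' j)
    (hcard : Fintype.card I + 2 ≤ Fintype.card J)
    (S : Finset (I × J)) (hS : ∀ p, p ∈ S ↔ A p.1 p.2 ≠ 0)
    (hfew : S.card < 2 * Fintype.card I) :
    (∀ i j, A i j = 0) ∨ (∃ j₀ a, ∀ i j, (j = j₀ → A i j = a) ∧ (j ≠ j₀ → A i j = 0)) ∨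
      (∃ i₀ a, ∀ i j, (i = i₀ → A i j = a) ∧ (i ≠ i₀ → A i j = 0)) := by
  classical
  by_cases hz : ∀ i j, A i j = 0
  · exact Or.inl hz
  push Not at hz
  obtain ⟨i₀, j₀, h0⟩ := hz
  by_cases hrows : ∀ i i' j, A i j = A i' j
  · right; left
    refine ⟨j₀, A i₀ j₀, fun i j => ⟨fun hj => ?_, fun hj => ?_⟩⟩
    · subst hj; exact hrows _ _ _
    · by_contra hne
      have hsub : (Finset.univ : Finset I) ×ˢ ({j₀, j} : Finset J) ⊆ S := by
        intro p hp
        simp only [Finset.mem_product, Finset.mem_univ, true_and, Finset.mem_insert,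
          Finset.mem_singleton] at hp
        rw [hS]
        rcases hp with hp | hp
        · rw [hp, hrows p.1 i₀]; exact h0
        · rw [hp, hrows p.1 i]; exact hne
      have := Finset.card_le_card hsub
      rw [Finset.card_product, Finset.card_univ, Finset.card_pair (Ne.symm hj)] at this
      omega
  by_cases hcols : ∀ i j j', A i j = A i j'
  · right; right
    refine ⟨i₀, A i₀ j₀, fun i j => ⟨fun hi => ?_, fun hi => ?_⟩⟩
    · subst hi; exact hcols _ _ _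
    · by_contra hne
      have hsub : ({i₀, i} : Finset I) ×ˢ (Finset.univ : Finset J) ⊆ S := by
        intro p hp
        simp only [Finset.mem_product, Finset.mem_univ, and_true, Finset.mem_insert,
          Finset.mem_singleton] at hp
        rw [hS]
        rcases hp with hp | hp
        · rw [hp, hcols i₀ p.2 j₀]; exact h0
        · rw [hp, hcols i p.2 j]; exact hne
      have := Finset.card_le_card hsub
      rw [Finset.card_product, Finset.card_univ, Finset.card_pair (Ne.symm hi)] at this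
      omega
  · exfalso
    push Not at hrows hcols
    obtain ⟨i₁, i₂, j₁, h12⟩ := hrows
    obtain ⟨i₃, j₂, j₃, h23⟩ := hcols
    have hr : ∀ i, A i j₂ ≠ A i j₃ := by
      intro i h; apply h23
      have := hA i i₃ j₂ j₃
      linear_combination h - this
    let nz : I → ℕ := fun i => (Finset.univ.filter (fun j => A i j ≠ 0)).card
    have hSeq : S = Finset.univ.filter (fun p : I × J => A p.1 p.2 ≠ 0) := by
      ext p; simp [hS]
    have hN : S.card = ∑ i, nz i := by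
      simp only [hSeq, nz, Finset.card_filter]
      rw [Fintype.sum_prod_type]
    have h1 : ∀ i, 1 ≤ nz i := by
      intro i
      apply Finset.card_pos.mpr
      by_cases h : A i j₂ = 0
      · refine ⟨j₃, ?_⟩
        simp only [Finset.mem_filter, Finset.mem_univ, true_and]
        intro h'; exact hr i (h.trans h'.symm)
      · exact ⟨j₂, by simpa using h⟩
    by_cases h2 : ∀ i, 2 ≤ nz i
    · have : ∑ i : I, 2 ≤ ∑ i, nz i := Finset.sum_le_sum (fun i _ => h2 i)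
      simp only [Finset.sum_const, Finset.card_univ, smul_eq_mul] at this
      omega
    · push Not at h2
      obtain ⟨i₄, hi₄⟩ := h2
      obtain ⟨k, hk⟩ : ∃ k, A k j₁ ≠ A i₄ j₁ := by
        by_cases h : A i₁ j₁ = A i₄ j₁
        · exact ⟨i₂, fun h' => h12 (h.trans h'.symm)⟩
        · exact ⟨i₁, h⟩
      have hk' : ∀ j, A k j ≠ A i₄ j := by
        intro j h; apply hk
        have := hA k i₄ j j₁
        linear_combination h - this
      have hnzk : Fintype.card J ≤ nz k + nz i₄ := by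
        have hsub : (Finset.univ : Finset J) ⊆ (Finset.univ.filter (fun j => A k j ≠ 0)) ∪
            (Finset.univ.filter (fun j => A i₄ j ≠ 0)) := by
          intro j _
          simp only [Finset.mem_union, Finset.mem_filter, Finset.mem_univ, true_and]
          by_contra hcon
          push Not at hcon
          exact hk' j (hcon.1.trans hcon.2.symm)
        calc Fintype.card J = (Finset.univ : Finset J).card := rfl
          _ ≤ _ := Finset.card_le_card hsub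
          _ ≤ _ := Finset.card_union_le _ _
      have hsum : nz k + (Fintype.card I - 1) ≤ ∑ i, nz i := by
        rw [← Finset.add_sum_erase _ _ (Finset.mem_univ k)]
        have : ∑ i ∈ Finset.univ.erase k, 1 ≤ ∑ i ∈ Finset.univ.erase k, nz i :=
          Finset.sum_le_sum (fun i _ => h1 i)
        simp only [Finset.sum_const, smul_eq_mul, mul_one,
          Finset.card_erase_of_mem (Finset.mem_univ k), Finset.card_univ] at this
        omega
      have hI : 1 ≤ Fintype.card I := Fintype.card_pos_iff.mpr ⟨k⟩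
      omega

section Count

variable {G : Type*} [Group G] [Finite G] {W₁ W₂ : Subgroup G}

omit [Finite G] in
theorem isComplement'_subgroupOf (hdisj : W₁ ⊓ W₂ = ⊥)
    (hcomm : ∀ a ∈ W₁, ∀ b ∈ W₂, a * b = b * a) :
    Subgroup.IsComplement' (W₁.subgroupOf (W₁ ⊔ W₂)) (W₂.subgroupOf (W₁ ⊔ W₂)) := by
  apply Subgroup.isComplement'_of_disjoint_and_mul_eq_univ
  · rw [disjoint_iff, eq_bot_iff]
    rintro x ⟨h1, h2⟩
    have : (x : G) ∈ W₁ ⊓ W₂ := ⟨h1, h2⟩
    rw [hdisj, Subgroup.mem_bot] at this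
    rw [Subgroup.mem_bot]
    exact Subtype.ext this
  · rw [Set.eq_univ_iff_forall]
    rintro ⟨w, hw⟩
    obtain ⟨a, ha, b, hb, rfl⟩ := exists_mul_of_mem_sup hcomm hw
    exact Set.mem_mul.mpr ⟨⟨a, Subgroup.mem_sup_left ha⟩, ha, ⟨b, Subgroup.mem_sup_right hb⟩, hb, rfl⟩

omit [Finite G] in
theorem card_sup_eq (hdisj : W₁ ⊓ W₂ = ⊥) (hcomm : ∀ a ∈ W₁, ∀ b ∈ W₂, a * b = b * a) :
    Nat.card ↥(W₁ ⊔ W₂) = Nat.card W₁ * Nat.card W₂ := by
  rw [← (isComplement'_subgroupOf hdisj hcomm).card_mul_card,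
    Nat.card_congr (Subgroup.subgroupOfEquivOfLe (le_sup_left : W₁ ≤ W₁ ⊔ W₂)).toEquiv,
    Nat.card_congr (Subgroup.subgroupOfEquivOfLe (le_sup_right : W₂ ≤ W₁ ⊔ W₂)).toEquiv]

theorem card_hom_trivial_right (hdisj : W₁ ⊓ W₂ = ⊥) (hcomm : ∀ a ∈ W₁, ∀ b ∈ W₂, a * b = b * a)
    (hc : ∀ a b : ↥(W₁ ⊔ W₂), a * b = b * a) :
    Nat.card {φ : ↥(W₁ ⊔ W₂) →* ℂˣ // ∀ w : ↥(W₁ ⊔ W₂), (w : G) ∈ W₂ → φ w = 1} = Nat.card W₁ := by
  have := card_hom_trivial_on hc (W₂.subgroupOf (W₁ ⊔ W₂))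
  rw [(isComplement'_subgroupOf hdisj hcomm).index_eq_card,
    Nat.card_congr (Subgroup.subgroupOfEquivOfLe (le_sup_left : W₁ ≤ W₁ ⊔ W₂)).toEquiv] at this
  exact this

theorem card_hom_trivial_left (hdisj : W₁ ⊓ W₂ = ⊥) (hcomm : ∀ a ∈ W₁, ∀ b ∈ W₂, a * b = b * a)
    (hc : ∀ a b : ↥(W₁ ⊔ W₂), a * b = b * a) :
    Nat.card {φ : ↥(W₁ ⊔ W₂) →* ℂˣ // ∀ w : ↥(W₁ ⊔ W₂), (w : G) ∈ W₁ → φ w = 1} = Nat.card W₂ := by
  have := card_hom_trivial_on hc (W₁.subgroupOf (W₁ ⊔ W₂))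
  rw [(isComplement'_subgroupOf hdisj hcomm).symm.index_eq_card,
    Nat.card_congr (Subgroup.subgroupOfEquivOfLe (le_sup_right : W₂ ≤ W₁ ⊔ W₂)).toEquiv] at this
  exact this

theorem hom_mul_bijective (hdisj : W₁ ⊓ W₂ = ⊥) (hcomm : ∀ a ∈ W₁, ∀ b ∈ W₂, a * b = b * a)
    (hc : ∀ a b : ↥(W₁ ⊔ W₂), a * b = b * a) :
    Function.Bijective (fun p : {φ : ↥(W₁ ⊔ W₂) →* ℂˣ // ∀ w : ↥(W₁ ⊔ W₂), (w : G) ∈ W₂ → φ w = 1} ×
      {φ : ↥(W₁ ⊔ W₂) →* ℂˣ // ∀ w : ↥(W₁ ⊔ W₂), (w : G) ∈ W₁ → φ w = 1} => p.1.1 * p.2.1) := by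
  rw [Nat.bijective_iff_injective_and_card]
  constructor
  · rintro ⟨⟨φ, hφ⟩, ⟨ψ, hψ⟩⟩ ⟨⟨φ', hφ'⟩, ⟨ψ', hψ'⟩⟩ h
    obtain ⟨rfl, rfl⟩ := (mul_eq_mul_iff hcomm φ φ' ψ ψ' hφ hφ' hψ hψ').mp h
    rfl
  · rw [Nat.card_prod, card_hom_trivial_right hdisj hcomm hc, card_hom_trivial_left hdisj hcomm hc,
      card_hom hc, card_sup_eq hdisj hcomm]

end Count

end Cfsg.Agent.Lib.Helper11
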