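import Mathlib
import Cfsg.Agent.Lib.Helper11.GalChar
import Cfsg.Agent.Lib.Helper2.CharInt

set_option autoImplicit false

namespace Cfsg.Agent.Lib.Helper11

open Cfsg Cfsg.Agent.Lib.Helper7
open Cfsg.Agent.Lib.Helper2 (cycField zetaN zetaN_isPrimitiveRoot zetaN_mem)
open scoped ComplexConjugate IntermediateField

theorem exists_coprime_modEq {N o n m : ℕ} (hN : N ≠ 0) (ho : o ∣ N) (hn : n ∣ N)
    (hcop : o.Coprime n) (hm : m.Coprime o) :
    ∃ m' : ℕ, m'.Coprime N ∧ m' ≡ m [MOD o] ∧ m' ≡ 1 [MOD n] := by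
  have : NeZero N := ⟨hN⟩
  obtain ⟨r, hr1, hr2⟩ := Nat.chineseRemainder hcop m 1
  have hro : r.Coprime o := by
    have := hr1.gcd_eq
    unfold Nat.Coprime at hm ⊢
    rw [this, hm]
  have hrn : r.Coprime n := by
    have := hr2.gcd_eq
    unfold Nat.Coprime
    rw [this]; simp
  have hd : o * n ∣ N := hcop.mul_dvd_of_dvd_of_dvd ho hn
  obtain ⟨u, hu⟩ := ZMod.unitsMap_surjective hd (ZMod.unitOfCoprime r (hro.mul_right hrn))
  refine ⟨(u : ZMod N).val, ZMod.val_coe_unit_coprime u, ?_⟩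
  have h1 : (((u : ZMod N).val : ℕ) : ZMod (o * n)) = (r : ZMod (o * n)) := by
    have h2 := congrArg (fun v : (ZMod (o * n))ˣ => (v : ZMod (o * n))) hu
    simp only [ZMod.unitsMap_def, Units.coe_map, ZMod.coe_unitOfCoprime] at h2
    rw [ZMod.natCast_val]
    simpa using h2
  have h3 : (u : ZMod N).val ≡ r [MOD o * n] := (ZMod.natCast_eq_natCast_iff _ _ _).mp h1
  exact ⟨(h3.of_mul_right n).trans hr1, (h3.of_mul_left o).trans hr2⟩

variable {G : Type*} [Group G]

theorem int_of_pow_coprime_fixed [Finite G] {χ : G → ℂ} (hχ : IsCharacter G χ) (g : G)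
    (h : ∀ m : ℕ, m.Coprime (Nat.card G) → χ (g ^ m) = χ g) : ∃ n : ℤ, χ g = n := by
  classical
  have hfd : FiniteDimensional ℚ (cycField (Nat.card G)) :=
    Cfsg.Agent.Lib.Helper2.finiteDimensional_cycField _ Nat.card_pos.ne'
  let x : cycField (Nat.card G) := ⟨χ g, Cfsg.Agent.Lib.Helper2.char_mem_cycField hχ g⟩
  have hσ : ∀ σ : cycField (Nat.card G) →ₐ[ℚ] ℂ, σ x = χ g := by
    intro σ
    obtain ⟨m, hm, hm2⟩ := Cfsg.Agent.Lib.Helper2.embedding_char (G := G) σ
    rw [hm2 χ hχ g x rfl, h m hm]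
  have htr := trace_eq_sum_embeddings (K := ℚ) (L := cycField (Nat.card G)) ℂ (x := x)
  rw [Finset.sum_congr rfl (fun σ _ => hσ σ), Finset.sum_const, Finset.card_univ,
    AlgHom.card, nsmul_eq_mul] at htr
  have hpos : (Module.finrank ℚ (cycField (Nat.card G)) : ℂ) ≠ 0 := by
    exact_mod_cast (Module.finrank_pos (R := ℚ) (M := cycField (Nat.card G))).ne'
  refine Cfsg.Agent.Lib.Helper2.exists_int_of_isIntegral_of_rat (char_isIntegral hχ g)
    (Algebra.trace ℚ (cycField (Nat.card G)) x / Module.finrank ℚ (cycField (Nat.card G))) ?_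
  push_cast
  rw [eq_div_iff hpos, mul_comm, ← htr]
  rfl

end Cfsg.Agent.Lib.Helper11
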