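import Mathlib
import Cfsg.Agent.Lib.Helper11.CyclicTI3
import Cfsg.Agent.Lib.Helper11.GalRat
import Cfsg.Agent.Lib.Helper11.GenChar

set_option autoImplicit false

namespace Cfsg.Agent.Lib.Helper11

open Cfsg Cfsg.Agent.Lib.Helper7

section Sign

variable {G : Type*} [Group G] [Fintype G]

/-- An irreducible character up to sign. -/
def SignIrr (u : G → ℂ) : Prop := IsIrrCharacter G u ∨ IsIrrCharacter G (-u)

theorem signIrr_inner {u v : G → ℂ} (hu : SignIrr u) (hv : SignIrr v) :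
    classInner u v = 0 ∨ (u = v ∨ u = -v) := by
  rcases hu with hu | hu <;> rcases hv with hv | hv
  · by_cases h : u = v
    · right; left; exact h
    · left; exact classInner_irr_ne hu hv h
  · by_cases h : u = -v
    · right; right; exact h
    · left
      have := classInner_irr_ne hu hv h
      rw [classInner_neg_right] at this
      simpa using this
  · by_cases h : -u = v
    · right; right; rw [← h, neg_neg]
    · left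
      have := classInner_irr_ne hu hv h
      rw [classInner_neg_left] at this
      simpa using this
  · by_cases h : -u = -v
    · right; left; exact neg_injective h
    · left
      have := classInner_irr_ne hu hv h
      rw [classInner_neg_left, classInner_neg_right] at this
      simpa using this

theorem inner_zero_of_eq_or_neg {a e x : G → ℂ} (h : a = e ∨ a = -e) (hx : classInner e x = 0) :
    classInner a x = 0 := by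
  rcases h with rfl | rfl
  · exact hx
  · rw [classInner_neg_left, hx, neg_zero]

theorem eq_of_three {a₀ b₀ c₁ d₁ c₂ d₂ : G → ℂ} (ha : SignIrr a₀) (hb : SignIrr b₀)
    (hc₁ : SignIrr c₁) (hd₁ : SignIrr d₁) (hbb : classInner b₀ b₀ = 1)
    (hbc₁ : classInner b₀ c₁ = 0) (hbd₁ : classInner b₀ d₁ = 0)
    (hc₁c₂ : classInner c₁ c₂ = 0) (hc₁d₂ : classInner c₁ d₂ = 0)
    (hd₁c₂ : classInner d₁ c₂ = 0) (hd₁d₂ : classInner d₁ d₂ = 0)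
    (h1 : classInner a₀ b₀ + classInner a₀ c₁ - classInner a₀ d₁ = 1)
    (h2 : classInner a₀ b₀ + classInner a₀ c₂ - classInner a₀ d₂ = 1) : a₀ = b₀ := by
  rcases signIrr_inner ha hb with h | h | h
  · exfalso
    rcases signIrr_inner ha hc₁ with k | k
    · rcases signIrr_inner ha hd₁ with l | l
      · rw [h, k, l] at h1; norm_num at h1
      · rw [h, inner_zero_of_eq_or_neg l hd₁c₂, inner_zero_of_eq_or_neg l hd₁d₂] at h2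
        norm_num at h2
    · rw [h, inner_zero_of_eq_or_neg k hc₁c₂, inner_zero_of_eq_or_neg k hc₁d₂] at h2
      norm_num at h2
  · exact h
  · exfalso
    rw [h, classInner_neg_left, classInner_neg_left, classInner_neg_left, hbb, hbc₁, hbd₁] at h1
    norm_num at h1

end Sign

section Unique

variable {G : Type*} [Group G] [Fintype G] {W₁ W₂ : Subgroup G}

theorem exists_two_nontrivial {α : Type*} [Finite α] (one : α) (h : 3 ≤ Nat.card α) :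
    ∃ a b : α, a ≠ one ∧ b ≠ one ∧ a ≠ b := by
  classical
  cases nonempty_fintype α
  rw [Nat.card_eq_fintype_card] at h
  obtain ⟨a, b, c, hab, hac, hbc⟩ := Fintype.two_lt_card_iff.mp h
  by_cases ha : a = one
  · exact ⟨b, c, fun h => hab (ha.trans h.symm), fun h => hac (ha.trans h.symm), hbc⟩
  · by_cases hb : b = one
    · exact ⟨a, c, ha, fun h => hbc (hb.trans h.symm), hac⟩
    · exact ⟨a, b, ha, hb, hab⟩

theorem three_le_of_odd {H : Subgroup G} (hH : H ≠ ⊥) (hodd : Odd (Nat.card H)) :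
    3 ≤ Nat.card H := by
  have h1 : Nat.card H ≠ 1 := fun h => hH (Subgroup.card_eq_one.mp h)
  have h0 : 0 < Nat.card H := Nat.card_pos
  obtain ⟨k, hk⟩ := hodd
  omega

open Classical in
/-- Uniqueness of the family attached to a cyclic TI subgroup. -/
theorem family_unique (hW : IsSelfNormalizingCyclic W₁ W₂) (hodd : Odd (Nat.card ↥(W₁ ⊔ W₂)))
    (a b : (↥(W₁ ⊔ W₂) →* ℂˣ) → (G → ℂ)) (ha : ∀ ω, SignIrr (a ω)) (hb : ∀ ω, SignIrr (b ω))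
    (hao : ∀ ω ω', classInner (a ω) (a ω') = if ω = ω' then 1 else 0)
    (hbo : ∀ ω ω', classInner (b ω) (b ω') = if ω = ω' then 1 else 0)
    (h1 : a 1 = b 1)
    (hrel : ∀ φ ψ : ↥(W₁ ⊔ W₂) →* ℂˣ, φ ≠ 1 → ψ ≠ 1 →
      (∀ w : ↥(W₁ ⊔ W₂), (w : G) ∈ W₂ → φ w = 1) → (∀ w : ↥(W₁ ⊔ W₂), (w : G) ∈ W₁ → ψ w = 1) →
      a φ + a ψ - a (φ * ψ) = b φ + b ψ - b (φ * ψ)) : a = b := by
  classical
  have hdisj := hW.2.2.1
  have hcomm := hW.2.2.2.1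
  have hc := comm_of_snc hW
  rw [card_sup_eq hdisj hcomm, Nat.odd_mul] at hodd
  have hone : ∀ w : ↥(W₁ ⊔ W₂), (1 : ↥(W₁ ⊔ W₂) →* ℂˣ) w = 1 := fun w => rfl
  have m1 : ∀ f : ↥(W₁ ⊔ W₂) →* ℂˣ, f * 1 = f := fun f => by ext; simp
  have m2 : ∀ f : ↥(W₁ ⊔ W₂) →* ℂˣ, 1 * f = f := fun f => by ext; simp
  obtain ⟨⟨φ₁, hφ₁⟩, ⟨φ₂, hφ₂⟩, e1, e2, e3⟩ := exists_two_nontrivial
    (α := {φ : ↥(W₁ ⊔ W₂) →* ℂˣ // ∀ w : ↥(W₁ ⊔ W₂), (w : G) ∈ W₂ → φ w = 1})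
    ⟨1, fun w _ => hone w⟩
    (by rw [card_hom_trivial_right hdisj hcomm hc]; exact three_le_of_odd hW.1 hodd.1)
  obtain ⟨⟨ψ₁, hψ₁⟩, ⟨ψ₂, hψ₂⟩, f1, f2, f3⟩ := exists_two_nontrivial
    (α := {φ : ↥(W₁ ⊔ W₂) →* ℂˣ // ∀ w : ↥(W₁ ⊔ W₂), (w : G) ∈ W₁ → φ w = 1})
    ⟨1, fun w _ => hone w⟩
    (by rw [card_hom_trivial_left hdisj hcomm hc]; exact three_le_of_odd hW.2.1 hodd.2)
  have e1 : φ₁ ≠ 1 := fun h => e1 (Subtype.ext h)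
  have e2 : φ₂ ≠ 1 := fun h => e2 (Subtype.ext h)
  have e3 : φ₁ ≠ φ₂ := fun h => e3 (Subtype.ext h)
  have f1 : ψ₁ ≠ 1 := fun h => f1 (Subtype.ext h)
  have f2 : ψ₂ ≠ 1 := fun h => f2 (Subtype.ext h)
  have f3 : ψ₁ ≠ ψ₂ := fun h => f3 (Subtype.ext h)
  have o1 : ∀ w : ↥(W₁ ⊔ W₂), (w : G) ∈ W₂ → (1 : ↥(W₁ ⊔ W₂) →* ℂˣ) w = 1 := fun w _ => hone w
  have o2 : ∀ w : ↥(W₁ ⊔ W₂), (w : G) ∈ W₁ → (1 : ↥(W₁ ⊔ W₂) →* ℂˣ) w = 1 := fun w _ => hone w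
  -- comparison of products
  have cmp : ∀ f f' g g' : ↥(W₁ ⊔ W₂) →* ℂˣ, (∀ w : ↥(W₁ ⊔ W₂), (w : G) ∈ W₂ → f w = 1) →
      (∀ w : ↥(W₁ ⊔ W₂), (w : G) ∈ W₂ → f' w = 1) → (∀ w : ↥(W₁ ⊔ W₂), (w : G) ∈ W₁ → g w = 1) →
      (∀ w : ↥(W₁ ⊔ W₂), (w : G) ∈ W₁ → g' w = 1) → (f ≠ f' ∨ g ≠ g') → f * g ≠ f' * g' := by
    intro f f' g g' k1 k2 k3 k4 hne h
    obtain ⟨rfl, rfl⟩ := (mul_eq_mul_iff hcomm f f' g g' k1 k2 k3 k4).mp h
    rcases hne with hne | hne <;> exact hne rfl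
  have bz : ∀ f f' g g' : ↥(W₁ ⊔ W₂) →* ℂˣ, (∀ w : ↥(W₁ ⊔ W₂), (w : G) ∈ W₂ → f w = 1) →
      (∀ w : ↥(W₁ ⊔ W₂), (w : G) ∈ W₂ → f' w = 1) → (∀ w : ↥(W₁ ⊔ W₂), (w : G) ∈ W₁ → g w = 1) →
      (∀ w : ↥(W₁ ⊔ W₂), (w : G) ∈ W₁ → g' w = 1) → (f ≠ f' ∨ g ≠ g') →
      classInner (b (f * g)) (b (f' * g')) = 0 := by
    intro f f' g g' k1 k2 k3 k4 hne
    rw [hbo, if_neg (cmp f f' g g' k1 k2 k3 k4 hne)]
  have az : ∀ f f' g g' : ↥(W₁ ⊔ W₂) →* ℂˣ, (∀ w : ↥(W₁ ⊔ W₂), (w : G) ∈ W₂ → f w = 1) →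
      (∀ w : ↥(W₁ ⊔ W₂), (w : G) ∈ W₂ → f' w = 1) → (∀ w : ↥(W₁ ⊔ W₂), (w : G) ∈ W₁ → g w = 1) →
      (∀ w : ↥(W₁ ⊔ W₂), (w : G) ∈ W₁ → g' w = 1) → (f ≠ f' ∨ g ≠ g') →
      classInner (a (f * g)) (a (f' * g')) = 0 := by
    intro f f' g g' k1 k2 k3 k4 hne
    rw [hao, if_neg (cmp f f' g g' k1 k2 k3 k4 hne)]
  -- the relation paired with `a φ` and `a ψ`
  have relφ : ∀ φ ψ : ↥(W₁ ⊔ W₂) →* ℂˣ, φ ≠ 1 → ψ ≠ 1 →
      (∀ w : ↥(W₁ ⊔ W₂), (w : G) ∈ W₂ → φ w = 1) → (∀ w : ↥(W₁ ⊔ W₂), (w : G) ∈ W₁ → ψ w = 1) →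
      classInner (a φ) (b φ) + classInner (a φ) (b ψ) - classInner (a φ) (b (φ * ψ)) = 1 := by
    intro φ ψ k1 k2 k3 k4
    rw [← classInner_add_right, ← classInner_sub_right, ← hrel φ ψ k1 k2 k3 k4,
      classInner_sub_right, classInner_add_right, hao, if_pos rfl]
    have z1 := az φ 1 1 ψ k3 o1 o2 k4 (Or.inl k1)
    have z2 := az φ φ 1 ψ k3 k3 o2 k4 (Or.inr k2.symm)
    rw [m1, m2] at z1
    rw [m1] at z2
    rw [z1, z2]; ring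
  have relψ : ∀ φ ψ : ↥(W₁ ⊔ W₂) →* ℂˣ, φ ≠ 1 → ψ ≠ 1 →
      (∀ w : ↥(W₁ ⊔ W₂), (w : G) ∈ W₂ → φ w = 1) → (∀ w : ↥(W₁ ⊔ W₂), (w : G) ∈ W₁ → ψ w = 1) →
      classInner (a ψ) (b ψ) + classInner (a ψ) (b φ) - classInner (a ψ) (b (φ * ψ)) = 1 := by
    intro φ ψ k1 k2 k3 k4
    have : classInner (a ψ) (b ψ) + classInner (a ψ) (b φ) - classInner (a ψ) (b (φ * ψ)) =
        classInner (a ψ) (b φ + b ψ - b (φ * ψ)) := by
      rw [classInner_sub_right, classInner_add_right]; ring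
    rw [this, ← hrel φ ψ k1 k2 k3 k4,
      classInner_sub_right, classInner_add_right, hao ψ ψ, if_pos rfl]
    have z1 := az 1 φ ψ 1 o1 k3 k4 o2 (Or.inl k1.symm)
    have z2 := az 1 φ ψ ψ o1 k3 k4 k4 (Or.inl k1.symm)
    rw [m1, m2] at z1
    rw [m2] at z2
    rw [z1, z2]; ring
  have keyφ : ∀ φ : ↥(W₁ ⊔ W₂) →* ℂˣ, φ ≠ 1 →
      (∀ w : ↥(W₁ ⊔ W₂), (w : G) ∈ W₂ → φ w = 1) → a φ = b φ := by
    intro φ k1 k3
    have y1 := bz φ 1 1 ψ₁ k3 o1 o2 hψ₁ (Or.inl k1)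
    have y2 := bz φ φ 1 ψ₁ k3 k3 o2 hψ₁ (Or.inr f1.symm)
    have y3 := bz 1 1 ψ₁ ψ₂ o1 o1 hψ₁ hψ₂ (Or.inr f3)
    have y4 := bz 1 φ ψ₁ ψ₂ o1 k3 hψ₁ hψ₂ (Or.inr f3)
    have y5 := bz φ 1 ψ₁ ψ₂ k3 o1 hψ₁ hψ₂ (Or.inr f3)
    have y6 := bz φ φ ψ₁ ψ₂ k3 k3 hψ₁ hψ₂ (Or.inr f3)
    simp only [m1, m2] at y1 y2 y3 y4 y5 y6
    exact eq_of_three (ha φ) (hb φ) (hb ψ₁) (hb (φ * ψ₁)) (by rw [hbo, if_pos rfl]) y1 y2 y3 y4 y5 y6
      (relφ φ ψ₁ k1 f1 k3 hψ₁) (relφ φ ψ₂ k1 f2 k3 hψ₂)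
  have keyψ : ∀ ψ : ↥(W₁ ⊔ W₂) →* ℂˣ, ψ ≠ 1 →
      (∀ w : ↥(W₁ ⊔ W₂), (w : G) ∈ W₁ → ψ w = 1) → a ψ = b ψ := by
    intro ψ k2 k4
    have y1 := bz 1 φ₁ ψ 1 o1 hφ₁ k4 o2 (Or.inr k2)
    have y2 := bz 1 φ₁ ψ ψ o1 hφ₁ k4 k4 (Or.inl e1.symm)
    have y3 := bz φ₁ φ₂ 1 1 hφ₁ hφ₂ o2 o2 (Or.inl e3)
    have y4 := bz φ₁ φ₂ 1 ψ hφ₁ hφ₂ o2 k4 (Or.inl e3)
    have y5 := bz φ₁ φ₂ ψ 1 hφ₁ hφ₂ k4 o2 (Or.inl e3)
    have y6 := bz φ₁ φ₂ ψ ψ hφ₁ hφ₂ k4 k4 (Or.inl e3)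
    simp only [m1, m2] at y1 y2 y3 y4 y5 y6
    exact eq_of_three (ha ψ) (hb ψ) (hb φ₁) (hb (φ₁ * ψ)) (by rw [hbo, if_pos rfl]) y1 y2 y3 y4 y5 y6
      (relψ φ₁ ψ e1 k2 hφ₁ k4) (relψ φ₂ ψ e2 k2 hφ₂ k4)
  funext ω
  obtain ⟨⟨⟨φ, hφ⟩, ⟨ψ, hψ⟩⟩, rfl⟩ := (hom_mul_bijective hdisj hcomm hc).2 ω
  simp only
  by_cases k1 : φ = 1
  · subst k1
    rw [m2]
    by_cases k2 : ψ = 1
    · subst k2; exact h1
    · exact keyψ ψ k2 hψ
  · by_cases k2 : ψ = 1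
    · subst k2
      rw [m1]; exact keyφ φ k1 hφ
    · have := hrel φ ψ k1 k2 hφ hψ
      rw [keyφ φ k1 hφ, keyψ ψ k2 hψ] at this
      exact (sub_right_injective this)

end Unique

section Galois

variable {G : Type*} [Group G] [Fintype G] {W₁ W₂ : Subgroup G}

omit [Fintype G] in
theorem extendByZero_pow [Finite G] (H : Subgroup G) (θ : H → ℂ) {m : ℕ} (hm : m.Coprime (Nat.card G))
    (y : G) : extendByZero H θ (y ^ m) = extendByZero H (fun w => θ (w ^ m)) y := by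
  by_cases hy : y ∈ H
  · rw [Cfsg.Agent.Lib.Helper2.extendByZero_of_mem H _ hy,
      Cfsg.Agent.Lib.Helper2.extendByZero_of_mem H _ (H.pow_mem hy m)]
    rfl
  · have : y ^ m ∉ H := by
      intro h
      obtain ⟨k, hk⟩ := exists_pow_eq_self_of_coprime (x := y) (n := m)
        (hm.coprime_dvd_right (orderOf_dvd_natCard y))
      exact hy (hk ▸ H.pow_mem h k)
    rw [Cfsg.Agent.Lib.Helper2.extendByZero_of_not_mem H _ hy,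
      Cfsg.Agent.Lib.Helper2.extendByZero_of_not_mem H _ this]

theorem indFun_pow (H : Subgroup G) (θ : H → ℂ) {m : ℕ} (hm : m.Coprime (Nat.card G)) (g : G) :
    indFun H θ (g ^ m) = indFun H (fun w => θ (w ^ m)) g := by
  rw [Cfsg.Agent.Lib.Helper2.indFun_apply, Cfsg.Agent.Lib.Helper2.indFun_apply]
  congr 1
  refine Finset.sum_congr rfl fun x _ => ?_
  rw [← extendByZero_pow H θ hm]
  congr 1
  have := conj_pow (a := x⁻¹) (b := g) (i := m)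
  rw [inv_inv] at this
  exact this.symm

theorem classInner_pow {m : ℕ} (hm : m.Coprime (Nat.card G)) (u v : G → ℂ) :
    classInner (fun g => u (g ^ m)) (fun g => v (g ^ m)) = classInner u v := by
  unfold classInner
  congr 1
  exact Equiv.sum_comp (powCoprime hm.symm) (fun h => u h * (starRingEnd ℂ) (v h))

theorem cyclicTI_galois (hW : IsSelfNormalizingCyclic W₁ W₂) (hodd : Odd (Nat.card ↥(W₁ ⊔ W₂)))
    {χ : (↥(W₁ ⊔ W₂) →* ℂˣ) → (G → ℂ)} (hχ : IsCyclicTIFamily W₁ W₂ χ) {m : ℕ}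
    (hm : m.Coprime (Nat.card G)) (ω : ↥(W₁ ⊔ W₂) →* ℂˣ) (g : G) :
    χ ω (g ^ m) = χ (ω ^ m) g := by
  classical
  have hc := comm_of_snc hW
  have hcard : (Nat.card (↥(W₁ ⊔ W₂) →* ℂˣ)).Coprime m := by
    rw [card_hom hc]
    exact (hm.coprime_dvd_right (Subgroup.card_subgroup_dvd_card _)).symm
  have hinj : ∀ ω ω' : ↥(W₁ ⊔ W₂) →* ℂˣ, ω ^ m = ω' ^ m → ω = ω' :=
    fun ω ω' h => (powCoprime hcard).injective h
  have hop : (1 : ↥(W₁ ⊔ W₂) →* ℂˣ) ^ m = 1 := by ext w; simp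
  have key := family_unique hW hodd (fun ω g => χ ω (g ^ m)) (fun ω => χ (ω ^ m)) ?_ ?_ ?_ ?_ ?_ ?_
  · exact congrFun (congrFun key ω) g
  · intro ω
    rcases hχ.irr_or_neg ω with h | h
    · exact Or.inl (isIrrCharacter_pow_coprime h hm)
    · exact Or.inr (isIrrCharacter_pow_coprime h hm)
  · intro ω
    exact hχ.irr_or_neg _
  · intro ω ω'
    rw [classInner_pow hm, hχ.orthonormal]
    by_cases h : ω = ω' <;> simp [h]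
  · intro ω ω'
    rw [hχ.orthonormal]
    by_cases h : ω = ω'
    · subst h; simp
    · rw [if_neg h, if_neg (fun h' => h (hinj _ _ h'))]
  · simp only [hop, hχ.map_one]
  · intro φ ψ k1 k2 k3 k4
    have e1 : φ ^ m ≠ 1 := fun h => k1 (hinj _ _ (by rw [h, hop]))
    have e2 : ψ ^ m ≠ 1 := fun h => k2 (hinj _ _ (by rw [h, hop]))
    have e3 : ∀ w : ↥(W₁ ⊔ W₂), (w : G) ∈ W₂ → (φ ^ m) w = 1 := fun w hw => by
      rw [MonoidHom.pow_apply, k3 w hw, one_pow]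
    have e4 : ∀ w : ↥(W₁ ⊔ W₂), (w : G) ∈ W₁ → (ψ ^ m) w = 1 := fun w hw => by
      rw [MonoidHom.pow_apply, k4 w hw, one_pow]
    have r1 := hχ.induced_eq φ ψ k1 k2 k3 k4
    have r2 := hχ.induced_eq (φ ^ m) (ψ ^ m) e1 e2 e3 e4
    have e5 : (φ * ψ) ^ m = φ ^ m * ψ ^ m := by
      ext w; simp [mul_pow]
    funext g
    have s1 := congrFun r1 (g ^ m)
    have s2 := congrFun r2 g
    rw [indFun_pow _ _ hm] at s1
    have e6 : (fun w : ↥(W₁ ⊔ W₂) => 1 - ((φ (w ^ m) : ℂˣ) : ℂ) - ((ψ (w ^ m) : ℂˣ) : ℂ)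
        + ((φ (w ^ m) : ℂˣ) : ℂ) * ((ψ (w ^ m) : ℂˣ) : ℂ)) =
        (fun w : ↥(W₁ ⊔ W₂) => 1 - (((φ ^ m) w : ℂˣ) : ℂ) - (((ψ ^ m) w : ℂˣ) : ℂ)
        + (((φ ^ m) w : ℂˣ) : ℂ) * (((ψ ^ m) w : ℂˣ) : ℂ)) := by
      funext w
      simp [MonoidHom.pow_apply, map_pow]
    rw [e6, s2] at s1
    simp only [Pi.add_apply, Pi.sub_apply, e5]
    linear_combination s1

end Galois

end Cfsg.Agent.Lib.Helper11
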