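import Mathlib

set_option autoImplicit false

namespace Cfsg.Agent.Lib.Helper11

open scoped Pointwise

/-- If `K` normalizes `N`, then `(n l)^j ∈ N l^j`. -/
theorem exists_mul_pow_eq {G : Type*} [Group G] (N K : Subgroup G)
    (hK : K ≤ Subgroup.normalizer (N : Set G)) {n l : G} (hn : n ∈ N) (hl : l ∈ K) (j : ℕ) :
    ∃ n' ∈ N, (n * l) ^ j = n' * l ^ j := by
  induction j with
  | zero => exact ⟨1, N.one_mem, by simp⟩
  | succ j ih =>
    obtain ⟨n', hn', h⟩ := ih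
    have hlj : l ^ j ∈ Subgroup.normalizer (N : Set G) := hK (K.pow_mem hl j)
    refine ⟨n' * (l ^ j * n * (l ^ j)⁻¹), N.mul_mem hn' ((Subgroup.mem_normalizer_iff.mp hlj n).mp hn), ?_⟩
    rw [pow_succ, h, pow_succ]
    group

/-- In `N ⋊ K` an element whose order is coprime to `|K|` lies in `N`. -/
theorem mem_left_of_mem_sup_of_coprime {G : Type*} [Group G] (N K : Subgroup G) [Finite K]
    (hK : K ≤ Subgroup.normalizer (N : Set G)) (hdisj : N ⊓ K = ⊥) {w : G} (hw : w ∈ N ⊔ K) (m : ℕ)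
    (hm : w ^ m = 1) (hcop : m.Coprime (Nat.card K)) : w ∈ N := by
  have hw' : w ∈ ((N ⊔ K : Subgroup G) : Set G) := hw
  rw [Subgroup.coe_mul_of_right_le_normalizer_left N K hK] at hw'
  obtain ⟨n, hn, l, hl, rfl⟩ := Set.mem_mul.mp hw'
  obtain ⟨n', hn', h⟩ := exists_mul_pow_eq N K hK hn hl m
  rw [hm] at h
  have hlm : l ^ m = n'⁻¹ := by
    exact eq_inv_of_mul_eq_one_right h.symm
  have h1 : l ^ m ∈ N ⊓ K := ⟨hlm ▸ N.inv_mem hn', K.pow_mem hl m⟩
  rw [hdisj, Subgroup.mem_bot] at h1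
  have h2 : orderOf l ∣ m := orderOf_dvd_of_pow_eq_one h1
  have h3 : orderOf l ∣ Nat.card K := by
    have := orderOf_dvd_natCard (⟨l, hl⟩ : K)
    rwa [Subgroup.orderOf_mk] at this
  have h4 : orderOf l = 1 := Nat.eq_one_of_dvd_coprimes hcop h2 h3
  rw [orderOf_eq_one_iff] at h4
  rw [h4, mul_one]
  exact hn

end Cfsg.Agent.Lib.Helper11
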