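import Mathlib
import Cfsg.Agent.S1498
import Cfsg.Agent.S1499
import Cfsg.Agent.Lib.Helper7.CharBasic
import Cfsg.Agent.Lib.Helper2.CharInd

set_option autoImplicit false

namespace Cfsg.Agent.Lib.Helper11

open Cfsg Cfsg.Agent.Lib.Helper7

section Group

variable {G : Type*} [Group G] [Finite G] {A : Set G} {L : Subgroup G} {H : G → Subgroup G}

theorem dade_conj_eq (hD : DadeHypothesis A L H) {a b u v g : G} (ha : a ∈ A) (hb : b ∈ A)
    (hu : u ∈ H a) (hv : v ∈ H b) (hg : g * (a * u) * g⁻¹ = b * v) : g * a * g⁻¹ = b := by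
  obtain ⟨m, hma, hmb, hma', hmb'⟩ := Cfsg.Agent.S1499.exists_m hD a b ha hb
  rw [← Cfsg.Agent.S1499.pow_trick hD a ha u hu m hma hma', ← conj_pow, hg,
    Cfsg.Agent.S1499.pow_trick hD b hb v hv m hmb hmb']

theorem dade_unique (hD : DadeHypothesis A L H) {a b u v : G} (ha : a ∈ A) (hb : b ∈ A)
    (hu : u ∈ H a) (hv : v ∈ H b) (h : a * u = b * v) : a = b ∧ u = v := by
  have h1 : a = b := by
    have := dade_conj_eq hD (g := 1) ha hb hu hv (by simpa using h)
    simpa using this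
  subst h1
  exact ⟨rfl, mul_left_cancel h⟩

theorem dade_card_H (hD : DadeHypothesis A L H) {a l : G} (ha : a ∈ A) (hl : l ∈ L) :
    Nat.card (H (l * a * l⁻¹)) = Nat.card (H a) := by
  rw [Cfsg.Agent.S1498.result A L H hD a ha l hl]
  exact Subgroup.card_map_of_injective (MulAut.conj l).injective

theorem dade_conj_mem_H (hD : DadeHypothesis A L H) {a u x : G} (ha : a ∈ A) (hu : u ∈ H a)
    (hx : x * a * x⁻¹ ∈ A) : x * u * x⁻¹ ∈ H (x * a * x⁻¹) := by
  obtain ⟨l, hl, hle⟩ := hD.fusion a ha x hx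
  have hc : l⁻¹ * x ∈ Subgroup.centralizer ({a} : Set G) := by
    rw [Subgroup.mem_centralizer_singleton_iff]
    have h1 : x * a = l * a * l⁻¹ * x := by rw [hle]; group
    calc l⁻¹ * x * a = l⁻¹ * (x * a) := by group
      _ = l⁻¹ * (l * a * l⁻¹ * x) := by rw [h1]
      _ = a * (l⁻¹ * x) := by group
  have h2 := hD.conj_mem_H a ha _ hc u hu
  rw [← hle, Cfsg.Agent.S1498.result A L H hD a ha l hl]
  refine ⟨_, h2, ?_⟩
  simp only [MulEquiv.coe_toMonoidHom, MulAut.conj_apply]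
  group

theorem dade_card_H' (hD : DadeHypothesis A L H) {a x : G} (ha : a ∈ A)
    (hx : x * a * x⁻¹ ∈ A) : Nat.card (H (x * a * x⁻¹)) = Nat.card (H a) := by
  obtain ⟨l, hl, hle⟩ := hD.fusion a ha x hx
  rw [← hle]
  exact dade_card_H hD ha hl

omit [Finite G] in
/-- The number of `x` with `x a x⁻¹ ∈ A` is `|L| |H a|`. -/
theorem dade_card_conj (hD : DadeHypothesis A L H) {a : G} (ha : a ∈ A) :
    Nat.card {x : G // x * a * x⁻¹ ∈ A} = Nat.card L * Nat.card (H a) := by
  rw [← Nat.card_prod]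
  symm
  have hHc : ∀ h ∈ H a, h * a * h⁻¹ = a := by
    intro h hh
    have := hD.le_centralizer a ha hh
    rw [Subgroup.mem_centralizer_singleton_iff] at this
    rw [this]; group
  refine Nat.card_congr (Equiv.ofBijective
    (fun p : L × H a => (⟨(p.1 : G) * (p.2 : G), by
      have : (p.1 : G) * (p.2 : G) * a * ((p.1 : G) * (p.2 : G))⁻¹ =
          (p.1 : G) * ((p.2 : G) * a * (p.2 : G)⁻¹) * (p.1 : G)⁻¹ := by group
      rw [this, hHc _ p.2.2]
      exact hD.conj_mem _ p.1.2 a ha⟩ : {x : G // x * a * x⁻¹ ∈ A})) ⟨?_, ?_⟩)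
  · rintro ⟨⟨l, hl⟩, ⟨h, hh⟩⟩ ⟨⟨l', hl'⟩, ⟨h', hh'⟩⟩ he
    have he' : l * h = l' * h' := congrArg Subtype.val he
    have h1 : l'⁻¹ * l = h' * h⁻¹ := by
      calc l'⁻¹ * l = l'⁻¹ * (l * h) * h⁻¹ := by group
        _ = l'⁻¹ * (l' * h') * h⁻¹ := by rw [he']
        _ = h' * h⁻¹ := by group
    have h2 : h' * h⁻¹ ∈ H a := (H a).mul_mem hh' ((H a).inv_mem hh)
    have h3 : h' * h⁻¹ ∈ H a ⊓ (L ⊓ Subgroup.centralizer ({a} : Set G)) :=
      ⟨h2, h1 ▸ L.mul_mem (L.inv_mem hl') hl, hD.le_centralizer a ha h2⟩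
    rw [hD.inf_eq_bot a ha, Subgroup.mem_bot] at h3
    have h4 : h' = h := mul_inv_eq_one.mp h3
    subst h4
    have h5 : l = l' := mul_right_cancel he'
    subst h5
    rfl
  · rintro ⟨x, hx⟩
    obtain ⟨l, hl, hle⟩ := hD.fusion a ha x hx
    have hc : l⁻¹ * x ∈ Subgroup.centralizer ({a} : Set G) := by
      rw [Subgroup.mem_centralizer_singleton_iff]
      have h1 : x * a = l * a * l⁻¹ * x := by rw [hle]; group
      calc l⁻¹ * x * a = l⁻¹ * (x * a) := by group
        _ = l⁻¹ * (l * a * l⁻¹ * x) := by rw [h1]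
        _ = a * (l⁻¹ * x) := by group
    rw [← hD.sup_eq a ha, sup_comm] at hc
    -- decompose as (element of C_L(a)) * (element of H a)
    have hle' : (L ⊓ Subgroup.centralizer ({a} : Set G)) ≤ Subgroup.normalizer ((H a : Subgroup G) : Set G) := by
      intro c hc
      rw [Subgroup.mem_normalizer_iff]
      intro h
      constructor
      · intro hh
        exact hD.conj_mem_H a ha c hc.2 h hh
      · intro hh
        have := hD.conj_mem_H a ha c⁻¹ (Subgroup.inv_mem _ hc.2) _ hh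
        simpa [mul_assoc] using this
    have hc' : l⁻¹ * x ∈ (((L ⊓ Subgroup.centralizer ({a} : Set G)) ⊔ H a : Subgroup G) : Set G) := hc
    rw [Subgroup.coe_mul_of_left_le_normalizer_right _ _ hle'] at hc'
    obtain ⟨k, hk, h, hh, hkh⟩ := Set.mem_mul.mp hc'
    refine ⟨⟨⟨l * k, L.mul_mem hl hk.1⟩, ⟨h, hh⟩⟩, ?_⟩
    apply Subtype.ext
    show l * k * h = x
    rw [mul_assoc, hkh]; group

end Group

section Sum

variable {G : Type*} [Group G] [Fintype G] {A : Set G} {L : Subgroup G} {H : G → Subgroup G}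

/-- The support of the Dade map. -/
def dadeSupp (A : Set G) (H : G → Subgroup G) : Set G :=
  {g | ∃ a ∈ A, ∃ u ∈ H a, ∃ x : G, x * g * x⁻¹ = a * u}

/-- The weight `1 / (|L| |H a|)`. -/
noncomputable def dadeC (L : Subgroup G) (H : G → Subgroup G) (a : G) : ℂ :=
  ((Nat.card L : ℂ) * (Nat.card (H a) : ℂ))⁻¹

open Classical in
/-- The weight function on `⋃ a H(a)`. -/
noncomputable def dadeW (A : Set G) (L : Subgroup G) (H : G → Subgroup G) (y : G) : ℂ :=
  ∑ a : G, ∑ u : G, if (a ∈ A ∧ u ∈ H a ∧ a * u = y) then dadeC L H a else 0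

theorem dadeW_of_eq (hD : DadeHypothesis A L H) {a u : G} (ha : a ∈ A) (hu : u ∈ H a) :
    dadeW A L H (a * u) = dadeC L H a := by
  classical
  unfold dadeW
  rw [Finset.sum_eq_single a, Finset.sum_eq_single u]
  · rw [if_pos ⟨ha, hu, rfl⟩]
  · intro v _ hv
    rw [if_neg]
    rintro ⟨_, _, he⟩
    exact hv (mul_left_cancel he)
  · intro h; exact absurd (Finset.mem_univ _) h
  · intro b _ hb
    apply Finset.sum_eq_zero
    intro v _
    rw [if_neg]
    rintro ⟨hb', hv', he⟩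
    exact hb (dade_unique hD hb' ha hv' hu he).1
  · intro h; exact absurd (Finset.mem_univ _) h

theorem dadeW_of_not {y : G} (h : ¬ ∃ a ∈ A, ∃ u ∈ H a, a * u = y) : dadeW A L H y = 0 := by
  classical
  unfold dadeW
  apply Finset.sum_eq_zero
  intro a _
  apply Finset.sum_eq_zero
  intro u _
  rw [if_neg]
  rintro ⟨h1, h2, h3⟩
  exact h ⟨a, h1, u, h2, h3⟩

open Classical in
theorem sum_dadeW_conj (hD : DadeHypothesis A L H) (g : G) :
    ∑ x : G, dadeW A L H (x * g * x⁻¹) = if g ∈ dadeSupp A H then 1 else 0 := by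
  split_ifs with hg
  · obtain ⟨a₀, ha₀, u₀, hu₀, x₀, hx₀⟩ := hg
    have h1 : ∑ x : G, dadeW A L H (x * g * x⁻¹) =
        ∑ z : G, dadeW A L H (z * (a₀ * u₀) * z⁻¹) := by
      rw [← Equiv.sum_comp (Equiv.mulRight x₀) (fun x => dadeW A L H (x * g * x⁻¹))]
      refine Finset.sum_congr rfl fun z _ => ?_
      simp only [Equiv.coe_mulRight]
      congr 1
      rw [← hx₀]; group
    rw [h1]
    have h2 : ∀ z : G, dadeW A L H (z * (a₀ * u₀) * z⁻¹) =
        if z * a₀ * z⁻¹ ∈ A then dadeC L H a₀ else 0 := by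
      intro z
      split_ifs with hz
      · have : z * (a₀ * u₀) * z⁻¹ = (z * a₀ * z⁻¹) * (z * u₀ * z⁻¹) := by group
        rw [this, dadeW_of_eq hD hz (dade_conj_mem_H hD ha₀ hu₀ hz)]
        unfold dadeC
        rw [dade_card_H' hD ha₀ hz]
      · apply dadeW_of_not
        rintro ⟨a, ha, u, hu, he⟩
        exact hz ((dade_conj_eq hD ha₀ ha hu₀ hu he.symm) ▸ ha)
    simp only [h2]
    rw [← Finset.sum_filter, Finset.sum_const, ← Fintype.card_subtype, ← Nat.card_eq_fintype_card,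
      dade_card_conj hD ha₀]
    unfold dadeC
    have e1 : (Nat.card L : ℂ) ≠ 0 := by exact_mod_cast Nat.card_pos.ne'
    have e2 : (Nat.card (H a₀) : ℂ) ≠ 0 := by exact_mod_cast Nat.card_pos.ne'
    rw [nsmul_eq_mul]
    push_cast
    field_simp
  · apply Finset.sum_eq_zero
    intro x _
    apply dadeW_of_not
    rintro ⟨a, ha, u, hu, he⟩
    exact hg ⟨a, ha, u, hu, x, he.symm⟩

open Classical in
/-- The integration formula over the support of the Dade map. -/
theorem dade_sum (hD : DadeHypothesis A L H) (F : G → ℂ) (hF : IsClassFunction G F) :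
    ∑ g : G, (if g ∈ dadeSupp A H then F g else 0) =
      (Nat.card G : ℂ) * ∑ a : G, ∑ u : G,
        if (a ∈ A ∧ u ∈ H a) then dadeC L H a * F (a * u) else 0 := by
  have h1 : ∑ y : G, dadeW A L H y * F y =
      ∑ a : G, ∑ u : G, if (a ∈ A ∧ u ∈ H a) then dadeC L H a * F (a * u) else 0 := by
    unfold dadeW
    simp only [Finset.sum_mul]
    rw [Finset.sum_comm]
    refine Finset.sum_congr rfl fun a _ => ?_
    rw [Finset.sum_comm]
    refine Finset.sum_congr rfl fun u _ => ?_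
    rw [Finset.sum_eq_single (a * u)]
    · by_cases h : a ∈ A ∧ u ∈ H a
      · rw [if_pos h, if_pos ⟨h.1, h.2, rfl⟩]
      · rw [if_neg h, if_neg (fun h' => h ⟨h'.1, h'.2.1⟩), zero_mul]
    · intro y _ hy
      rw [if_neg (fun h' => hy h'.2.2.symm), zero_mul]
    · intro h; exact absurd (Finset.mem_univ _) h
  have h2 : ∑ g : G, F g * ∑ x : G, dadeW A L H (x * g * x⁻¹) =
      (Nat.card G : ℂ) * ∑ y, dadeW A L H y * F y := by
    simp only [Finset.mul_sum]
    rw [Finset.sum_comm]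
    have h3 : ∀ x : G, ∑ g : G, F g * dadeW A L H (x * g * x⁻¹) = ∑ y, dadeW A L H y * F y := by
      intro x
      rw [← Equiv.sum_comp (MulAut.conj x).toEquiv (fun y => dadeW A L H y * F y)]
      refine Finset.sum_congr rfl fun g _ => ?_
      have : (MulAut.conj x).toEquiv g = x * g * x⁻¹ := rfl
      rw [this, hF g x]; ring
    rw [Finset.sum_congr rfl fun x _ => h3 x, Finset.sum_const, Finset.card_univ, nsmul_eq_mul,
      Nat.card_eq_fintype_card, Finset.mul_sum]
  rw [← h1, ← h2]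
  refine Finset.sum_congr rfl fun g _ => ?_
  rw [sum_dadeW_conj hD]
  split_ifs <;> simp

end Sum

section Iso

variable {G : Type*} [Group G] [Fintype G] {A : Set G} {L : Subgroup G} {H : G → Subgroup G}

theorem finsum_mem_eq_sum_ite {α M : Type*} [Fintype α] [AddCommMonoid M] (s : Set α)
    [DecidablePred (· ∈ s)] (f : α → M) : ∑ᶠ x ∈ s, f x = ∑ x, if x ∈ s then f x else 0 := by
  rw [finsum_mem_def, finsum_eq_sum_of_fintype]
  refine Finset.sum_congr rfl fun x _ => ?_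
  rw [Set.indicator_apply]

theorem dadeIsometry_apply (hD : DadeHypothesis A L H) {α : L → ℂ} (hα : IsClassFunction L α)
    {g x u : G} (a : L) (ha : (a : G) ∈ A) (hu : u ∈ H a) (hx : x * g * x⁻¹ = a * u) :
    dadeIsometry A L H α g = α a := by
  unfold dadeIsometry
  have h : ∃ a : ↥L, (a : G) ∈ A ∧ ∃ x : G, ∃ u ∈ H (a : G), x * g * x⁻¹ = (a : G) * u :=
    ⟨a, ha, x, u, hu, hx⟩
  rw [dif_pos h]
  obtain ⟨ha', x', u', hu', hx'⟩ := Classical.choose_spec h
  set a' := Classical.choose h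
  have h1 : (x * x'⁻¹) * ((a' : G) * u') * (x * x'⁻¹)⁻¹ = a * u := by rw [← hx', ← hx]; group
  have h2 := dade_conj_eq hD ha' ha hu' hu h1
  obtain ⟨l, hl, hle⟩ := hD.fusion a' ha' _ (h2 ▸ ha)
  have h3 : a = ⟨l, hl⟩ * a' * ⟨l, hl⟩⁻¹ := Subtype.ext (by
    simp only [Subgroup.coe_mul, Subgroup.coe_inv]
    rw [hle, h2])
  rw [h3, hα]

omit [Fintype G] in
theorem dadeIsometry_of_not_mem {α : L → ℂ} {g : G} (hg : g ∉ dadeSupp A H) :
    dadeIsometry A L H α g = 0 := by
  unfold dadeIsometry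
  rw [dif_neg]
  rintro ⟨a, ha, x, u, hu, hx⟩
  exact hg ⟨a, ha, u, hu, x, hx⟩

theorem dadeIsometry_isClassFunction (hD : DadeHypothesis A L H) {α : L → ℂ}
    (hα : IsClassFunction L α) : IsClassFunction G (dadeIsometry A L H α) := by
  intro g y
  by_cases hg : g ∈ dadeSupp A H
  · obtain ⟨a, ha, u, hu, x, hx⟩ := hg
    rw [dadeIsometry_apply hD hα ⟨a, hD.subset ha⟩ ha hu hx,
      dadeIsometry_apply hD hα ⟨a, hD.subset ha⟩ ha hu (x := x * y⁻¹) (by
        show x * y⁻¹ * (y * g * y⁻¹) * (x * y⁻¹)⁻¹ = a * u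
        rw [← hx]; group)]
  · have : y * g * y⁻¹ ∉ dadeSupp A H := by
      rintro ⟨a, ha, u, hu, x, hx⟩
      exact hg ⟨a, ha, u, hu, x * y, by rw [← hx]; group⟩
    rw [dadeIsometry_of_not_mem hg, dadeIsometry_of_not_mem this]

theorem dade_inner (hD : DadeHypothesis A L H) [Fintype L] (α : L → ℂ) (hα : IsClassFunction L α)
    (hαA : ∀ x : L, (x : G) ∉ A → α x = 0) (χ : G → ℂ) (ψ : L → ℂ) (hχ : IsClassFunction G χ)
    (hψ : ∀ a : L, (a : G) ∈ A →
      ψ a = (Nat.card (H a) : ℂ)⁻¹ * ∑ᶠ u ∈ (H a : Set G), χ (a * u)) :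
    classInner (dadeIsometry A L H α) χ = classInner α ψ := by
  classical
  have hG : (Nat.card G : ℂ) ≠ 0 := by exact_mod_cast Nat.card_pos.ne'
  have hcl := dadeIsometry_isClassFunction hD hα
  have hF : IsClassFunction G (fun g => dadeIsometry A L H α g * (starRingEnd ℂ) (χ g)) := by
    intro g y
    simp only [hcl g y, hχ g y]
  have h1 := dade_sum hD _ hF
  have h2 : ∑ g : G, (if g ∈ dadeSupp A H then
      dadeIsometry A L H α g * (starRingEnd ℂ) (χ g) else 0) =
      ∑ g : G, dadeIsometry A L H α g * (starRingEnd ℂ) (χ g) := by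
    refine Finset.sum_congr rfl fun g _ => ?_
    split_ifs with hg
    · rfl
    · rw [dadeIsometry_of_not_mem hg, zero_mul]
  rw [h2] at h1
  unfold classInner
  rw [h1, ← mul_assoc, inv_mul_cancel₀ hG, one_mul,
    ← Cfsg.Agent.Lib.Helper2.sum_extendByZero L (fun a => α a * (starRingEnd ℂ) (ψ a)),
    Finset.mul_sum]
  refine Finset.sum_congr rfl fun a _ => ?_
  by_cases ha : a ∈ A
  · have haL : a ∈ L := hD.subset ha
    rw [Cfsg.Agent.Lib.Helper2.extendByZero_of_mem L _ haL, hψ ⟨a, haL⟩ ha,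
      finsum_mem_eq_sum_ite]
    simp only [map_mul, map_inv₀, map_natCast, map_sum, Finset.mul_sum]
    refine Finset.sum_congr rfl fun u _ => ?_
    by_cases hu : u ∈ H a
    · have hu' : u ∈ (H a : Set G) := hu
      rw [if_pos ⟨ha, hu⟩, if_pos hu',
        dadeIsometry_apply hD hα (x := 1) ⟨a, haL⟩ ha hu (by simp)]
      unfold dadeC
      rw [mul_inv]
      ring
    · have hu' : u ∉ (H a : Set G) := hu
      rw [if_neg (fun h => hu h.2), if_neg hu']
      simp
  · rw [Finset.sum_eq_zero (fun u _ => if_neg (fun h => ha h.1))]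
    by_cases haL : a ∈ L
    · rw [Cfsg.Agent.Lib.Helper2.extendByZero_of_mem L _ haL, hαA ⟨a, haL⟩ ha]
      simp
    · rw [Cfsg.Agent.Lib.Helper2.extendByZero_of_not_mem L _ haL]
      simp

open Classical in
theorem dade_sum_real (hD : DadeHypothesis A L H) (F : G → ℝ)
    (hF : ∀ g h : G, F (h * g * h⁻¹) = F g) :
    ∑ g : G, (if g ∈ dadeSupp A H then F g else 0) =
      (Nat.card G : ℝ) * ∑ a : G, ∑ u : G,
        if (a ∈ A ∧ u ∈ H a) then ((Nat.card L : ℝ) * (Nat.card (H a) : ℝ))⁻¹ * F (a * u)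
        else 0 := by
  have h := dade_sum hD (fun g => (F g : ℂ)) (fun g y => by simp only [hF g y])
  unfold dadeC at h
  apply Complex.ofReal_injective
  simp only [Complex.ofReal_sum, Complex.ofReal_mul, apply_ite Complex.ofReal, Complex.ofReal_zero,
    Complex.ofReal_inv, Complex.ofReal_natCast]
  exact h

end Iso

end Cfsg.Agent.Lib.Helper11
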