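import Mathlib
import Cfsg.Prelude.Def_Sporadic_a
import Cfsg.Agent.Lib.Helper3.Golay

set_option autoImplicit false

namespace Cfsg.Agent.Lib.Helper11.G23

open Cfsg Cfsg.Agent.Lib.Helper3

/-- the punctured code. -/
def PN : Set (ZMod 23 → ZMod 2) := {u : ZMod 23 → ZMod 2 | ∃ w ∈ golayCode, ∀ x : ZMod 23, u x = w (some x)}

/-- extension by zero. -/
def ext0 (u : ZMod 23 → ZMod 2) : GolayPt → ZMod 2
  | none => 0
  | some x => u x

/-- mask of a word of length 23. -/
def V (u : ZMod 23 → ZMod 2) : ℕ := W (ext0 u)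

theorem ext0_add (u v : ZMod 23 → ZMod 2) : ext0 (u + v) = ext0 u + ext0 v := by
  funext p; cases p <;> simp [ext0]

theorem ext0_injective : Function.Injective ext0 := by
  intro u v h
  funext x
  exact congrFun h (some x)

theorem V_injective : Function.Injective V := fun _ _ h => ext0_injective (W_injective h)

theorem V_add (u v : ZMod 23 → ZMod 2) : V (u + v) = V u ^^^ V v := by
  rw [V, ext0_add, W_add]; rfl

theorem V_zero : V 0 = 0 := by
  have : ext0 0 = 0 := by funext p; cases p <;> rfl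
  rw [V, this, W_zero]

theorem sub_eq_add2 (u v : ZMod 23 → ZMod 2) : u - v = u + v := by
  funext x
  simp only [Pi.sub_apply, Pi.add_apply]
  generalize u x = a
  generalize v x = b
  revert a b; decide

theorem dist_eq_norm (u c : ZMod 23 → ZMod 2) : hammingDist u c = hammingNorm (u + c) := by
  rw [hammingDist_eq_hammingNorm]
  congr 1
  funext x
  simp only [Pi.neg_apply, Pi.add_apply]
  generalize u x = a
  generalize c x = b
  revert a b; decide

theorem norm_eq_pc (u : ZMod 23 → ZMod 2) : hammingNorm u = pc (V u) := by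
  rw [V, ← mask_support₂, ← card_eq_pc, hammingNorm]
  have : support₂ (ext0 u) = (Finset.univ.filter (fun x => u x ≠ 0)).map ⟨some, Option.some_injective _⟩ := by
    ext p
    cases p with
    | none =>
      simp only [support₂, Finset.mem_filter, Finset.mem_univ, true_and, Finset.mem_map,
        Function.Embedding.coeFn_mk, reduceCtorEq, and_false, exists_false, iff_false]
      exact fun h => h rfl
    | some x =>
      simp only [support₂, Finset.mem_filter, Finset.mem_univ, true_and, Finset.mem_map,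
        Function.Embedding.coeFn_mk, Option.some.injEq, exists_eq_right]
      exact Iff.rfl
  rw [this, Finset.card_map]

theorem pt_of_lt : ∀ i : ℕ, i < 23 → pt i = some (i : ZMod 23) := by decide

theorem V_res (w : GolayPt → ZMod 2) : V (fun x => w (some x)) = W w % 2 ^ 23 := by
  apply Nat.eq_of_testBit_eq
  intro i
  rw [Nat.testBit_mod_two_pow, V, testBit_W, testBit_W]
  by_cases h : i < 23
  · have h24 : i < 24 := by omega
    simp [h, h24, pt_of_lt i h, ext0]
  · by_cases h24 : i < 24
    · have : i = 23 := by omega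
      subst this
      simp [pt, ext0]
    · simp [h, h24]

/-- the punctured encoder. -/
def pun (c : ℕ) : ℕ := enc c % 8388608

theorem pun_xor (c d : ℕ) : pun (c ^^^ d) = pun c ^^^ pun d := by
  rw [pun, enc_xor, pun, pun]
  exact Nat.xor_mod_two_pow (n := 23)

theorem pun_mod {c : ℕ} (hc : c < 4096) : pun c % 4096 = c := by
  rw [pun, Nat.mod_mod_of_dvd _ (by norm_num), enc_mod c hc]

theorem pun_lt (c : ℕ) : pun c < 8388608 := Nat.mod_lt _ (by norm_num)

theorem mem_PN_iff (u : ZMod 23 → ZMod 2) : u ∈ PN ↔ ∃ c < 4096, V u = pun c := by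
  constructor
  · rintro ⟨w, hw, hu⟩
    have hu' : u = fun x => w (some x) := funext hu
    obtain ⟨c, hc, hwc⟩ := (inC_iff _).1 ((mem_golayCode_iff w).1 hw)
    exact ⟨c, hc, by rw [hu', V_res, hwc]; rfl⟩
  · rintro ⟨c, hc, hu⟩
    obtain ⟨v, hv, hvc⟩ := inX_enc c
    refine ⟨v, hv, fun x => ?_⟩
    have : u = fun x => v (some x) := V_injective (by rw [hu, V_res, hvc]; rfl)
    rw [this]

theorem V_lt (u : ZMod 23 → ZMod 2) : V u < 8388608 := by
  have h := V_res (ext0 u)
  have h2 : (fun x => ext0 u (some x)) = u := rfl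
  rw [h2] at h
  rw [h]
  exact Nat.mod_lt _ (by norm_num)

theorem PN_add {u v : ZMod 23 → ZMod 2} (hu : u ∈ PN) (hv : v ∈ PN) : u + v ∈ PN := by
  rw [mem_PN_iff] at *
  obtain ⟨c, hc, h1⟩ := hu
  obtain ⟨d, hd, h2⟩ := hv
  exact ⟨c ^^^ d, Nat.xor_lt_two_pow (n := 12) hc hd, by rw [V_add, h1, h2, pun_xor]⟩

theorem ncard_pun (Q : ℕ → Bool) :
    {u : ZMod 23 → ZMod 2 | u ∈ PN ∧ Q (V u) = true}.ncard = countRange (fun c => Q (pun c)) 12 0 := by
  rw [← Set.ncard_image_of_injective _ V_injective, countRange_zero]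
  have h : V '' {u : ZMod 23 → ZMod 2 | u ∈ PN ∧ Q (V u) = true} =
      ↑(((Finset.range (2 ^ 12)).filter (fun c => Q (pun c) = true)).image pun) := by
    ext x
    simp only [Set.mem_image, Set.mem_ofPred_eq, Finset.coe_image, Finset.coe_filter, Finset.mem_range]
    constructor
    · rintro ⟨u, ⟨hu, hQ⟩, rfl⟩
      obtain ⟨c, hc, h1⟩ := (mem_PN_iff u).1 hu
      exact ⟨c, ⟨by simpa using hc, by rw [← h1]; exact hQ⟩, h1.symm⟩
    · rintro ⟨c, ⟨hc, hQ⟩, rfl⟩
      have hc' : c < 4096 := by simpa using hc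
      obtain ⟨v, hv, hvc⟩ := inX_enc c
      have h1 : V (fun x => v (some x)) = pun c := by rw [V_res, hvc]; rfl
      exact ⟨fun x => v (some x), ⟨⟨v, hv, fun _ => rfl⟩, by rw [h1]; exact hQ⟩, h1⟩
  rw [h, Set.ncard_coe_finset, Finset.card_image_of_injOn]
  intro c hc d hd hcd
  have hc' : c < 4096 := by have := (Finset.mem_filter.mp hc).1; simpa using this
  have hd' : d < 4096 := by have := (Finset.mem_filter.mp hd).1; simpa using this
  rw [← pun_mod hc', ← pun_mod hd']
  exact congrArg (· % 4096) hcd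

theorem min_aux : allRange (fun c => c == 0 || decide (7 ≤ pc (pun c))) 12 0 = true := by
  decide +kernel

theorem min_wt {u : ZMod 23 → ZMod 2} (hu : u ∈ PN) (h0 : u ≠ 0) : 7 ≤ hammingNorm u := by
  obtain ⟨c, hc, h1⟩ := (mem_PN_iff u).1 hu
  have h := forall_lt_of_allRange _ 12 min_aux c hc
  rw [norm_eq_pc, h1]
  simp only [Bool.or_eq_true, beq_iff_eq, decide_eq_true_eq] at h
  rcases h with rfl | h
  · exfalso
    apply h0
    apply V_injective
    rw [h1, V_zero]
    decide +kernel
  · exact h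

end Cfsg.Agent.Lib.Helper11.G23
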