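import Mathlib
import Cfsg.Agent.S1610

set_option autoImplicit false

namespace Cfsg.Agent.Lib.Helper11.Hex

open Cfsg Cfsg.Agent.S1610

/-- coefficient triples. -/
abbrev K3 : Type := Fin 4 × Fin 4 × Fin 4

/-- division table. -/
def div4 : Fin 4 → Fin 4 → Fin 4 := ![![0,0,0,0],![0,1,3,2],![0,2,1,3],![0,3,2,1]]

/-- the generators. -/
def BB : Fin 3 → Fin 6 → Fin 4 := ![B1, B2, B3]

/-- decoding from the first three coordinates. -/
def dec (y : Fin 6 → Fin 4) : K3 :=
  (add4 (mul4 (y 0) 2) (mul4 (y 1) 3),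
   add4 (add4 (mul4 (y 0) 3) (mul4 (y 1) 3)) (y 2),
   add4 (y 1) (y 2))

theorem dec_word : ∀ u : K3, dec (word u) = u := by decide +kernel

/-- membership in the model code. -/
def isCode (y : Fin 6 → Fin 4) : Prop := word (dec y) = y

instance (y : Fin 6 → Fin 4) : Decidable (isCode y) := by unfold isCode; infer_instance

theorem isCode_iff (y : Fin 6 → Fin 4) : isCode y ↔ ∃ u, word u = y := by
  constructor
  · intro h; exact ⟨_, h⟩
  · rintro ⟨u, rfl⟩
    unfold isCode
    rw [dec_word]

/-- the multipliers determined by the image of the first generator. -/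
def eOf (s : Fin 6 → Fin 6) (u : K3) (i : Fin 6) : Fin 4 := div4 (word u i) (B1 (s i))

/-- preservation of the model code. -/
def presK (s : Fin 6 → Fin 6) (e : Fin 6 → Fin 4) : Prop :=
  ∀ j : Fin 3, isCode (fun i => mul4 (e i) (BB j (s i)))

instance (s : Fin 6 → Fin 6) (e : Fin 6 → Fin 4) : Decidable (presK s e) := by
  unfold presK; infer_instance

/-- the set of admissible images of the first generator. -/
def good (σ : Equiv.Perm (Fin 6)) : Finset K3 :=
  Finset.univ.filter (fun u : K3 => wtK u = 6 ∧ presK σ.symm (eOf σ.symm u))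

end Cfsg.Agent.Lib.Helper11.Hex
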