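import Mathlib
import Cfsg.Agent.S1610
import Cfsg.Agent.Lib.Helper11.HexMono

set_option autoImplicit false

namespace Cfsg.Agent.Lib.Helper11.Hex

open Cfsg Cfsg.Agent.S1610

set_option maxRecDepth 100000 in
set_option maxHeartbeats 0 in
theorem big2 : ∀ σ : Equiv.Perm (Fin 6), σ 0 = 2 →
    (good σ).card = if Equiv.Perm.sign σ = 1 then 3 else 0 := by decide +kernel

end Cfsg.Agent.Lib.Helper11.Hex
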