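import Mathlib
import Cfsg.Agent.Lib.Helper11.MatPack
import Cfsg.Agent.Lib.Helper11.LeechGen

set_option autoImplicit false
set_option exponentiation.threshold 2000

namespace Cfsg.Agent.Lib.Helper11

open Cfsg Cfsg.Agent.Lib.Helper3
open scoped Pointwise
open Matrix

/-- entries of a compact table. -/
def ent (T i j : ℕ) : ℕ := Nat.land (Nat.shiftRight T (Nat.mul 5 (Nat.add (Nat.mul 24 i) j))) 31

theorem ent_le (T i j : ℕ) : ent T i j ≤ 31 := Nat.and_le_right

/-- range test. -/
def rngOK (b : GolayPt → ℤ) : Bool :=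
  (List.range 24).all (fun j => decide (-8 ≤ b (pt j)) && decide (b (pt j) ≤ 23))

theorem rngOK_sound {b : GolayPt → ℤ} (h : rngOK b = true) : InR b := by
  intro p
  unfold rngOK at h
  rw [List.all_eq_true] at h
  have := h (idx p) (List.mem_range.2 (idx_lt p))
  rw [pt_idx] at this
  simpa using this

/-- kernel version of the wide packing. -/
def WencF (b : GolayPt → ℤ) : ℕ := pkF 600 (dgt b) 24

theorem WencF_eq (b : GolayPt → ℤ) : WencF b = Wenc b := pkF_eq _ _ _

/-- test that a vector is mapped into the lattice. -/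
def chkVec (TWe EE : ℕ) (b : GolayPt → ℤ) : Bool :=
  rngOK b && force (WencF b) fun nW => force (convW TWe nW) fun ev => force (convW ONEW nW) fun D =>
    (List.range 24).all (fun i => decide (tZ ev EE D i % 8 = 0)) &&
      isLeech (fun p => tZ ev EE D (idx p) / 8)

theorem chkVec_sound (e : ℕ → ℕ → ℕ) (he : ∀ i j, e i j ≤ 31) {b : GolayPt → ℤ}
    (hb : b ∈ leechLattice) (h : chkVec (TW e) (EEof e) b = true) : b ∈ actSub (Mz e) := by
  unfold chkVec at h
  simp only [force_eq, Bool.and_eq_true, List.all_eq_true, List.mem_range, decide_eq_true_eq] at h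
  obtain ⟨h1, h2, h3⟩ := h
  have hr := rngOK_sound h1
  rw [WencF_eq, convW_ONE hr] at h2 h3
  have hm : ∀ p, (Mz e *ᵥ b) p = tZ (convW (TW e) (Wenc b)) (EEof e) (Dof b) (idx p) :=
    mulVec_tZ e he hr
  refine ⟨hb, fun p => ?_, ?_⟩
  · rw [hm p]
    exact Int.dvd_of_emod_eq_zero (h2 _ (idx_lt p))
  · have : mAct (Mz e) b = fun p => tZ (convW (TW e) (Wenc b)) (EEof e) (Dof b) (idx p) / 8 := by
      funext p
      show (Mz e *ᵥ b) p / 8 = _
      rw [hm p]
    rw [this]
    exact isLeech_sound h3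

/-- test on the generators of the lattice. -/
def chkGensM (TWe EE : ℕ) : Bool :=
  chkVec TWe EE (vOdd none) && basisList.all (fun b => chkVec TWe EE (vSet (unmask b))) &&
    (List.range 24).all (fun k => chkVec TWe EE (vTwo (pt k) none 4 (-4))) && chkVec TWe EE (vE none)

theorem chkGensM_sound (e : ℕ → ℕ → ℕ) (he : ∀ i j, e i j ≤ 31)
    (h : chkGensM (TW e) (EEof e) = true) : leechLattice ≤ actSub (Mz e) := by
  unfold chkGensM at h
  simp only [Bool.and_eq_true, List.all_eq_true, List.mem_range] at h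
  obtain ⟨⟨⟨h1, h2⟩, h3⟩, h4⟩ := h
  apply leech_le_of_gens _ none
  · exact chkVec_sound e he (vOdd_mem none) h1
  · intro b hb
    exact chkVec_sound e he (vSet_mem (basis_octads b hb).1) (h2 b hb)
  · intro i
    have := chkVec_sound e he (vTwo_mem (pt (idx i)) none rfl rfl rfl) (h3 _ (idx_lt i))
    rwa [pt_idx] at this
  · exact chkVec_sound e he (vE_mem none) h4

/-- orthogonality test. -/
def chkOrth (e : ℕ → ℕ → ℕ) (TW' EE' : ℕ) : Bool :=
  (List.range 24).all fun k => force (pkF 600 (fun i => e i k) 24) fun nW =>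
    force (convW TW' nW) fun ev => force (convW ONEW nW) fun D =>
      (List.range 24).all fun j => decide (tZ ev EE' D j = if j = k then 64 else 0)

theorem chkOrth_sound (e : ℕ → ℕ → ℕ) (he : ∀ i j, e i j ≤ 31)
    (h : chkOrth e (TW (fun i j => e j i)) (EEof (fun i j => e j i)) = true) :
    (Mz e)ᵀ * Mz e = (64 : ℤ) • (1 : Matrix GolayPt GolayPt ℤ) := by
  unfold chkOrth at h
  simp only [force_eq, List.all_eq_true, List.mem_range, decide_eq_true_eq] at h
  ext j k
  have hr : InR (fun p => Mz e p k) := by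
    intro p
    have := he (idx p) (idx k)
    show -8 ≤ (e (idx p) (idx k) : ℤ) - 8 ∧ (e (idx p) (idx k) : ℤ) - 8 ≤ 23
    omega
  have hW : pkF 600 (fun i => e i (idx k)) 24 = Wenc (fun p => Mz e p k) := by
    rw [pkF_eq]
    apply pk_congr
    intro i hi
    show e i (idx k) = ((e (idx (pt i)) (idx k) : ℤ) - 8 + 8).toNat
    rw [idx_pt hi]
    omega
  have h1 := h (idx k) (idx_lt k) (idx j) (idx_lt j)
  rw [hW, convW_ONE hr, ← mulVec_tZ (fun i j => e j i) (fun i j => he j i) hr j,
    ← Mz_transpose] at h1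
  have h2 : ((Mz e)ᵀ * Mz e) j k = ((Mz e)ᵀ *ᵥ fun p => Mz e p k) j := rfl
  rw [h2, h1, Matrix.smul_apply, Matrix.one_apply]
  by_cases hjk : j = k
  · subst hjk; simp
  · have : idx j ≠ idx k := fun h => hjk (idx_injective h)
    simp [hjk, this]

/-- complete test of a compact table. -/
def chkT (T : ℕ) : Bool :=
  force (TWF (ent T)) fun TW1 => force (TWF (fun i j => ent T j i)) fun TW2 =>
    force (convW TW1 ONEW) fun EE1 => force (convW TW2 ONEW) fun EE2 =>
      chkOrth (ent T) TW2 EE2 && chkGensM TW1 EE1 && chkGensM TW2 EE2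

theorem chkT_sound {T : ℕ} (h : chkT T = true) : GoodM (Mz (ent T)) := by
  unfold chkT at h
  simp only [force_eq, Bool.and_eq_true, TWF_eq] at h
  rw [convW_EE _ (ent_le T), convW_EE _ (fun i j => ent_le T j i)] at h
  obtain ⟨⟨h1, h2⟩, h3⟩ := h
  exact ⟨chkOrth_sound _ (ent_le T) h1, chkGensM_sound _ (ent_le T) h2, by
    rw [Mz_transpose]; exact chkGensM_sound _ (fun i j => ent_le T j i) h3⟩

/-- test that a vector is fixed. -/
def chkFix (TWe EE : ℕ) (b : GolayPt → ℤ) : Bool :=
  rngOK b && force (WencF b) fun nW => force (convW TWe nW) fun ev => force (convW ONEW nW) fun D =>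
    (List.range 24).all (fun i => decide (tZ ev EE D i = 8 * b (pt i)))

theorem chkFix_sound (e : ℕ → ℕ → ℕ) (he : ∀ i j, e i j ≤ 31) {b : GolayPt → ℤ}
    (h : chkFix (TW e) (EEof e) b = true) : mAct (Mz e) b = b := by
  unfold chkFix at h
  simp only [force_eq, Bool.and_eq_true, List.all_eq_true, List.mem_range, decide_eq_true_eq] at h
  obtain ⟨h1, h2⟩ := h
  have hr := rngOK_sound h1
  rw [WencF_eq, convW_ONE hr] at h2
  funext p
  show (Mz e *ᵥ b) p / 8 = b p
  rw [mulVec_tZ e he hr, h2 _ (idx_lt p), pt_idx]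
  omega

/-- constant. -/
def C1600 : ℕ := 0x640000640000640000640000640000640000640000640000640000640000640000640000640000640000640000640000640000640000640000640000640000640000640000640

theorem C1600_eq : C1600 = 1600 * ONE24 := by decide +kernel

/-- narrow packing of the image of a vector given in wide packing. -/
def imgN (TWe EE nW D : ℕ) : ℕ :=
  Nat.div (Nat.sub (Nat.add (convW TWe nW) C1600) (Nat.mul 8 (Nat.add (Nat.mul D ONE24) EE))) 8

theorem imgN_eq (e : ℕ → ℕ → ℕ) (he : ∀ i j, e i j ≤ 31) {w : GolayPt → ℤ} (hw : InR w)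
    (hdiv : ∀ p, (8 : ℤ) ∣ (Mz e *ᵥ w) p) (hy : InR (mAct (Mz e) w)) :
    imgN (TW e) (EEof e) (Wenc w) (Dof w) = encV (mAct (Mz e) w) := by
  have key : pk 24 (fun i => (∑ j ∈ Finset.range 24, e i j * dgt w j) + 1600 * 1) 24 =
      pk 24 (fun i => 8 * dgt (mAct (Mz e) w) i +
        (8 * (Dof w * 1) + 8 * ∑ j ∈ Finset.range 24, e i j)) 24 := by
    apply pk_congr
    intro i hi
    have h1 := mulVec_eq e hw (pt i)
    rw [idx_pt hi] at h1
    have h2 := dgt_cast hy i
    have h3 : mAct (Mz e) w (pt i) = (Mz e *ᵥ w) (pt i) / 8 := rfl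
    have h4 := hdiv (pt i)
    unfold Dof
    omega
  rw [pk_add, pk_add, pk_add, pk_mul, pk_mul, pk_mul, pk_mul, pk_mul, ← ONE24_eq] at key
  have hev : convW (TW e) (Wenc w) = pk 24 (fun i => ∑ j ∈ Finset.range 24, e i j * dgt w j) 24 := by
    rw [convW_eq]; exact ev_eq e _ he (dgt_le hw)
  show (convW (TW e) (Wenc w) + C1600 - 8 * (Dof w * ONE24 + EEof e)) / 8 = _
  rw [hev, C1600_eq]
  unfold encV EEof
  omega

end Cfsg.Agent.Lib.Helper11
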