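import Mathlib
import Cfsg.Agent.Lib.Helper11.MatChk
import Cfsg.Agent.Lib.Helper11.LeechShape
import Cfsg.Agent.S0394

set_option autoImplicit false
set_option exponentiation.threshold 20000

namespace Cfsg.Agent.Lib.Helper11

open Cfsg Cfsg.Agent.Lib.Helper3
open scoped Pointwise

/-! ### binary splitting -/

/-- concatenation over a range by binary splitting. -/
def flatRange (g : ℕ → List ℕ) : ℕ → ℕ → List ℕ
  | 0, lo => g lo
  | k+1, lo => flatRange g k lo ++ flatRange g k (Nat.add lo (Nat.pow 2 k))

/-- sum over a range by binary splitting. -/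
def sumRange (f : ℕ → ℕ) : ℕ → ℕ → ℕ
  | 0, lo => f lo
  | k+1, lo => Nat.add (sumRange f k lo) (sumRange f k (Nat.add lo (Nat.pow 2 k)))

theorem mem_flatRange {g : ℕ → List ℕ} {x : ℕ} (k lo c : ℕ) (h1 : lo ≤ c) (h2 : c < lo + 2 ^ k)
    (hx : x ∈ g c) : x ∈ flatRange g k lo := by
  induction k generalizing lo with
  | zero =>
    have : c = lo := by simp at h2; omega
    rw [this] at hx; exact hx
  | succ k ih =>
    rw [flatRange, List.mem_append]
    by_cases hc : c < lo + 2 ^ k
    · exact Or.inl (ih lo h1 hc)
    · right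
      apply ih
      · show lo + 2 ^ k ≤ c
        omega
      · show c < lo + 2 ^ k + 2 ^ k
        rw [pow_succ] at h2; omega

theorem all_flatRange (g : ℕ → List ℕ) (Q : ℕ → Bool) (k lo : ℕ) :
    (flatRange g k lo).all Q = allRange (fun c => (g c).all Q) k lo := by
  induction k generalizing lo with
  | zero => rfl
  | succ k ih => rw [flatRange, allRange, List.all_append, ih, ih]

theorem countP_flatRange (g : ℕ → List ℕ) (Q : ℕ → Bool) (k lo : ℕ) :
    (flatRange g k lo).countP Q = sumRange (fun c => (g c).countP Q) k lo := by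
  induction k generalizing lo with
  | zero => rfl
  | succ k ih => rw [flatRange, sumRange, List.countP_append, ih, ih]; rfl

theorem allRange_congr {p q : ℕ → Bool} (h : ∀ c, p c = q c) (k lo : ℕ) :
    allRange p k lo = allRange q k lo := by
  have : p = q := funext h
  rw [this]

theorem sumRange_congr {p q : ℕ → ℕ} (h : ∀ c, p c = q c) (k lo : ℕ) :
    sumRange p k lo = sumRange q k lo := by
  have : p = q := funext h
  rw [this]

/-! ### spreading the bits of a mask -/

/-- bits of a mask as digits. -/
def bitD (m k : ℕ) : ℕ := (m.testBit k).toNat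

def MAG : ℕ := 0x2000004000008000010000020000040000080000100000200000400000800001
def MSK : ℕ := 0x1000001000001000001000001000001000001000001000001000001000001000001

/-- spreading twelve bits. -/
def sp12 (h : ℕ) : ℕ := Nat.land (Nat.mul h MAG) MSK

theorem sp12_eq : ∀ h < 4096, sp12 h = pk 24 (bitD h) 12 := by
  have : allRange (fun h => Nat.beq (sp12 h) (pkF 24 (bitD h) 12)) 12 0 = true := by decide +kernel
  intro h hh
  rw [← pkF_eq]
  exact Nat.eq_of_beq_eq_true (forall_lt_of_allRange _ 12 this h hh)

/-- spreading twenty-four bits. -/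
def spF (m : ℕ) : ℕ :=
  Nat.add (sp12 (Nat.land m 4095)) (Nat.shiftLeft (sp12 (Nat.shiftRight m 12)) 288)

theorem spF_def (m : ℕ) :
    spF m = sp12 (Nat.land m 4095) + (sp12 (Nat.shiftRight m 12)) <<< 288 := rfl

theorem pk_split (s : ℕ) (d : ℕ → ℕ) (a b : ℕ) :
    pk s d (a + b) = pk s d a + pk s (fun j => d (a + j)) b * 2 ^ (s * a) := by
  unfold pk
  rw [Finset.sum_range_add, Finset.sum_mul]
  congr 1
  apply Finset.sum_congr rfl
  intro j _
  rw [Nat.mul_add, pow_add]; ring

theorem spF_eq {m : ℕ} (hm : m < 2 ^ 24) : spF m = pk 24 (bitD m) 24 := by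
  have h1 : Nat.land m 4095 < 4096 := lt_of_le_of_lt Nat.and_le_right (by norm_num)
  have h2 : Nat.shiftRight m 12 < 4096 := by
    show m >>> 12 < 4096
    rw [Nat.shiftRight_eq_div_pow]
    omega
  have e1 : pk 24 (bitD (Nat.land m 4095)) 12 = pk 24 (bitD m) 12 := by
    apply pk_congr
    intro j hj
    unfold bitD
    congr 1
    show (m &&& 4095).testBit j = _
    rw [Nat.testBit_and]
    have : (4095 : ℕ).testBit j = true := by
      interval_cases j <;> rfl
    rw [this, Bool.and_true]
  have e2 : pk 24 (bitD (Nat.shiftRight m 12)) 12 = pk 24 (fun j => bitD m (12 + j)) 12 := by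
    apply pk_congr
    intro j _
    unfold bitD
    congr 1
    show (m >>> 12).testBit j = _
    rw [Nat.testBit_shiftRight]
  rw [spF_def, sp12_eq _ h1, sp12_eq _ h2, Nat.shiftLeft_eq, pk_split 24 (bitD m) 12 12, e1, e2]

/-! ### the three families -/

def ALL9W : ℕ := 0x9000009000009000009000009000009000009000009000009000009000009000009000009000009000009000009000009000009000009000009000009000009000009000009
def ALL8W : ℕ := 0x8000008000008000008000008000008000008000008000008000008000008000008000008000008000008000008000008000008000008000008000008000008000008000008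

theorem ALL9W_eq : ALL9W = pk 24 (fun _ => 9) 24 := by rw [← pkF_eq]; decide +kernel
theorem ALL8W_eq : ALL8W = pk 24 (fun _ => 8) 24 := by rw [← pkF_eq]; decide +kernel

/-- four times a power of the wide base. -/
def sh4 (p : ℕ) : ℕ := Nat.shiftLeft 4 (Nat.mul 24 p)

theorem sh4_eq (p : ℕ) : sh4 p = 4 * 2 ^ (24 * p) := Nat.shiftLeft_eq _ _

/-- odd vectors without the exceptional coordinate. -/
def oddU (m : ℕ) : ℕ := Nat.sub ALL9W (Nat.mul 2 (spF m))

/-- odd vectors. -/
def oddW (U m j : ℕ) : ℕ := bif m.testBit j then Nat.add U (sh4 j) else Nat.sub U (sh4 j)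

theorem oddU_def (m : ℕ) : oddU m = ALL9W - 2 * spF m := rfl

theorem oddW_true {U m j : ℕ} (h : m.testBit j = true) : oddW U m j = U + sh4 j := by
  unfold oddW; rw [h]; rfl

theorem oddW_false {U m j : ℕ} (h : m.testBit j = false) : oddW U m j = U - sh4 j := by
  unfold oddW; rw [h]; rfl

theorem testBit_mask_pt (c : Finset GolayPt) {k : ℕ} (hk : k < 24) :
    (mask c).testBit k = decide (pt k ∈ c) := by
  rw [testBit_mask]; simp [hk]

theorem oddW_eq (c : Finset GolayPt) (p : GolayPt) :
    oddW (oddU (mask c)) (mask c) (idx p) = encV (signCh c (vOdd p)) := by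
  have hU : oddU (mask c) = pk 24 (fun k => 9 - 2 * bitD (mask c) k) 24 := by
    have h1 : pk 24 (fun k => (9 - 2 * bitD (mask c) k) + 2 * bitD (mask c) k) 24 =
        pk 24 (fun _ => 9) 24 := by
      apply pk_congr
      intro k _
      unfold bitD
      cases (mask c).testBit k <;> rfl
    rw [pk_add, pk_mul, ← ALL9W_eq, ← spF_eq (mask_lt c)] at h1
    rw [oddU_def]
    omega
  have hd : ∀ k < 24, dgt (signCh c (vOdd p)) k =
      if k = idx p then (if (mask c).testBit k then 11 else 5) else 9 - 2 * bitD (mask c) k := by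
    intro k hk
    have e1 : k = idx p ↔ pt k = p := by
      constructor
      · intro h; rw [h, pt_idx]
      · intro h; rw [← h, idx_pt hk]
    unfold dgt signCh vOdd bitD
    rw [testBit_mask_pt c hk]
    by_cases h1 : pt k = p
    · subst h1
      by_cases h2 : pt k ∈ c <;> simp [h2, idx_pt hk]
    · by_cases h2 : pt k ∈ c <;> simp [h1, h2, e1]
  unfold encV
  rw [pk_congr hd, hU]
  cases hb : (mask c).testBit (idx p)
  · rw [oddW_false hb, sh4_eq, ← pk_single 24 4 (idx_lt p)]
    have : pk 24 (fun k => (if k = idx p then (if (mask c).testBit k then 11 else 5)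
        else 9 - 2 * bitD (mask c) k) + (if k = idx p then 4 else 0)) 24 =
        pk 24 (fun k => 9 - 2 * bitD (mask c) k) 24 := by
      apply pk_congr
      intro k _
      by_cases hk : k = idx p
      · subst hk; simp [hb, bitD]
      · simp [hk]
    rw [pk_add] at this
    omega
  · rw [oddW_true hb, sh4_eq, ← pk_single 24 4 (idx_lt p), ← pk_add]
    apply pk_congr
    intro k _
    by_cases hk : k = idx p
    · subst hk; simp [hb, bitD]
    · simp [hk]

/-- vectors supported on an octad, all signs positive. -/
def octU (o : ℕ) : ℕ := Nat.add ALL8W (Nat.mul 2 (spF o))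

theorem octU_def (o : ℕ) : octU o = ALL8W + 2 * spF o := rfl

/-- the sign patterns with an even number of minus signs. -/
def leaves : List ℕ → Bool → ℕ → List ℕ
  | [], par, acc => bif par then [] else [acc]
  | p :: ps, par, acc => leaves ps par acc ++ leaves ps (!par) (Nat.sub acc (sh4 p))

theorem mem_leaves (ps : List ℕ) (par : Bool) (acc : ℕ) (S : Finset ℕ) (hS : S ⊆ ps.toFinset)
    (hp : par = decide (S.card % 2 = 1)) :
    acc - ∑ p ∈ S, 4 * 2 ^ (24 * p) ∈ leaves ps par acc := by
  induction ps generalizing par acc S with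
  | nil =>
    have : S = ∅ := by simpa using hS
    subst this
    simp at hp
    subst hp
    simp [leaves]
  | cons p ps ih =>
    rw [leaves, List.mem_append]
    by_cases hpS : p ∈ S
    · right
      have h1 : S.erase p ⊆ ps.toFinset := by
        intro q hq
        rw [Finset.mem_erase] at hq
        have := hS hq.2
        rw [List.toFinset_cons, Finset.mem_insert] at this
        tauto
      have h2 : (S.erase p).card + 1 = S.card := Finset.card_erase_add_one hpS
      have h3 := ih (!par) (Nat.sub acc (sh4 p)) (S.erase p) h1 (by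
        rw [hp]
        by_cases h : S.card % 2 = 1
        · have : ¬ (S.erase p).card % 2 = 1 := by omega
          simp [h, this]
        · have : (S.erase p).card % 2 = 1 := by omega
          simp [h, this])
      have h4 : Nat.sub acc (sh4 p) - ∑ q ∈ S.erase p, 4 * 2 ^ (24 * q) =
          acc - ∑ q ∈ S, 4 * 2 ^ (24 * q) := by
        rw [← Finset.add_sum_erase S _ hpS, sh4_eq]
        exact Nat.sub_sub _ _ _
      rw [← h4]; exact h3
    · left
      apply ih par acc S _ hp
      intro q hq
      have := hS hq
      rw [List.toFinset_cons, Finset.mem_insert] at this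
      rcases this with h | h
      · exact absurd (h ▸ hq) hpS
      · exact h

/-- positions of the bits of a mask. -/
def bitsL (o : ℕ) : List ℕ := (List.range 24).filter (fun k => o.testBit k)

theorem octW_eq (o c : Finset GolayPt) :
    octU (mask o) - ∑ p ∈ (c ∩ o).image idx, 4 * 2 ^ (24 * p) = encV (signCh c (vSet o)) := by
  have h1 : ∑ p ∈ (c ∩ o).image idx, 4 * 2 ^ (24 * p) =
      pk 24 (fun k => 4 * bitD (mask (c ∩ o)) k) 24 := by
    unfold pk
    rw [Finset.sum_image (fun a _ b _ h => idx_injective h)]
    have : ∑ k ∈ Finset.range 24, 4 * bitD (mask (c ∩ o)) k * 2 ^ (24 * k) =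
        ∑ q : GolayPt, 4 * bitD (mask (c ∩ o)) (idx q) * 2 ^ (24 * idx q) := by
      rw [sum_golay]
      apply Finset.sum_congr rfl
      intro k hk
      rw [idx_pt (Finset.mem_range.1 hk)]
    rw [this, ← Finset.sum_subset (Finset.subset_univ (c ∩ o))]
    · apply Finset.sum_congr rfl
      intro q hq
      unfold bitD
      rw [(mem_iff_testBit q _).1 hq]
      simp
    · intro q _ hq
      unfold bitD
      have : (mask (c ∩ o)).testBit (idx q) = false := by
        rw [Bool.eq_false_iff]
        exact fun h => hq ((mem_iff_testBit q _).2 h)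
      rw [this]
      simp
  have h2 : pk 24 (fun k => dgt (signCh c (vSet o)) k + 4 * bitD (mask (c ∩ o)) k) 24 =
      pk 24 (fun k => 8 + 2 * bitD (mask o) k) 24 := by
    apply pk_congr
    intro k hk
    unfold dgt signCh vSet bitD
    rw [testBit_mask_pt _ hk, testBit_mask_pt _ hk]
    by_cases h1 : pt k ∈ o <;> by_cases h2 : pt k ∈ c <;> simp [h1, h2]
  rw [pk_add, pk_add, pk_mul 24 2, ← ALL8W_eq, ← spF_eq (mask_lt o)] at h2
  rw [h1, octU_def]
  unfold encV
  omega

/-- vectors with two nonzero coordinates. -/
def twoW (a b : ℕ) (s t : Bool) : ℕ :=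
  Nat.sub (Nat.add (Nat.add ALL8W (bif s then 0 else sh4 a)) (bif t then 0 else sh4 b))
    (Nat.add (bif s then sh4 a else 0) (bif t then sh4 b else 0))

theorem twoW_def (a b : ℕ) (s t : Bool) : twoW a b s t =
    ALL8W + (bif s then 0 else sh4 a) + (bif t then 0 else sh4 b) -
      ((bif s then sh4 a else 0) + (bif t then sh4 b else 0)) := rfl

theorem twoW_eq {a b : GolayPt} (hab : a ≠ b) (s t : Bool) :
    twoW (idx a) (idx b) s t = encV (vTwo a b (bif s then -4 else 4) (bif t then -4 else 4)) := by
  have hne : idx a ≠ idx b := fun h => hab (idx_injective h)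
  have key : pk 24 (fun k => dgt (vTwo a b (bif s then -4 else 4) (bif t then -4 else 4)) k +
      ((if k = idx a then (bif s then 4 else 0) else 0) +
       (if k = idx b then (bif t then 4 else 0) else 0))) 24 =
      pk 24 (fun k => (8 + (if k = idx a then (bif s then 0 else 4) else 0)) +
       (if k = idx b then (bif t then 0 else 4) else 0)) 24 := by
    apply pk_congr
    intro k hk
    have e1 : ∀ q : GolayPt, pt k = q ↔ k = idx q := by
      intro q
      constructor
      · intro h; rw [← h, idx_pt hk]
      · intro h; rw [h, pt_idx]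
    unfold dgt
    rw [vTwo_apply]
    simp only [e1]
    by_cases h1 : k = idx a
    · have h2 : k ≠ idx b := fun h => hne (h1.symm.trans h)
      cases s <;> simp [h1, hne]
    · by_cases h2 : k = idx b
      · cases t <;> simp [h2, hne.symm]
      · simp [h1, h2]
  rw [pk_add, pk_add, pk_add, pk_add, pk_single 24 _ (idx_lt a), pk_single 24 _ (idx_lt b),
    pk_single 24 _ (idx_lt a), pk_single 24 _ (idx_lt b), ← ALL8W_eq] at key
  rw [twoW_def]
  unfold encV
  simp only [sh4_eq]
  cases s <;> cases t <;> simp only [cond_true, cond_false] at key ⊢ <;> omega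

end Cfsg.Agent.Lib.Helper11
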