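import Mathlib
import Cfsg.Agent.Lib.Helper11.L2Enum

set_option autoImplicit false
set_option exponentiation.threshold 20000

namespace Cfsg.Agent.Lib.Helper11

open Cfsg Cfsg.Agent.Lib.Helper3
open scoped Pointwise

/-- odd vectors with a given sign pattern. -/
def g1 (c : ℕ) : List ℕ :=
  flatRange (fun j => bif Nat.blt j 24 then [oddW (oddU (encF c)) (encF c) j] else []) 5 0

/-- vectors supported on a given octad. -/
def g2 (c : ℕ) : List ℕ :=
  bif Nat.beq (pcF (encF c)) 8 then leaves (bitsL (encF c)) false (octU (encF c)) else []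

/-- vectors with two nonzero coordinates. -/
def g3 (p : ℕ) : List ℕ :=
  bif Nat.blt (Nat.land p 31) (Nat.land (Nat.shiftRight p 5) 31) &&
      Nat.blt (Nat.land (Nat.shiftRight p 5) 31) 24 then
    [twoW (Nat.land p 31) (Nat.land (Nat.shiftRight p 5) 31) (Nat.testBit p 10) (Nat.testBit p 11)]
  else []

/-- the wide packings of all minimal vectors. -/
def L2list : List ℕ := flatRange g1 12 0 ++ flatRange g2 12 0 ++ flatRange g3 12 0

theorem exists_encF {c : Finset GolayPt} (hc : c ∈ CS) : ∃ c' < 4096, mask c = encF c' := by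
  rw [mem_supports_iff] at hc
  have h1 : mask c % 4096 < 4096 := Nat.mod_lt _ (by norm_num)
  exact ⟨_, h1, by rw [encF_eq _ h1]; exact hc⟩

theorem g3_param : ∀ a < 24, ∀ b < 24, ∀ s t : Bool,
    a + 32 * b + 1024 * s.toNat + 2048 * t.toNat < 4096 ∧
    Nat.land (a + 32 * b + 1024 * s.toNat + 2048 * t.toNat) 31 = a ∧
    Nat.land (Nat.shiftRight (a + 32 * b + 1024 * s.toNat + 2048 * t.toNat) 5) 31 = b ∧
    Nat.testBit (a + 32 * b + 1024 * s.toNat + 2048 * t.toNat) 10 = s ∧
    Nat.testBit (a + 32 * b + 1024 * s.toNat + 2048 * t.toNat) 11 = t := by decide +kernel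

theorem mem_two {a b : GolayPt} (hab : idx a < idx b) (s t : Bool) :
    encV (vTwo a b (bif s then -4 else 4) (bif t then -4 else 4)) ∈ L2list := by
  obtain ⟨h1, h2, h3, h4, h5⟩ := g3_param (idx a) (idx_lt a) (idx b) (idx_lt b) s t
  unfold L2list
  rw [List.mem_append]
  right
  apply mem_flatRange 12 0 _ (Nat.zero_le _) (by simpa using h1)
  unfold g3
  rw [h2, h3, h4, h5]
  have e1 : Nat.blt (idx a) (idx b) = true := by
    rw [Nat.blt_eq]; exact hab
  have e2 : Nat.blt (idx b) 24 = true := by
    rw [Nat.blt_eq]; exact idx_lt b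
  rw [e1, e2]
  simp only [Bool.and_self, cond_true, List.mem_singleton]
  exact (twoW_eq (fun h => by rw [h] at hab; omega) s t).symm

theorem mem_L2list {w : GolayPt → ℤ} (hw : w ∈ leechLattice) (hn : sqNorm w = 32) :
    encV w ∈ L2list := by
  rcases L2_cases hw hn with ⟨c, hc, j, rfl⟩ | ⟨o, ho, c, hc, rfl⟩ | ⟨a, b, hab, s, t, hs, ht, rfl⟩
  · obtain ⟨c', hc', e⟩ := exists_encF hc
    unfold L2list
    rw [List.mem_append, List.mem_append]
    left; left
    apply mem_flatRange 12 0 c' (Nat.zero_le _) (by simpa using hc')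
    unfold g1
    apply mem_flatRange 5 0 (idx j) (Nat.zero_le _) (by have := idx_lt j; omega)
    have e2 : Nat.blt (idx j) 24 = true := by
      rw [Nat.blt_eq]; exact idx_lt j
    rw [e2, ← e, oddW_eq]
    simp
  · obtain ⟨c', hc', e⟩ := exists_encF ho.1
    unfold L2list
    rw [List.mem_append, List.mem_append]
    left; right
    apply mem_flatRange 12 0 c' (Nat.zero_le _) (by simpa using hc')
    unfold g2
    have e2 : Nat.beq (pcF (encF c')) 8 = true := by
      rw [Nat.beq_eq, ← e, ← card_eq_pcF]; exact ho.2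
    rw [e2, ← e, ← octW_eq]
    apply mem_leaves
    · intro k hk
      rw [Finset.mem_image] at hk
      obtain ⟨q, hq, rfl⟩ := hk
      unfold bitsL
      rw [List.mem_toFinset, List.mem_filter, List.mem_range]
      exact ⟨idx_lt q, (mem_iff_testBit q o).1 (Finset.mem_inter.1 hq).2⟩
    · rw [Finset.card_image_of_injective _ idx_injective]
      have := card_inter_CS_even hc ho.1
      symm
      rw [decide_eq_false_iff_not]
      omega
  · have key : ∀ (a b : GolayPt) (s t : ℤ), idx a < idx b → (s = 4 ∨ s = -4) → (t = 4 ∨ t = -4) →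
        encV (vTwo a b s t) ∈ L2list := by
      intro a b s t h hs ht
      have := mem_two h (decide (s = -4)) (decide (t = -4))
      have e1 : (bif decide (s = -4) then (-4 : ℤ) else 4) = s := by
        rcases hs with h | h <;> rw [h] <;> rfl
      have e2 : (bif decide (t = -4) then (-4 : ℤ) else 4) = t := by
        rcases ht with h | h <;> rw [h] <;> rfl
      rwa [e1, e2] at this
    have hne : idx a ≠ idx b := fun h => hab (idx_injective h)
    rcases Nat.lt_or_gt_of_ne hne with h | h
    · exact key a b s t h hs ht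
    · have : vTwo a b s t = vTwo b a t s := by unfold vTwo; rw [add_comm]
      rw [this]
      exact key b a t s h ht hs

/-! ### fast evaluation -/

/-- number of leaves satisfying a test. -/
def sumT (Q : ℕ → Bool) : List ℕ → Bool → ℕ → ℕ
  | [], par, acc => bif par then 0 else (bif Q acc then 1 else 0)
  | p :: ps, par, acc =>
    Nat.add (sumT Q ps par acc) (sumT Q ps (!par) (Nat.sub acc (sh4 p)))

theorem sumT_eq (Q : ℕ → Bool) (ps : List ℕ) (par : Bool) (acc : ℕ) :
    sumT Q ps par acc = (leaves ps par acc).countP Q := by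
  induction ps generalizing par acc with
  | nil =>
    cases par
    · cases h : Q acc <;> simp [sumT, leaves, h]
    · simp [sumT, leaves]
  | cons p ps ih =>
    rw [sumT, leaves, List.countP_append, ih, ih]; rfl

/-- all leaves satisfy a test. -/
def allT (Q : ℕ → Bool) : List ℕ → Bool → ℕ → Bool
  | [], par, acc => par || Q acc
  | p :: ps, par, acc =>
    allT Q ps par acc && allT Q ps (!par) (Nat.sub acc (sh4 p))

theorem allT_eq (Q : ℕ → Bool) (ps : List ℕ) (par : Bool) (acc : ℕ) :
    allT Q ps par acc = (leaves ps par acc).all Q := by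
  induction ps generalizing par acc with
  | nil =>
    cases par <;> simp [allT, leaves]
  | cons p ps ih =>
    rw [allT, leaves, List.all_append, ih, ih]

/-- evaluate a list completely first. -/
def forceL {α : Type} : List ℕ → (List ℕ → α) → α
  | [], f => f []
  | x :: xs, f => force x fun x' => forceL xs fun xs' => f (x' :: xs')

theorem forceL_eq {α : Type} (l : List ℕ) (f : List ℕ → α) : forceL l f = f l := by
  induction l generalizing f with
  | nil => rfl
  | cons x xs ih => rw [forceL, force_eq, ih]

/-- number of minimal vectors satisfying a test. -/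
def cntL2 (Q : ℕ → Bool) : ℕ :=
  Nat.add (Nat.add
    (sumRange (fun c => force (encF c) fun m =>
      sumRange (fun j => bif Nat.blt j 24 then (bif Q (oddW (oddU m) m j) then 1 else 0) else 0) 5 0) 12 0)
    (sumRange (fun c => force (encF c) fun o =>
      bif Nat.beq (pcF o) 8 then forceL (bitsL o) fun ps => sumT Q ps false (octU o) else 0) 12 0))
    (sumRange (fun p => (g3 p).countP Q) 12 0)

theorem cntL2_eq (Q : ℕ → Bool) : cntL2 Q = L2list.countP Q := by
  have e1 : ∀ c, (force (encF c) fun m =>
      sumRange (fun j => bif Nat.blt j 24 then (bif Q (oddW (oddU m) m j) then 1 else 0) else 0) 5 0) =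
      (g1 c).countP Q := by
    intro c
    rw [force_eq]
    unfold g1
    rw [countP_flatRange]
    apply sumRange_congr
    intro j
    cases Nat.blt j 24
    · rfl
    · cases h : Q (oddW (oddU (encF c)) (encF c) j) <;> simp [h]
  have e2 : ∀ c, (force (encF c) fun o =>
      bif Nat.beq (pcF o) 8 then forceL (bitsL o) fun ps => sumT Q ps false (octU o) else 0) =
      (g2 c).countP Q := by
    intro c
    rw [force_eq]
    unfold g2
    cases Nat.beq (pcF (encF c)) 8
    · rfl
    · simp only [cond_true, force_eq, forceL_eq, sumT_eq]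
  unfold cntL2 L2list
  rw [List.countP_append, List.countP_append, countP_flatRange, countP_flatRange, countP_flatRange,
    sumRange_congr e1, sumRange_congr e2]
  simp only [Nat.add_eq]

/-- all minimal vectors satisfy a test. -/
def allL2 (Q : ℕ → Bool) : Bool :=
  allRange (fun c => force (encF c) fun m =>
      allRange (fun j => bif Nat.blt j 24 then Q (oddW (oddU m) m j) else true) 5 0) 12 0 &&
    allRange (fun c => force (encF c) fun o =>
      bif Nat.beq (pcF o) 8 then forceL (bitsL o) fun ps => allT Q ps false (octU o) else true) 12 0 &&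
    allRange (fun p => (g3 p).all Q) 12 0

theorem allL2_eq (Q : ℕ → Bool) : allL2 Q = L2list.all Q := by
  have e1 : ∀ c, (force (encF c) fun m =>
      allRange (fun j => bif Nat.blt j 24 then Q (oddW (oddU m) m j) else true) 5 0) = (g1 c).all Q := by
    intro c
    rw [force_eq]
    unfold g1
    rw [all_flatRange]
    apply allRange_congr
    intro j
    cases Nat.blt j 24 <;> simp
  have e2 : ∀ c, (force (encF c) fun o =>
      bif Nat.beq (pcF o) 8 then forceL (bitsL o) fun ps => allT Q ps false (octU o) else true) =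
      (g2 c).all Q := by
    intro c
    rw [force_eq]
    unfold g2
    cases Nat.beq (pcF (encF c)) 8
    · rfl
    · simp only [cond_true, force_eq, forceL_eq, allT_eq]
  unfold allL2 L2list
  rw [List.all_append, List.all_append, all_flatRange, all_flatRange, all_flatRange,
    allRange_congr e1, allRange_congr e2]

theorem cnt_all : cntL2 (fun _ => true) = 196560 := by decide +kernel

theorem inR_of_32 {w : GolayPt → ℤ} (hn : sqNorm w = 32) : InR w := by
  intro p
  have := sq_le_sqNorm w p
  rw [hn] at this
  constructor <;> nlinarith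

/-- universal statements about minimal vectors. -/
theorem allL2_sound {Q : ℕ → Bool} (h : allL2 Q = true) {w : GolayPt → ℤ} (hw : w ∈ leechLattice)
    (hn : sqNorm w = 32) : Q (encV w) = true := by
  rw [allL2_eq, List.all_eq_true] at h
  exact h _ (mem_L2list hw hn)

theorem L2list_length : L2list.length = 196560 := by
  rw [← cnt_all, cntL2_eq, List.countP_true]

theorem L2_image : encV '' {x : GolayPt → ℤ | x ∈ leechLattice ∧ sqNorm x = 32} =
    (↑L2list.toFinset : Set ℕ) ∧ L2list.Nodup := by
  have hinj : Set.InjOn encV {x : GolayPt → ℤ | x ∈ leechLattice ∧ sqNorm x = 32} :=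
    fun x hx y hy h => encV_inj (inR_of_32 hx.2) (inR_of_32 hy.2) h
  have h1 : (encV '' {x : GolayPt → ℤ | x ∈ leechLattice ∧ sqNorm x = 32}).ncard = 196560 := by
    rw [hinj.ncard_image]; exact Cfsg.Agent.S0394.result
  have h2 : encV '' {x : GolayPt → ℤ | x ∈ leechLattice ∧ sqNorm x = 32} ⊆
      (↑L2list.toFinset : Set ℕ) := by
    rintro _ ⟨x, hx, rfl⟩
    rw [Finset.mem_coe, List.mem_toFinset]
    exact mem_L2list hx.1 hx.2
  have h3 : L2list.toFinset.card ≤ 196560 := by
    rw [← L2list_length]; exact List.toFinset_card_le _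
  have h4 : 196560 ≤ L2list.toFinset.card := by
    rw [← h1, ← Set.ncard_coe_finset]
    exact Set.ncard_le_ncard h2 (Finset.finite_toSet _)
  constructor
  · apply Set.eq_of_subset_of_ncard_le h2 _ (Finset.finite_toSet _)
    rw [h1, Set.ncard_coe_finset]; exact h3
  · have : (↑L2list : Multiset ℕ).toFinset.card = Multiset.card (↑L2list : Multiset ℕ) := by
      show L2list.toFinset.card = L2list.length
      rw [L2list_length]
      omega
    exact Multiset.coe_nodup.1 (Multiset.toFinset_card_eq_card_iff_nodup.1 this)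

/-- counting minimal vectors. -/
theorem ncard_L2 (Q : ℕ → Bool) :
    {x : GolayPt → ℤ | x ∈ leechLattice ∧ sqNorm x = 32 ∧ Q (encV x) = true}.ncard = cntL2 Q := by
  have hinj : Set.InjOn encV {x : GolayPt → ℤ | x ∈ leechLattice ∧ sqNorm x = 32 ∧ Q (encV x) = true} :=
    fun x hx y hy h => encV_inj (inR_of_32 hx.2.1) (inR_of_32 hy.2.1) h
  rw [← hinj.ncard_image, cntL2_eq]
  have : encV '' {x : GolayPt → ℤ | x ∈ leechLattice ∧ sqNorm x = 32 ∧ Q (encV x) = true} =
      (↑(L2list.toFinset.filter (fun n => Q n = true)) : Set ℕ) := by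
    ext n
    rw [Finset.coe_filter]
    constructor
    · rintro ⟨x, ⟨h1, h2, h3⟩, rfl⟩
      refine ⟨?_, h3⟩
      rw [← Finset.mem_coe, ← L2_image.1]
      exact ⟨x, ⟨h1, h2⟩, rfl⟩
    · rintro ⟨h1, h2⟩
      rw [← Finset.mem_coe, ← L2_image.1] at h1
      obtain ⟨x, ⟨h3, h4⟩, rfl⟩ := h1
      exact ⟨x, ⟨h3, h4, h2⟩, rfl⟩
  rw [this, Set.ncard_coe_finset, L2_image.2.card_eq_countP]
  congr 1
  funext n
  simp

end Cfsg.Agent.Lib.Helper11
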