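import Mathlib
import Cfsg.Agent.Lib.Helper11.CountTrans

set_option autoImplicit false

namespace Cfsg.Agent.Lib.Helper11

open Cfsg Cfsg.Agent.Lib.Helper3

/-- numbering of the coordinates. -/
def ptEquiv : GolayPt ≃ Fin 24 where
  toFun p := ⟨idx p, idx_lt p⟩
  invFun i := pt i
  left_inv p := pt_idx p
  right_inv i := Fin.ext (idx_pt i.2)

theorem eight_dvd_dot {x y : GolayPt → ℤ} (hx : x ∈ leechLattice) (hy : y ∈ leechLattice) :
    (8 : ℤ) ∣ dotInt x y := by
  have h1 := sixteen_dvd_sqNorm hx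
  have h2 := sixteen_dvd_sqNorm hy
  have h3 := sixteen_dvd_sqNorm (leechLattice.add_mem hx hy)
  rw [sqNorm_add] at h3
  omega

section

variable (L : AddSubgroup (GolayPt → ℤ)) (s : ℤ) (hs : s ≠ 0) (b d : Fin 24 → GolayPt → ℤ)
  (hb : ∀ j, b j ∈ L) (hd : ∀ x ∈ L, ∀ j, s ∣ dotInt x (d j))
  (h1 : ∀ k l, ∑ j, d j k * b j l = if k = l then s else 0)
  (h2 : ∀ i j, dotInt (b j) (d i) = if i = j then s else 0)

include hs hd h1 in
/-- expansion of a lattice vector. -/
theorem lat_expand {x : GolayPt → ℤ} (hx : x ∈ L) : x = ∑ j, (dotInt x (d j) / s) • b j := by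
  funext l
  apply mul_left_cancel₀ hs
  rw [Finset.sum_apply, Finset.mul_sum]
  have e1 : ∀ j, s * ((dotInt x (d j) / s) • b j) l = dotInt x (d j) * b j l := by
    intro j
    rw [Pi.smul_apply, smul_eq_mul, ← mul_assoc, Int.mul_ediv_cancel' (hd x hx j)]
  rw [Finset.sum_congr rfl (fun j _ => e1 j)]
  unfold dotInt
  simp only [Finset.sum_mul]
  rw [Finset.sum_comm]
  have e2 : ∀ k, ∑ j, x k * d j k * b j l = x k * (if k = l then s else 0) := by
    intro k
    rw [← h1 k l, Finset.mul_sum]
    exact Finset.sum_congr rfl (fun j _ => by ring)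
  rw [Finset.sum_congr rfl (fun k _ => e2 k)]
  simp [mul_comm]

include hs h2 in
theorem lat_indep : LinearIndependent ℤ (fun j => (⟨b j, hb j⟩ : ↥L)) := by
  rw [Fintype.linearIndependent_iff]
  intro g hg i
  have e0 : ∑ j, g j • b j = 0 := by
    have := congrArg (Subtype.val) hg
    simpa using this
  have e1 : dotInt (∑ j, g j • b j) (d i) = g i * s := by
    unfold dotInt
    simp only [Finset.sum_apply, Pi.smul_apply, smul_eq_mul, Finset.sum_mul]
    rw [Finset.sum_comm]
    have e2 : ∀ j, ∑ k, g j * b j k * d i k = g j * (if i = j then s else 0) := by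
      intro j
      rw [← h2 i j]
      unfold dotInt
      rw [Finset.mul_sum]
      exact Finset.sum_congr rfl (fun k _ => by ring)
    rw [Finset.sum_congr rfl (fun j _ => e2 j)]
    simp
  rw [e0] at e1
  have e3 : dotInt (0 : GolayPt → ℤ) (d i) = 0 := by
    unfold dotInt
    simp
  rw [e3] at e1
  rcases mul_eq_zero.1 e1.symm with h | h
  · exact h
  · exact absurd h hs

include hs hd h1 in
theorem lat_span : ⊤ ≤ Submodule.span ℤ (Set.range (fun j => (⟨b j, hb j⟩ : ↥L))) := by
  intro x _
  have e : x = ∑ j, (dotInt x.1 (d j) / s) • (⟨b j, hb j⟩ : ↥L) := by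
    apply Subtype.ext
    have := lat_expand L s hs b d hd h1 x.2
    simpa using this
  rw [e]
  exact Submodule.sum_mem _ (fun j _ => Submodule.smul_mem _ _ (Submodule.subset_span ⟨j, rfl⟩))

/-- the basis. -/
noncomputable def latBasis : Module.Basis (Fin 24) ℤ ↥L :=
  Module.Basis.mk (lat_indep L s hs b d hb h2) (lat_span L s hs b d hb hd h1)

include hs hb hd h1 h2 in
/-- the index of a lattice with a triangular basis. -/
theorem lat_index (htri : ∀ i j : Fin 24, j < i → b j (pt i) = 0) :
    L.index = (∏ i : Fin 24, b i (pt i)).natAbs := by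
  rw [AddSubgroup.index_eq_natAbs_det ((Pi.basisFun ℤ GolayPt).reindex ptEquiv) L
    (latBasis L s hs b d hb hd h1 h2)]
  congr 1
  rw [Module.Basis.det_apply]
  have e : ((Pi.basisFun ℤ GolayPt).reindex ptEquiv).toMatrix
      (fun i => ((latBasis L s hs b d hb hd h1 h2 i : ↥L) : GolayPt → ℤ)) =
      Matrix.of (fun i j : Fin 24 => b j (pt i)) := by
    ext i j
    rw [Module.Basis.toMatrix_apply, Module.Basis.repr_reindex_apply, Pi.basisFun_repr]
    unfold latBasis
    rw [Module.Basis.mk_apply]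
    rfl
  rw [e, Matrix.det_of_isUpperTriangular]
  · rfl
  · intro i j hij
    exact htri i j hij

end

end Cfsg.Agent.Lib.Helper11
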