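import Mathlib
import Cfsg.Agent.Lib.Helper11.LeechFrame

set_option autoImplicit false

namespace Cfsg.Agent.Lib.Helper11

open Cfsg Cfsg.Agent.Lib.Helper3
open scoped Pointwise

/-- preservation of the standard cross. -/
def PresCross (g : ↥Co0) : Prop :=
  ∀ v : ↥leechLattice, (v : GolayPt → ℤ) ∈ stdCross →
    ((g • v : ↥leechLattice) : GolayPt → ℤ) ∈ stdCross

theorem vE_mem_stdCross (i : GolayPt) : vE i ∈ stdCross := ⟨i, 8, Or.inl rfl, rfl⟩

theorem mem_stdCross_iff (y : GolayPt → ℤ) : y ∈ stdCross ↔ ∃ i, y = vE i ∨ y = -vE i := by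
  constructor
  · rintro ⟨i, s, rfl | rfl, rfl⟩
    · exact ⟨i, Or.inl rfl⟩
    · refine ⟨i, Or.inr ?_⟩
      unfold vE
      rw [← Pi.single_neg]
  · rintro ⟨i, rfl | rfl⟩
    · exact vE_mem_stdCross i
    · refine ⟨i, -8, Or.inr rfl, ?_⟩
      unfold vE
      rw [← Pi.single_neg]

theorem vE_injective {i j : GolayPt} (h : vE i = vE j ∨ vE i = -vE j) : i = j := by
  by_contra hne
  rcases h with h | h
  · have := congrFun h i
    rw [vE_apply, vE_apply, if_pos rfl, if_neg hne] at this
    norm_num at this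
  · have := congrFun h i
    rw [Pi.neg_apply, vE_apply, vE_apply, if_pos rfl, if_neg hne] at this
    norm_num at this

/-- the monomial automorphism attached to a permutation and a code word. -/
def monoCo0 (σ : Equiv.Perm GolayPt) (hσ : σ ∈ M24) (c : Finset GolayPt) (hc : c ∈ CS) : ↥Co0 :=
  signCo0 c hc * permCo0 σ hσ

theorem monoCo0_smul (σ : Equiv.Perm GolayPt) (hσ : σ ∈ M24) (c : Finset GolayPt) (hc : c ∈ CS)
    (v : ↥leechLattice) :
    ((monoCo0 σ hσ c hc • v : ↥leechLattice) : GolayPt → ℤ) = signedPerm σ c v.1 := rfl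

theorem signedPerm_vE (σ : Equiv.Perm GolayPt) (c : Finset GolayPt) (i : GolayPt) :
    signedPerm σ c (vE i) = if σ i ∈ c then -vE (σ i) else vE (σ i) := by
  rw [signedPerm_eq, permCh_vE]
  funext j
  unfold signCh
  by_cases hj : j = σ i
  · subst hj
    by_cases hc : σ i ∈ c <;> simp [hc]
  · by_cases hc : σ i ∈ c <;> by_cases hjc : j ∈ c <;> simp [hc, hjc, vE_apply, hj]

theorem signedPerm_neg (σ : Equiv.Perm GolayPt) (c : Finset GolayPt) (x : GolayPt → ℤ) :
    signedPerm σ c (-x) = -signedPerm σ c x := by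
  funext j
  simp only [signedPerm, Pi.neg_apply]
  split <;> rfl

theorem monoCo0_pres (σ : Equiv.Perm GolayPt) (hσ : σ ∈ M24) (c : Finset GolayPt) (hc : c ∈ CS) :
    PresCross (monoCo0 σ hσ c hc) := by
  intro v hv
  rw [monoCo0_smul]
  rw [mem_stdCross_iff] at hv ⊢
  obtain ⟨i, h | h⟩ := hv
  · rw [h, signedPerm_vE]
    refine ⟨σ i, ?_⟩
    split
    · exact Or.inr rfl
    · exact Or.inl rfl
  · rw [h, signedPerm_neg, signedPerm_vE]
    refine ⟨σ i, ?_⟩
    split
    · left; rw [neg_neg]
    · exact Or.inr rfl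

/-- an automorphism preserving the standard cross is monomial. -/
theorem exists_mono_of_pres {g : ↥Co0} (hg : PresCross g) :
    ∃ (σ : Equiv.Perm GolayPt) (hσ : σ ∈ M24) (c : Finset GolayPt) (hc : c ∈ CS),
      g = monoCo0 σ hσ c hc := by
  classical
  have h1 : ∀ i, ∃ j, ((g • lE i : ↥leechLattice) : GolayPt → ℤ) = vE j ∨
      ((g • lE i : ↥leechLattice) : GolayPt → ℤ) = -vE j := fun i =>
    (mem_stdCross_iff _).1 (hg (lE i) (vE_mem_stdCross i))
  choose π hπ using h1
  have hinj : Function.Injective π := by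
    intro i j hij
    have hi := hπ i
    have hj := hπ j
    rw [hij] at hi
    have : g • lE i = g • lE j ∨ g • lE i = g • (-lE j) := by
      rcases hi with hi | hi <;> rcases hj with hj | hj
      · left; exact Subtype.ext (hi.trans hj.symm)
      · right; rw [Co0_neg]; apply Subtype.ext
        rw [hi]; show _ = -((g • lE j : ↥leechLattice) : GolayPt → ℤ); rw [hj, neg_neg]
      · right; rw [Co0_neg]; apply Subtype.ext
        rw [hi]; show _ = -((g • lE j : ↥leechLattice) : GolayPt → ℤ); rw [hj]
      · left; exact Subtype.ext (hi.trans hj.symm)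
    apply vE_injective
    rcases this with h | h
    · left; exact congrArg Subtype.val (MulAction.injective g h)
    · right; exact congrArg Subtype.val (MulAction.injective g h)
  let σ : Equiv.Perm GolayPt := Equiv.ofBijective π (Finite.injective_iff_bijective.1 hinj)
  have hσ_apply : ∀ i, σ i = π i := fun _ => rfl
  let c : Finset GolayPt := Finset.univ.filter
    (fun j => ((g • lE (σ.symm j) : ↥leechLattice) : GolayPt → ℤ) = -vE j)
  have hform : ∀ v : ↥leechLattice, ((g • v : ↥leechLattice) : GolayPt → ℤ) = signedPerm σ c v.1 := by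
    intro v
    funext j
    obtain ⟨i, rfl⟩ := σ.surjective j
    have e1 := Co0_dot g v (lE i)
    have e2 : dotInt (v : GolayPt → ℤ) ((lE i : ↥leechLattice) : GolayPt → ℤ) = 8 * v.1 i :=
      dot_vE _ _
    rw [e2] at e1
    show _ = if σ i ∈ c then -v.1 (σ.symm (σ i)) else v.1 (σ.symm (σ i))
    rw [Equiv.symm_apply_apply]
    by_cases hc : σ i ∈ c
    · rw [if_pos hc]
      have hc' := (Finset.mem_filter.1 hc).2
      rw [Equiv.symm_apply_apply] at hc'
      rw [hc'] at e1
      have e3 : dotInt ((g • v : ↥leechLattice) : GolayPt → ℤ) (-vE (σ i)) =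
          -(8 * ((g • v : ↥leechLattice) : GolayPt → ℤ) (σ i)) := by
        rw [← dot_vE]
        unfold dotInt
        rw [← Finset.sum_neg_distrib]
        apply Finset.sum_congr rfl
        intro j _
        simp
      rw [e3] at e1
      omega
    · rw [if_neg hc]
      have hc' : ((g • lE i : ↥leechLattice) : GolayPt → ℤ) = vE (σ i) := by
        rcases hπ i with h | h
        · exact h
        · exfalso
          apply hc
          rw [Finset.mem_filter, Equiv.symm_apply_apply]
          exact ⟨Finset.mem_univ _, h⟩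
      rw [hc', dot_vE] at e1
      omega
  have hσ : σ ∈ M24 := by
    rw [mem_M24_iff]
    intro A hA
    have hm : ((g • (⟨vSet A, vSet_mem hA⟩ : ↥leechLattice) : ↥leechLattice) : GolayPt → ℤ) ∈
        leechLattice := Subtype.property _
    rw [hform] at hm
    have hval : ∀ j, signedPerm σ c (vSet A) j % 4 = if j ∈ σ • A then 2 else 0 := by
      intro j
      have hj : j ∈ σ • A ↔ σ.symm j ∈ A := by
        rw [← Finset.inv_smul_mem_iff]; rfl
      simp only [signedPerm, vSet]
      by_cases h : σ.symm j ∈ A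
      · rw [if_pos (hj.2 h)]
        split <;> simp [h]
      · rw [if_neg (fun h' => h (hj.1 h'))]
        split <;> simp [h]
    have hres : resSet (signedPerm σ c (vSet A)) 2 = σ • A := by
      ext j
      rw [mem_resSet, hval]
      by_cases h : j ∈ σ • A <;> simp [h]
    rcases mem_leech_cases hm with ⟨-, -, h3⟩ | ⟨h1, -, -⟩
    · rw [← hres]; exact h3
    · have h0 : signedPerm σ c (vSet A) none % 2 = 1 := h1 none
      have h2 := hval none
      generalize signedPerm σ c (vSet A) none = a at h0 h2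
      split at h2 <;> omega
  have hc : c ∈ CS := by
    have hm : ((g • (⟨vOdd none, vOdd_mem none⟩ : ↥leechLattice) : ↥leechLattice) : GolayPt → ℤ) ∈
        leechLattice := Subtype.property _
    rw [hform] at hm
    have hval : ∀ j, signedPerm σ c (vOdd none) j % 4 = if j ∈ c then 3 else 1 := by
      intro j
      simp only [signedPerm, vOdd]
      by_cases h : j ∈ c
      · rw [if_pos h, if_pos h]
        split <;> rfl
      · rw [if_neg h, if_neg h]
        split <;> rfl
    have hres : resSet (signedPerm σ c (vOdd none)) 3 = c := by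
      ext j
      rw [mem_resSet, hval]
      by_cases h : j ∈ c <;> simp [h]
    rcases mem_leech_cases hm with ⟨h1, -, -⟩ | ⟨-, -, h3⟩
    · have h0 : signedPerm σ c (vOdd none) none % 2 = 0 := h1 none
      have h2 := hval none
      generalize signedPerm σ c (vOdd none) none = a at h0 h2
      split at h2 <;> omega
    · rw [← hres]; exact h3
  exact ⟨σ, hσ, c, hc, Co0_ext (fun v => by rw [hform, monoCo0_smul])⟩

theorem monoCo0_injective {σ σ' : Equiv.Perm GolayPt} {hσ : σ ∈ M24} {hσ' : σ' ∈ M24}
    {c c' : Finset GolayPt} {hc : c ∈ CS} {hc' : c' ∈ CS}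
    (h : monoCo0 σ hσ c hc = monoCo0 σ' hσ' c' hc') : σ = σ' ∧ c = c' := by
  have h1 : ∀ i, signedPerm σ c (vE i) = signedPerm σ' c' (vE i) := by
    intro i
    have := congrArg (fun g : ↥Co0 => ((g • lE i : ↥leechLattice) : GolayPt → ℤ)) h
    exact this
  have hσσ : ∀ i, σ i = σ' i := by
    intro i
    have := h1 i
    rw [signedPerm_vE, signedPerm_vE] at this
    apply vE_injective
    split at this <;> split at this
    · left; exact neg_injective this
    · right; rw [← this, neg_neg]
    · right; exact this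
    · left; exact this
  have e : σ = σ' := Equiv.ext hσσ
  refine ⟨e, ?_⟩
  subst e
  ext j
  obtain ⟨i, rfl⟩ := σ.surjective j
  have := h1 i
  rw [signedPerm_vE, signedPerm_vE] at this
  have hne : vE (σ i) ≠ -vE (σ i) := by
    intro h
    have := congrFun h (σ i)
    rw [Pi.neg_apply, vE_apply, if_pos rfl] at this
    norm_num at this
  by_cases h1 : σ i ∈ c <;> by_cases h2 : σ i ∈ c'
  · exact ⟨fun _ => h2, fun _ => h1⟩
  · rw [if_pos h1, if_neg h2] at this
    exact absurd this.symm hne
  · rw [if_neg h1, if_pos h2] at this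
    exact absurd this hne
  · exact ⟨fun h => absurd h h1, fun h => absurd h h2⟩

theorem card_pres : Nat.card {g : ↥Co0 // PresCross g} = 4096 * 244823040 := by
  have e : (↥M24 × ↥(CS : Set (Finset GolayPt))) ≃ {g : ↥Co0 // PresCross g} :=
    Equiv.ofBijective
      (fun p => ⟨monoCo0 p.1.1 p.1.2 p.2.1 p.2.2, monoCo0_pres p.1.1 p.1.2 p.2.1 p.2.2⟩) (by
      constructor
      · rintro ⟨⟨σ, hσ⟩, ⟨c, hc⟩⟩ ⟨⟨σ', hσ'⟩, ⟨c', hc'⟩⟩ h
        obtain ⟨rfl, rfl⟩ := monoCo0_injective (congrArg Subtype.val h)
        rfl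
      · rintro ⟨g, hg⟩
        obtain ⟨σ, hσ, c, hc, rfl⟩ := exists_mono_of_pres hg
        exact ⟨⟨⟨σ, hσ⟩, ⟨c, hc⟩⟩, rfl⟩)
  rw [← Nat.card_congr e, Nat.card_prod, card_M24, Nat.card_coe_set_eq, ncard_supports, mul_comm]

end Cfsg.Agent.Lib.Helper11
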