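import Mathlib
import Cfsg.Agent.S1570
import Cfsg.Agent.Lib.Helper3.Leech48
import Cfsg.Agent.Lib.Helper11.LeechGen
import Cfsg.Agent.Lib.Helper11.LeechT2

set_option autoImplicit false

namespace Cfsg.Agent.Lib.Helper11

open Cfsg Cfsg.Agent.Lib.Helper3

theorem norm_cases {y : GolayPt → ℤ} (hy : y ∈ leechLattice) (hn : sqNorm y ≤ 64) :
    y = 0 ∨ sqNorm y = 32 ∨ sqNorm y = 48 ∨ sqNorm y = 64 := by
  by_cases h0 : y = 0
  · exact Or.inl h0
  · have h1 := min_norm hy h0
    have h2 := sixteen_dvd_sqNorm hy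
    omega

/-- short representatives modulo twice the lattice. -/
theorem short_rep (v : ↥leechLattice) : ∃ y z : ↥leechLattice, v = y + (z + z) ∧
    (y = 0 ∨ sqNorm y.1 = 32 ∨ sqNorm y.1 = 48 ∨ sqNorm y.1 = 64) := by
  obtain ⟨y, hy, hn, z, hz, e⟩ := Cfsg.Agent.S1570.result v.1 v.2
  refine ⟨⟨y, hy⟩, ⟨z, hz⟩, Subtype.ext ?_, ?_⟩
  · show v.1 = y + (z + z)
    rw [← two_nsmul, ← e]; abel
  · rcases norm_cases hy hn with h | h | h | h
    · exact Or.inl (Subtype.ext h)
    · exact Or.inr (Or.inl h)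
    · exact Or.inr (Or.inr (Or.inl h))
    · exact Or.inr (Or.inr (Or.inr h))

/-- transitivity on the short vectors of a given norm. -/
theorem rel_of_norm {x y : GolayPt → ℤ} (hx : x ∈ leechLattice) (hy : y ∈ leechLattice)
    (h : sqNorm x = sqNorm y) (hN : sqNorm x = 32 ∨ sqNorm x = 48 ∨ sqNorm x = 64) : Rel x y := by
  rcases hN with hN | hN | hN
  · exact (rel32 hx hN).trans (rel32 hy (h.symm.trans hN)).symm
  · exact (Lee.rel48 hx hN).trans (Lee.rel48 hy (h.symm.trans hN)).symm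
  · exact (Lee.rel64 hx hN).trans (Lee.rel64 hy (h.symm.trans hN)).symm

theorem vTwo_self : vTwo none none 4 (-4) = 0 := by
  funext j
  rw [vTwo_apply]
  split <;> simp

theorem vE_eq_sub : vE none = vTwo (pt 0) none 4 4 - vTwo (pt 0) none 4 (-4) := by
  funext j
  rw [Pi.sub_apply, vTwo_apply, vTwo_apply, vE_apply]
  split <;> split <;> simp

/-- the minimal vectors generate the lattice. -/
theorem gen_of_min (M : AddSubgroup (GolayPt → ℤ))
    (h : ∀ m ∈ leechLattice, sqNorm m = 32 → m ∈ M) : leechLattice ≤ M := by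
  have hp : pt 0 ≠ (none : GolayPt) := by decide
  apply leech_le_of_gens M none
  · exact h _ (vOdd_mem none) (sqNorm_vOdd none)
  · intro b hb
    exact h _ (vSet_mem (basis_octads b hb).1) (by rw [sqNorm_vSet, (basis_octads b hb).2]; norm_num)
  · intro i
    by_cases hi : i = none
    · subst hi
      rw [vTwo_self]; exact M.zero_mem
    · exact h _ (vTwo_mem _ _ rfl rfl rfl) (by rw [sqNorm_vTwo hi]; norm_num)
  · rw [vE_eq_sub]
    exact M.sub_mem (h _ (vTwo_mem _ _ rfl rfl rfl) (by rw [sqNorm_vTwo hp]; norm_num))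
      (h _ (vTwo_mem _ _ rfl rfl rfl) (by rw [sqNorm_vTwo hp]; norm_num))

end Cfsg.Agent.Lib.Helper11
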