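import Mathlib
import Cfsg.Agent.Lib.Helper11.ChainLib

set_option autoImplicit false
set_option exponentiation.threshold 20000

namespace Cfsg.Agent.Lib.Helper11

open Cfsg Cfsg.Agent.Lib.Helper3
open scoped Pointwise

/-- an entry of a packed table of numbers of 576 bits. -/
def slot (BIG i : ℕ) : ℕ := Nat.land (Nat.shiftRight BIG (Nat.mul 576 i)) (Nat.sub (Nat.pow 2 576) 1)

/-- the list of the entries. -/
def slotL (BIG N : ℕ) : List ℕ := (List.range N).map (slot BIG)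

theorem slotL_length (BIG N : ℕ) : (slotL BIG N).length = N := by
  unfold slotL; simp

/-- an index from a perfect hash table. -/
def ixF (TBL DISP p1 p2 M n : ℕ) : ℕ :=
  Nat.land (Nat.shiftRight TBL (Nat.mul 16 (Nat.mod (Nat.add (Nat.mod n p2)
    (Nat.land (Nat.shiftRight DISP (Nat.mul 20 (Nat.mod n p1))) 0xFFFFF)) M))) 0xFFFF

/-- membership test. -/
def memS (BIG N : ℕ) (ix : ℕ → ℕ) (n : ℕ) : Bool :=
  force (ix n) fun i => Nat.blt i N && Nat.beq (slot BIG i) n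

theorem memS_sound {BIG N : ℕ} {ix : ℕ → ℕ} {n : ℕ} (h : memS BIG N ix n = true) :
    n ∈ slotL BIG N := by
  unfold memS at h
  rw [force_eq, Bool.and_eq_true, Nat.blt_eq] at h
  unfold slotL
  rw [List.mem_map]
  exact ⟨ix n, List.mem_range.2 h.1, Nat.eq_of_beq_eq_true h.2⟩

/-- completeness of a list from a computation. -/
theorem lvl_complete {Tb R0 : ℕ} {tts0 : ℕ → ℕ} {t0 : ℕ → ℤ} (hR0 : R0 ≤ 24)
    (htt0 : chkTT Tb R0 tts0 t0 = true) {mem : ℕ → Bool} {l : List ℕ}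
    (hs : ∀ n, mem n = true → n ∈ l)
    (hmem : allL2 (fun n => bif condAll Tb R0 tts0 n then mem n else true) = true) :
    ∀ w ∈ leechLattice, sqNorm w = 32 → (∀ r < R0, dotInt (bvec Tb r) w = t0 r) → encV w ∈ l := by
  intro w hw hn hd
  have h := allL2_sound hmem hw hn
  have h2 : condAll Tb R0 tts0 (encV w) = true :=
    (condAll_iff hR0 (chkTT_sound htt0).1 (inR_of_32 hn)).2 hd
  have h3 : (bif condAll Tb R0 tts0 (encV w) then mem (encV w) else true) = true := h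
  rw [h2, cond_true] at h3
  exact hs _ h3

/-- passage to a deeper level. -/
theorem lvl_hl {Tb R0 : ℕ} {t0 : ℕ → ℤ} {l : List ℕ}
    (hc : ∀ w ∈ leechLattice, sqNorm w = 32 → (∀ r < R0, dotInt (bvec Tb r) w = t0 r) → encV w ∈ l)
    {R : ℕ} (hR : R0 ≤ R) {t : ℕ → ℤ} (ht : ∀ r < R0, t r = t0 r) :
    ∀ w ∈ leechLattice, sqNorm w = 32 → (∀ r < R, dotInt (bvec Tb r) w = t r) → encV w ∈ l := by
  intro w hw hn h
  apply hc w hw hn
  intro r hr
  exact (h r (lt_of_lt_of_le hr hR)).trans (ht r hr)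

/-- counting inside a complete list. -/
theorem lvl_count {Tb R0 : ℕ} {tts0 : ℕ → ℕ} {t0 : ℕ → ℤ} (hR0 : R0 ≤ 24)
    (htt0 : chkTT Tb R0 tts0 t0 = true) {l : List ℕ}
    (hc : ∀ w ∈ leechLattice, sqNorm w = 32 → (∀ r < R0, dotInt (bvec Tb r) w = t0 r) → encV w ∈ l)
    (hn : cntL2 (condAll Tb R0 tts0) = l.length)
    {R : ℕ} (hR : R0 ≤ R) (hR' : R ≤ 24) {tts : ℕ → ℕ} {t : ℕ → ℤ} (ht : ∀ r < R0, t r = t0 r)
    (htt : chkTT Tb R tts t = true) :
    {x : GolayPt → ℤ | x ∈ leechLattice ∧ sqNorm x = 32 ∧ ∀ r < R, dotInt (bvec Tb r) x = t r}.ncard =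
      l.countP (condAll Tb R tts) := by
  have hS : {w : GolayPt → ℤ | w ∈ leechLattice ∧ sqNorm w = 32 ∧
      ∀ r < R0, dotInt (bvec Tb r) w = t0 r}.ncard = l.length := (count_of_check hR0 htt0).trans hn
  have h := list_count (S := {w : GolayPt → ℤ | w ∈ leechLattice ∧ sqNorm w = 32 ∧
      ∀ r < R0, dotInt (bvec Tb r) w = t0 r})
    (fun w hw => inR_of_32 hw.2.1) l (fun w hw => hc w hw.1 hw.2.1 hw.2.2) hS (condAll Tb R tts)
  refine Eq.trans ?_ h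
  have e : {x : GolayPt → ℤ | x ∈ leechLattice ∧ sqNorm x = 32 ∧
      ∀ r < R, dotInt (bvec Tb r) x = t r} = {w : GolayPt → ℤ | w ∈ {w : GolayPt → ℤ |
        w ∈ leechLattice ∧ sqNorm w = 32 ∧ ∀ r < R0, dotInt (bvec Tb r) w = t0 r} ∧
        condAll Tb R tts (encV w) = true} := by
    ext x
    constructor
    · rintro ⟨h1, h2, h3⟩
      exact ⟨⟨h1, h2, fun r hr => (h3 r (lt_of_lt_of_le hr hR)).trans (ht r hr)⟩,
        (condAll_iff hR' (chkTT_sound htt).1 (inR_of_32 h2)).2 h3⟩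
    · rintro ⟨⟨h1, h2, _⟩, h4⟩
      exact ⟨h1, h2, (condAll_iff hR' (chkTT_sound htt).1 (inR_of_32 h2)).1 h4⟩
  exact congrArg Set.ncard e

/-- an orbit of a two-vector stabiliser. -/
theorem orbit_eq2 (u x y : ↥leechLattice) (T : Set ↥leechLattice)
    (hinv : ∀ g : ↥Co0, g • u = u → g • x = x → ∀ y' ∈ T, g • y' ∈ T) (hy : y ∈ T)
    (htr : ∀ y' ∈ T, ∃ g : ↥Co0, g • u = u ∧ g • x = x ∧ g • y = y') :
    MulAction.orbit ↥(MulAction.stabilizer ↥Co0 u ⊓ MulAction.stabilizer ↥Co0 x) y = T := by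
  ext z
  constructor
  · rintro ⟨⟨g, hg1, hg2⟩, rfl⟩
    exact hinv g hg1 hg2 y hy
  · intro hz
    obtain ⟨g, h1, h2, h3⟩ := htr z hz
    exact ⟨⟨g, h1, h2⟩, h3⟩

/-- an orbit of a three-vector stabiliser. -/
theorem orbit_eq3 (u v x y : ↥leechLattice) (T : Set ↥leechLattice)
    (hinv : ∀ g : ↥Co0, g • u = u → g • v = v → g • x = x → ∀ y' ∈ T, g • y' ∈ T) (hy : y ∈ T)
    (htr : ∀ y' ∈ T, ∃ g : ↥Co0, g • u = u ∧ g • v = v ∧ g • x = x ∧ g • y = y') :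
    MulAction.orbit ↥(MulAction.stabilizer ↥Co0 u ⊓ MulAction.stabilizer ↥Co0 v ⊓
      MulAction.stabilizer ↥Co0 x) y = T := by
  ext z
  constructor
  · rintro ⟨⟨g, ⟨hg1, hg2⟩, hg3⟩, rfl⟩
    exact hinv g hg1 hg2 hg3 y hy
  · intro hz
    obtain ⟨g, h1, h2, h3, h4⟩ := htr z hz
    exact ⟨⟨g, ⟨h1, h2⟩, h3⟩, h4⟩

end Cfsg.Agent.Lib.Helper11
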