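import Mathlib
import Cfsg.Agent.Lib.Helper11.LevelLib

set_option autoImplicit false
set_option exponentiation.threshold 20000

namespace Cfsg.Agent.Lib.Helper11

open Cfsg Cfsg.Agent.Lib.Helper3
open scoped Pointwise

/-- an entry of a table of numbers of 576 bits, cut in pieces of 50 entries. -/
def slotC (CH : List ℕ) (i : ℕ) : ℕ := slot (CH.getD (Nat.div i 50) 0) (Nat.mod i 50)

/-- the list of the entries. -/
def slotCL (CH : List ℕ) (N : ℕ) : List ℕ := (List.range N).map (slotC CH)

theorem slotCL_length (CH : List ℕ) (N : ℕ) : (slotCL CH N).length = N := by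
  unfold slotCL; simp

/-- membership test. -/
def memC (CH : List ℕ) (N : ℕ) (ix : ℕ → ℕ) (n : ℕ) : Bool :=
  force (ix n) fun i => Nat.blt i N && Nat.beq (slotC CH i) n

theorem memC_sound {CH : List ℕ} {N : ℕ} {ix : ℕ → ℕ} {n : ℕ} (h : memC CH N ix n = true) :
    n ∈ slotCL CH N := by
  unfold memC at h
  rw [force_eq, Bool.and_eq_true, Nat.blt_eq] at h
  unfold slotCL
  rw [List.mem_map]
  exact ⟨ix n, List.mem_range.2 h.1, Nat.eq_of_beq_eq_true h.2⟩

end Cfsg.Agent.Lib.Helper11
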