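import Mathlib
import Cfsg.Agent.Lib.Helper11.ZNegData
set_option autoImplicit false
set_option maxRecDepth 100000
namespace Cfsg.Agent.Lib.Helper11
open Cfsg Cfsg.Agent.Lib.Helper3
theorem zn_mem0 : allPart znQ (256 * 0) = true := by decide +kernel
theorem zn_cnt0 : cntPart (condAll chH 1 zntts) (256 * 0) = 1250 := by decide +kernel
theorem zn_mem1 : allPart znQ (256 * 1) = true := by decide +kernel
theorem zn_cnt1 : cntPart (condAll chH 1 zntts) (256 * 1) = 808 := by decide +kernel
theorem zn_mem2 : allPart znQ (256 * 2) = true := by decide +kernel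
theorem zn_cnt2 : cntPart (condAll chH 1 zntts) (256 * 2) = 808 := by decide +kernel
theorem zn_mem3 : allPart znQ (256 * 3) = true := by decide +kernel
theorem zn_cnt3 : cntPart (condAll chH 1 zntts) (256 * 3) = 592 := by decide +kernel
end Cfsg.Agent.Lib.Helper11
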