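import Mathlib
import Cfsg.Agent.Lib.Helper11.ZNegData
set_option autoImplicit false
set_option maxRecDepth 100000
namespace Cfsg.Agent.Lib.Helper11
open Cfsg Cfsg.Agent.Lib.Helper3
theorem zn_mem8 : allPart znQ (256 * 8) = true := by decide +kernel
theorem zn_cnt8 : cntPart (condAll chH 1 zntts) (256 * 8) = 809 := by decide +kernel
theorem zn_mem9 : allPart znQ (256 * 9) = true := by decide +kernel
theorem zn_cnt9 : cntPart (condAll chH 1 zntts) (256 * 9) = 592 := by decide +kernel
theorem zn_mem10 : allPart znQ (256 * 10) = true := by decide +kernel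
theorem zn_cnt10 : cntPart (condAll chH 1 zntts) (256 * 10) = 592 := by decide +kernel
theorem zn_mem11 : allPart znQ (256 * 11) = true := by decide +kernel
theorem zn_cnt11 : cntPart (condAll chH 1 zntts) (256 * 11) = 600 := by decide +kernel
end Cfsg.Agent.Lib.Helper11
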