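import Mathlib
import Cfsg.Agent.Lib.Helper11.ZNegData
set_option autoImplicit false
set_option maxRecDepth 100000
namespace Cfsg.Agent.Lib.Helper11
open Cfsg Cfsg.Agent.Lib.Helper3
theorem zn_mem12 : allPart znQ (256 * 12) = true := by decide +kernel
theorem zn_cnt12 : cntPart (condAll chH 1 zntts) (256 * 12) = 592 := by decide +kernel
theorem zn_mem13 : allPart znQ (256 * 13) = true := by decide +kernel
theorem zn_cnt13 : cntPart (condAll chH 1 zntts) (256 * 13) = 600 := by decide +kernel
theorem zn_mem14 : allPart znQ (256 * 14) = true := by decide +kernel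
theorem zn_cnt14 : cntPart (condAll chH 1 zntts) (256 * 14) = 600 := by decide +kernel
theorem zn_mem15 : allPart znQ (256 * 15) = true := by decide +kernel
theorem zn_cnt15 : cntPart (condAll chH 1 zntts) (256 * 15) = 721 := by decide +kernel
end Cfsg.Agent.Lib.Helper11
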