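import Mathlib
import Cfsg.Agent.Lib.Helper11.ZNegP0
import Cfsg.Agent.Lib.Helper11.ZNegP1
import Cfsg.Agent.Lib.Helper11.ZNegP2
import Cfsg.Agent.Lib.Helper11.ZNegP3
import Cfsg.Agent.Lib.Helper11.L2Parts2
set_option autoImplicit false
set_option maxRecDepth 100000
namespace Cfsg.Agent.Lib.Helper11
open Cfsg Cfsg.Agent.Lib.Helper3
theorem zn_mem : allL2 (fun n => bif condAll chH 1 zntts n then memC znBIG 11178 znix n else true) = true := by
  apply allL2_of_parts
  intro i hi
  interval_cases i
  · exact zn_mem0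
  · exact zn_mem1
  · exact zn_mem2
  · exact zn_mem3
  · exact zn_mem4
  · exact zn_mem5
  · exact zn_mem6
  · exact zn_mem7
  · exact zn_mem8
  · exact zn_mem9
  · exact zn_mem10
  · exact zn_mem11
  · exact zn_mem12
  · exact zn_mem13
  · exact zn_mem14
  · exact zn_mem15
theorem zn_cnt : cntL2 (condAll chH 1 zntts) = 11178 := by
  have h := cntL2_of_parts (Q := condAll chH 1 zntts) (f := fun i => [1250, 808, 808, 592, 814, 600, 600, 600, 809, 592, 592, 600, 592, 600, 600, 721].getD i 0) (by
    intro i hi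
    interval_cases i
    · exact zn_cnt0
    · exact zn_cnt1
    · exact zn_cnt2
    · exact zn_cnt3
    · exact zn_cnt4
    · exact zn_cnt5
    · exact zn_cnt6
    · exact zn_cnt7
    · exact zn_cnt8
    · exact zn_cnt9
    · exact zn_cnt10
    · exact zn_cnt11
    · exact zn_cnt12
    · exact zn_cnt13
    · exact zn_cnt14
    · exact zn_cnt15
    )
  rw [h]
  decide
end Cfsg.Agent.Lib.Helper11
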