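import Mathlib
import Cfsg.Agent.Lib.Helper11.ChainThms
import Cfsg.Agent.Lib.Helper11.ZNeg
import Cfsg.Agent.Lib.Helper11.ZNegLv

set_option autoImplicit false
set_option maxRecDepth 100000

namespace Cfsg.Agent.Lib.Helper11

open Cfsg Cfsg.Agent.Lib.Helper3
open scoped Pointwise

theorem dotInt_neg_left (x y : GolayPt → ℤ) : dotInt (-x) y = -dotInt x y := by
  unfold dotInt
  rw [← Finset.sum_neg_distrib]
  exact Finset.sum_congr rfl (fun i _ => by simp)

theorem dotInt_neg_right (x y : GolayPt → ℤ) : dotInt x (-y) = -dotInt x y := by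
  rw [dotInt_comm, dotInt_neg_left, dotInt_comm]

/-! ### the 11178 vectors -/

theorem zn_complete : ∀ w ∈ leechLattice, sqNorm w = 32 →
    (∀ r < 1, dotInt (bvec chH r) w = znt r) → encV w ∈ slotCL znBIG 11178 :=
  lvl_complete (by norm_num) zn_htt (fun _ => memC_sound) zn_mem

theorem zn_len : cntL2 (condAll chH 1 zntts) = (slotCL znBIG 11178).length := by
  rw [slotCL_length]; exact zn_cnt

theorem zna_trans : ∀ x x' : GolayPt → ℤ, x ∈ leechLattice → sqNorm x = 32 →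
    (∀ r < 1, dotInt (bvec chH r) x = znat r) → x' ∈ leechLattice → sqNorm x' = 32 →
    (∀ r < 1, dotInt (bvec chH r) x' = znat r) → RelB (baseSet chH 1) x x' :=
  fun _ _ hw hn hP hw' hn' hP' => descent_of_list (by norm_num) co3h_hg zna_htt znark znan0 _
    (lvl_hl zn_complete (le_refl 1) (fun _ _ => rfl)) zna_hall hw hn hP hw' hn' hP'

theorem zn_count (u : ↥leechLattice) (hu : sqNorm u.1 = 48) :
    {x : ↥leechLattice | sqNorm x.1 = 32 ∧ dotInt u.1 x.1 = -16}.ncard = 11178 := by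
  obtain ⟨h, hh⟩ := base1 chH0 (sel3 u u u) hu
  refine Eq.trans ?_ ((ncard_gen (bvec chH) (sel3 u u u) h hh znt).trans
    ((count_of_check (by norm_num) zn_htt).trans zn_cnt))
  congr 1
  ext y
  exact and_congr_right (fun _ =>
    (forall_lt_one (P := fun r => dotInt (sel3 u u u r).1 y.1 = znt r)).symm)

theorem zn_trans (u : ↥leechLattice) (hu : sqNorm u.1 = 48) (x x' : ↥leechLattice)
    (hx : sqNorm x.1 = 32) (hd : dotInt u.1 x.1 = -16) (hx' : sqNorm x'.1 = 32)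
    (hd' : dotInt u.1 x'.1 = -16) : ∃ g : ↥Co0, g • u = u ∧ g • x = x' := by
  obtain ⟨h, hh⟩ := base1 chH0 (sel3 u u u) hu
  obtain ⟨g, hg1, hg2⟩ := trans_gen (bvec chH) (baseSet_mem chH 1) (sel3 u u u) h hh znat zna_trans
    x x' hx hx' (forall_lt_one.2 hd) (forall_lt_one.2 hd')
  exact ⟨g, hg1 0 (by norm_num), hg2⟩

/-- a level set. -/
def lev (u x : ↥leechLattice) (s : ℤ) : Set ↥leechLattice :=
  {y | sqNorm y.1 = 32 ∧ dotInt u.1 y.1 = -16 ∧ dotInt x.1 y.1 = -s}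

theorem neg_val (x : ↥leechLattice) : (-x).1 = -x.1 := rfl

theorem zn_base (u x : ↥leechLattice) (hu : sqNorm u.1 = 48) (hx : sqNorm x.1 = 32)
    (hd : dotInt u.1 x.1 = -16) :
    ∃ h : ↥Co0, ∀ r < 2, ((h • sel3 u (-x) u r : ↥leechLattice) : GolayPt → ℤ) = bvec chH r :=
  chH_base2 (sel3 u (-x) u) hu (by show sqNorm (-x).1 = 32; rw [neg_val, sqNorm_neg]; exact hx)
    (by
      show dotInt u.1 (-x).1 = 16
      rw [neg_val, dotInt_neg_right, hd]; norm_num)

theorem lev_eq (u x : ↥leechLattice) (t : ℕ → ℤ) (ht0 : t 0 = -16) :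
    lev u x (t 1) = {y : ↥leechLattice | sqNorm y.1 = 32 ∧
      ∀ r < 2, dotInt (sel3 u (-x) u r).1 y.1 = t r} := by
  ext y
  constructor
  · rintro ⟨a, b, c⟩
    refine ⟨a, forall_lt_two.2 ⟨b.trans ht0.symm, ?_⟩⟩
    show dotInt (-x).1 y.1 = t 1
    rw [neg_val, dotInt_neg_left, c]; ring
  · rintro ⟨a, b⟩
    obtain ⟨b0, b1⟩ := forall_lt_two.1 b
    refine ⟨a, b0.trans ht0, ?_⟩
    have b1' : dotInt (-x).1 y.1 = t 1 := b1
    rw [neg_val, dotInt_neg_left] at b1'
    omega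

theorem fix_of_neg {g : ↥Co0} {x : ↥leechLattice} (h : g • (-x) = -x) : g • x = x := by
  rw [Co0_neg] at h
  exact neg_injective h

theorem zlev {rk : ℕ → ℕ} {n0 : ℕ} {tts : ℕ → ℕ} {t : ℕ → ℤ} {c : ℕ}
    (htt : chkTT chH 2 tts t = true) (ht0 : t 0 = -16)
    (hall : (slotCL znBIG 11178).all
      (fun n => bif condAll chH 2 tts n then stepOK hsTs rk n0 n else true) = true)
    (hcnt : (slotCL znBIG 11178).countP (condAll chH 2 tts) = c) (hc : c ≠ 0)
    (u x : ↥leechLattice) (hu : sqNorm u.1 = 48) (hx : sqNorm x.1 = 32)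
    (hd : dotInt u.1 x.1 = -16) :
    ∃ y : ↥leechLattice, y ∈ lev u x (t 1) ∧
      MulAction.orbit ↥(MulAction.stabilizer ↥Co0 u ⊓ MulAction.stabilizer ↥Co0 x) y =
        lev u x (t 1) ∧ (lev u x (t 1)).ncard = c := by
  obtain ⟨h, hh⟩ := zn_base u x hu hx hd
  have ht : ∀ r < 1, t r = znt r := forall_lt_one.2 ht0
  have hn : (lev u x (t 1)).ncard = c := by
    rw [lev_eq u x t ht0]
    exact (ncard_gen (bvec chH) (sel3 u (-x) u) h hh t).trans
      ((lvl_count (by norm_num) zn_htt zn_complete zn_len (by norm_num) (by norm_num) ht htt).trans hcnt)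
  have hne : (lev u x (t 1)).Nonempty := Set.nonempty_of_ncard_ne_zero (by rw [hn]; exact hc)
  obtain ⟨y, hy⟩ := hne
  refine ⟨y, hy, ?_, hn⟩
  apply orbit_eq2 u x y _ _ hy
  · intro y' hy'
    rw [lev_eq u x t ht0] at hy hy'
    obtain ⟨g, hg1, hg2⟩ := trans_gen (bvec chH) (baseSet_mem chH 2) (sel3 u (-x) u) h hh t
      (fun _ _ hw hn hP hw' hn' hP' => descent_of_list (by norm_num) hs_hg htt rk n0 _
        (lvl_hl zn_complete (by norm_num) ht) hall hw hn hP hw' hn' hP')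
      y y' hy.1 hy'.1 hy.2 hy'.2
    exact ⟨g, hg1 0 (by norm_num), fix_of_neg (hg1 1 (by norm_num)), hg2⟩
  · rintro g hg1 hg2 y' ⟨a, b, c⟩
    refine ⟨by rw [Co0_sqNorm]; exact a, ?_, ?_⟩
    · have := Co0_dot g u y'
      rw [hg1] at this
      rw [this]; exact b
    · have := Co0_dot g x y'
      rw [hg2] at this
      rw [this]; exact c

theorem chH_negenc : encV (-(bvec chH 1)) = encNZ := by decide +kernel

theorem zn_union_base {w : GolayPt → ℤ} (hw : w ∈ leechLattice) (hn : sqNorm w = 32)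
    (h : dotInt (bvec chH 0) w = -16) :
    dotInt (bvec chH 1) w = 8 ∨ dotInt (bvec chH 1) w = 0 ∨ dotInt (bvec chH 1) w = -8 ∨
      dotInt (bvec chH 1) w = -16 ∨ w = -(bvec chH 1) := by
  have h1 := zn_union
  rw [List.all_eq_true] at h1
  have h2 := h1 _ (zn_complete w hw hn (forall_lt_one.2 h))
  simp only [Bool.or_eq_true] at h2
  have hr := inR_of_32 hn
  rcases h2 with (((h2 | h2) | h2) | h2) | h2
  · exact Or.inl ((condAll_iff (by norm_num) (chkTT_sound znb_htt).1 hr).1 h2 1 (by norm_num))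
  · exact Or.inr (Or.inl ((condAll_iff (by norm_num) (chkTT_sound znc_htt).1 hr).1 h2 1 (by norm_num)))
  · exact Or.inr (Or.inr (Or.inl
      ((condAll_iff (by norm_num) (chkTT_sound znd_htt).1 hr).1 h2 1 (by norm_num))))
  · exact Or.inr (Or.inr (Or.inr (Or.inl
      ((condAll_iff (by norm_num) (chkTT_sound zne_htt).1 hr).1 h2 1 (by norm_num)))))
  · refine Or.inr (Or.inr (Or.inr (Or.inr (encV_inj hr
      (inR_of_32 (by rw [sqNorm_neg]; exact chH_norm1)) ?_))))
    rw [chH_negenc]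
    exact Nat.eq_of_beq_eq_true h2

theorem zn_union' (u x : ↥leechLattice) (hu : sqNorm u.1 = 48) (hx : sqNorm x.1 = 32)
    (hd : dotInt u.1 x.1 = -16) (y : ↥leechLattice) (hy : sqNorm y.1 = 32)
    (hdy : dotInt u.1 y.1 = -16) :
    y = x ∨ y ∈ lev u x 8 ∨ y ∈ lev u x (-16) ∨ y ∈ lev u x 0 ∨ y ∈ lev u x (-8) := by
  obtain ⟨h, hh⟩ := zn_base u x hu hx hd
  have e : ∀ r < 2, dotInt (bvec chH r) (h • y).1 = dotInt (sel3 u (-x) u r).1 y.1 := by
    intro r hr
    rw [← hh r hr, Co0_dot]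
  have e1 : dotInt (bvec chH 1) (h • y).1 = -dotInt x.1 y.1 := by
    rw [e 1 (by norm_num)]
    show dotInt (-x).1 y.1 = _
    rw [neg_val, dotInt_neg_left]
  have := zn_union_base (h • y).2 (by rw [Co0_sqNorm]; exact hy)
    (by rw [e 0 (by norm_num)]; exact hdy)
  rw [e1] at this
  rcases this with h1 | h1 | h1 | h1 | h1
  · exact Or.inr (Or.inl ⟨hy, hdy, by omega⟩)
  · exact Or.inr (Or.inr (Or.inr (Or.inl ⟨hy, hdy, by omega⟩)))
  · exact Or.inr (Or.inr (Or.inr (Or.inr ⟨hy, hdy, by omega⟩)))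
  · exact Or.inr (Or.inr (Or.inl ⟨hy, hdy, by omega⟩))
  · left
    rw [← hh 1 (by norm_num)] at h1
    have h2 : (h • y).1 = (h • x).1 := by
      rw [h1]
      show -(h • (-x)).1 = _
      rw [Co0_neg]
      show - -(h • x).1 = _
      rw [neg_neg]
    exact MulAction.injective h (Subtype.ext h2)

end Cfsg.Agent.Lib.Helper11
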