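import Mathlib
import Cfsg.Agent.Lib.Helper11.PNegData
set_option autoImplicit false
set_option maxRecDepth 100000
namespace Cfsg.Agent.Lib.Helper11
open Cfsg Cfsg.Agent.Lib.Helper3
theorem pn_mem8 : allPart pnQ (256 * 8) = true := by decide +kernel
theorem pn_cnt8 : cntPart (condAll chP 2 pntts) (256 * 8) = 220 := by decide +kernel
theorem pn_mem9 : allPart pnQ (256 * 9) = true := by decide +kernel
theorem pn_cnt9 : cntPart (condAll chP 2 pntts) (256 * 9) = 100 := by decide +kernel
theorem pn_mem10 : allPart pnQ (256 * 10) = true := by decide +kernel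
theorem pn_cnt10 : cntPart (condAll chP 2 pntts) (256 * 10) = 100 := by decide +kernel
theorem pn_mem11 : allPart pnQ (256 * 11) = true := by decide +kernel
theorem pn_cnt11 : cntPart (condAll chP 2 pntts) (256 * 11) = 36 := by decide +kernel
end Cfsg.Agent.Lib.Helper11
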