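import Mathlib
import Cfsg.Agent.Lib.Helper11.PNegData
set_option autoImplicit false
set_option maxRecDepth 100000
namespace Cfsg.Agent.Lib.Helper11
open Cfsg Cfsg.Agent.Lib.Helper3
theorem pn_mem12 : allPart pnQ (256 * 12) = true := by decide +kernel
theorem pn_cnt12 : cntPart (condAll chP 2 pntts) (256 * 12) = 100 := by decide +kernel
theorem pn_mem13 : allPart pnQ (256 * 13) = true := by decide +kernel
theorem pn_cnt13 : cntPart (condAll chP 2 pntts) (256 * 13) = 36 := by decide +kernel
theorem pn_mem14 : allPart pnQ (256 * 14) = true := by decide +kernel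
theorem pn_cnt14 : cntPart (condAll chP 2 pntts) (256 * 14) = 36 := by decide +kernel
theorem pn_mem15 : allPart pnQ (256 * 15) = true := by decide +kernel
theorem pn_cnt15 : cntPart (condAll chP 2 pntts) (256 * 15) = 10 := by decide +kernel
end Cfsg.Agent.Lib.Helper11
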