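import Mathlib
import Cfsg.Agent.Lib.Helper11.PNegP0
import Cfsg.Agent.Lib.Helper11.PNegP1
import Cfsg.Agent.Lib.Helper11.PNegP2
import Cfsg.Agent.Lib.Helper11.PNegP3
import Cfsg.Agent.Lib.Helper11.L2Parts2
set_option autoImplicit false
set_option maxRecDepth 100000
namespace Cfsg.Agent.Lib.Helper11
open Cfsg Cfsg.Agent.Lib.Helper3
theorem pn_mem : allL2 (fun n => bif condAll chP 2 pntts n then memS pnBIG 2025 pnix n else true) = true := by
  apply allL2_of_parts
  intro i hi
  interval_cases i
  · exact pn_mem0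
  · exact pn_mem1
  · exact pn_mem2
  · exact pn_mem3
  · exact pn_mem4
  · exact pn_mem5
  · exact pn_mem6
  · exact pn_mem7
  · exact pn_mem8
  · exact pn_mem9
  · exact pn_mem10
  · exact pn_mem11
  · exact pn_mem12
  · exact pn_mem13
  · exact pn_mem14
  · exact pn_mem15
theorem pn_cnt : cntL2 (condAll chP 2 pntts) = 2025 := by
  have h := cntL2_of_parts (Q := condAll chP 2 pntts) (f := fun i => [390, 220, 220, 100, 221, 100, 100, 36, 220, 100, 100, 36, 100, 36, 36, 10].getD i 0) (by
    intro i hi
    interval_cases i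
    · exact pn_cnt0
    · exact pn_cnt1
    · exact pn_cnt2
    · exact pn_cnt3
    · exact pn_cnt4
    · exact pn_cnt5
    · exact pn_cnt6
    · exact pn_cnt7
    · exact pn_cnt8
    · exact pn_cnt9
    · exact pn_cnt10
    · exact pn_cnt11
    · exact pn_cnt12
    · exact pn_cnt13
    · exact pn_cnt14
    · exact pn_cnt15
    )
  rw [h]
  decide
end Cfsg.Agent.Lib.Helper11
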