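import Mathlib
import Cfsg.Agent.Lib.Helper11.ChainThms
import Cfsg.Agent.Lib.Helper11.PNeg
import Cfsg.Agent.Lib.Helper11.PNegLv
import Cfsg.Agent.Lib.Helper11.HSInv

set_option autoImplicit false
set_option maxRecDepth 100000

namespace Cfsg.Agent.Lib.Helper11

open Cfsg Cfsg.Agent.Lib.Helper3
open scoped Pointwise
open Matrix

/-! ### the 2025 vectors -/

theorem chP01 : ∀ r < 2, bvec chP r = bvec chM r := by
  have : ∀ r < 2, ∀ i, bvec chP r i = bvec chM r i := by decide +kernel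
  exact fun r hr => funext (this r hr)

theorem pn_complete : ∀ w ∈ leechLattice, sqNorm w = 32 →
    (∀ r < 2, dotInt (bvec chP r) w = pnt r) → encV w ∈ slotL pnBIG 2025 :=
  lvl_complete (by norm_num) pn_htt (fun _ => memS_sound) pn_mem

theorem pn_len : cntL2 (condAll chP 2 pntts) = (slotL pnBIG 2025).length := by
  rw [slotL_length]; exact pn_cnt

theorem pna_trans : ∀ x x' : GolayPt → ℤ, x ∈ leechLattice → sqNorm x = 32 →
    (∀ r < 2, dotInt (bvec chP r) x = pnat r) → x' ∈ leechLattice → sqNorm x' = 32 →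
    (∀ r < 2, dotInt (bvec chP r) x' = pnat r) → RelB (baseSet chP 2) x x' :=
  fun _ _ hw hn hP hw' hn' hP' => descent_of_list (by norm_num) mclp_hg pna_htt pnark pnan0 _
    (lvl_hl pn_complete (le_refl 2) (fun _ _ => rfl)) pna_hall hw hn hP hw' hn' hP'

/-- the points. -/
def pset (v w : ↥leechLattice) : Set ↥leechLattice :=
  {x | sqNorm x.1 = 32 ∧ dotInt v.1 x.1 = 0 ∧ dotInt w.1 x.1 = 16}

theorem add_val (v w : ↥leechLattice) : (v + w).1 = v.1 + w.1 := rfl

theorem pn_base2 (v w c : ↥leechLattice) (hv : sqNorm v.1 = 32) (hw : sqNorm w.1 = 32)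
    (hvw : dotInt v.1 w.1 = -8) :
    ∃ h : ↥Co0, ∀ r < 2, ((h • sel3 (v + w) v c r : ↥leechLattice) : GolayPt → ℤ) = bvec chP r := by
  obtain ⟨h, hh⟩ := chM_base2 (sel3 (v + w) v c)
    (by
      show sqNorm (v + w).1 = 48
      rw [add_val, ← dotInt_self, dotInt_add_left, dotInt_comm v.1, dotInt_comm w.1, dotInt_add_left,
        dotInt_add_left, dotInt_self, dotInt_self, hv, hw, dotInt_comm w.1, hvw]
      norm_num) hv
    (by
      show dotInt (v + w).1 v.1 = 24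
      rw [add_val, dotInt_add_left, dotInt_self, hv, dotInt_comm, hvw]
      norm_num)
  exact ⟨h, fun r hr => (hh r hr).trans (chP01 r hr).symm⟩

theorem pset_eq (v w c : ↥leechLattice) (t : ℕ → ℤ) (ht0 : t 0 = 16) (ht1 : t 1 = 0) :
    pset v w = {y : ↥leechLattice | sqNorm y.1 = 32 ∧
      ∀ r < 2, dotInt (sel3 (v + w) v c r).1 y.1 = t r} := by
  ext y
  constructor
  · rintro ⟨a, b, d⟩
    refine ⟨a, forall_lt_two.2 ⟨?_, b.trans ht1.symm⟩⟩
    show dotInt (v + w).1 y.1 = t 0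
    rw [add_val, dotInt_add_left, b, d, ht0]; norm_num
  · rintro ⟨a, b⟩
    obtain ⟨b0, b1⟩ := forall_lt_two.1 b
    have b0' : dotInt (v + w).1 y.1 = t 0 := b0
    have b1' : dotInt v.1 y.1 = t 1 := b1
    rw [add_val, dotInt_add_left, b1', ht0, ht1] at b0'
    exact ⟨a, b1'.trans ht1, by omega⟩

theorem fixw' (g : ↥Co0) (v w : ↥leechLattice) (h1 : g • v = v) (h2 : g • (v + w) = v + w) :
    g • w = w := by
  rw [Co0_add, h1] at h2
  exact add_left_cancel h2

theorem pn_count (v w : ↥leechLattice) (hv : sqNorm v.1 = 32) (hw : sqNorm w.1 = 32)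
    (hvw : dotInt v.1 w.1 = -8) : (pset v w).ncard = 2025 := by
  obtain ⟨h, hh⟩ := pn_base2 v w v hv hw hvw
  rw [pset_eq v w v pnt rfl rfl]
  exact (ncard_gen (bvec chP) (sel3 (v + w) v v) h hh pnt).trans
    ((count_of_check (by norm_num) pn_htt).trans pn_cnt)

theorem pn_trans (v w : ↥leechLattice) (hv : sqNorm v.1 = 32) (hw : sqNorm w.1 = 32)
    (hvw : dotInt v.1 w.1 = -8) (x x' : ↥leechLattice) (hx : x ∈ pset v w) (hx' : x' ∈ pset v w) :
    ∃ g : ↥Co0, g • v = v ∧ g • w = w ∧ g • x = x' := by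
  obtain ⟨h, hh⟩ := pn_base2 v w v hv hw hvw
  rw [pset_eq v w v pnat rfl rfl] at hx hx'
  obtain ⟨g, hg1, hg2⟩ := trans_gen (bvec chP) (baseSet_mem chP 2) (sel3 (v + w) v v) h hh pnat
    pna_trans x x' hx.1 hx'.1 hx.2 hx'.2
  exact ⟨g, hg1 1 (by norm_num), fixw' g v w (hg1 1 (by norm_num)) (hg1 0 (by norm_num)), hg2⟩

theorem chP_norm2 : sqNorm (bvec chP 2) = 32 := by decide +kernel
theorem chP_dot02 : dotInt (bvec chP 0) (bvec chP 2) = pnat 0 := by decide +kernel
theorem chP_dot12 : dotInt (bvec chP 1) (bvec chP 2) = pnat 1 := by decide +kernel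

theorem pn_base3 (v w x : ↥leechLattice) (hv : sqNorm v.1 = 32) (hw : sqNorm w.1 = 32)
    (hvw : dotInt v.1 w.1 = -8) (hx : x ∈ pset v w) :
    ∃ h : ↥Co0, ∀ r < 3, ((h • sel3 (v + w) v x r : ↥leechLattice) : GolayPt → ℤ) = bvec chP r := by
  obtain ⟨h, hh⟩ := pn_base2 v w x hv hw hvw
  rw [pset_eq v w x pnat rfl rfl] at hx
  exact extend_gen (bvec chP) (baseSet_mem chP 2) (sel3 (v + w) v x) h hh pnat pna_trans hx.1 hx.2
    ((chkTT_sound pnb_htt).2 2 (by norm_num)) chP_norm2 (forall_lt_two.2 ⟨chP_dot02, chP_dot12⟩)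

theorem plev {rk : ℕ → ℕ} {n0 : ℕ} {tts : ℕ → ℕ} {t : ℕ → ℤ} {c : ℕ}
    (htt : chkTT chP 3 tts t = true) (ht0 : t 0 = 16) (ht1 : t 1 = 0)
    (hall : (slotL pnBIG 2025).all
      (fun n => bif condAll chP 3 tts n then stepOK m22bTs rk n0 n else true) = true)
    (hcnt : (slotL pnBIG 2025).countP (condAll chP 3 tts) = c) (hc : c ≠ 0)
    (v w x : ↥leechLattice) (hv : sqNorm v.1 = 32) (hw : sqNorm w.1 = 32)
    (hvw : dotInt v.1 w.1 = -8) (hx : x ∈ pset v w) :
    ∃ y ∈ pset v w, (MulAction.orbit ↥(MulAction.stabilizer ↥Co0 v ⊓ MulAction.stabilizer ↥Co0 w ⊓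
      MulAction.stabilizer ↥Co0 x) y).ncard = c := by
  obtain ⟨h, hh⟩ := pn_base3 v w x hv hw hvw hx
  have ht : ∀ r < 2, t r = pnt r := forall_lt_two.2 ⟨ht0, ht1⟩
  set T : Set ↥leechLattice := {y : ↥leechLattice | sqNorm y.1 = 32 ∧
      ∀ r < 3, dotInt (sel3 (v + w) v x r).1 y.1 = t r} with hT
  have hn : T.ncard = c :=
    (ncard_gen (bvec chP) (sel3 (v + w) v x) h hh t).trans
      ((lvl_count (by norm_num) pn_htt pn_complete pn_len (by norm_num) (by norm_num) ht htt).trans hcnt)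
  have hne : T.Nonempty := Set.nonempty_of_ncard_ne_zero (by rw [hn]; exact hc)
  obtain ⟨y, hy⟩ := hne
  refine ⟨y, ?_, ?_⟩
  · rw [pset_eq v w x t ht0 ht1]
    exact ⟨hy.1, fun r hr => hy.2 r (by omega)⟩
  rw [orbit_eq3 v w x y T _ hy, hn]
  · intro y' hy'
    obtain ⟨g, hg1, hg2⟩ := trans_gen (bvec chP) (baseSet_mem chP 3) (sel3 (v + w) v x) h hh t
      (fun _ _ hw hn hP hw' hn' hP' => descent_of_list (by norm_num) m22b_hg htt rk n0 _
        (lvl_hl pn_complete (by norm_num) ht) hall hw hn hP hw' hn' hP')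
      y y' hy.1 hy'.1 hy.2 hy'.2
    exact ⟨g, hg1 1 (by norm_num), fixw' g v w (hg1 1 (by norm_num)) (hg1 0 (by norm_num)),
      hg1 2 (by norm_num), hg2⟩
  · rintro g hg1 hg2 hg3 y' ⟨a, b⟩
    refine ⟨by rw [Co0_sqNorm]; exact a, fun r hr => ?_⟩
    have hfix : g • sel3 (v + w) v x r = sel3 (v + w) v x r := by
      interval_cases r
      · show g • (v + w) = v + w
        rw [Co0_add, hg1, hg2]
      · exact hg1
      · exact hg3
    have := Co0_dot g (sel3 (v + w) v x r) y'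
    rw [hfix] at this
    rw [this]; exact b r hr

/-! ### an involution without fixed points -/

theorem hsInv_good : GoodM (Mz (ent hsInvT)) := by
  have h := hsInv_chk
  unfold chkGen at h
  rw [Bool.and_eq_true] at h
  exact chkT_sound h.1

theorem hsInv_fix : ∀ r < 2, mAct (Mz (ent hsInvT)) (bvec chH r) = bvec chH r := by
  have h := hsInv_chk
  unfold chkGen at h
  rw [Bool.and_eq_true, List.all_eq_true] at h
  intro r hr
  have := h.2 r (List.mem_range.2 hr)
  rw [TWF_eq, convW_EE _ (ent_le hsInvT)] at this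
  exact chkFix_sound _ (ent_le hsInvT) this

theorem hsInv_symm : (Mz (ent hsInvT))ᵀ = Mz (ent hsInvT) := by
  have h := hsInv_sym
  simp only [List.all_eq_true, List.mem_range] at h
  ext p q
  show ((ent hsInvT (idx q) (idx p) : ℕ) : ℤ) - 8 = ((ent hsInvT (idx p) (idx q) : ℕ) : ℤ) - 8
  rw [Nat.eq_of_beq_eq_true (h _ (idx_lt q) _ (idx_lt p))]

theorem hsInv_move {y : GolayPt → ℤ} (hy : y ∈ leechLattice) (hn : sqNorm y = 32)
    (hd : ∀ r < 2, dotInt (bvec chH r) y = hat r) : mAct (Mz (ent hsInvT)) y ≠ y := by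
  have h1 := hsInv_nf
  rw [List.all_eq_true] at h1
  have h2 := h1 _ (hl_gen chH0 (by norm_num) rfl y hy hn hd)
  have hr := inR_of_32 hn
  have hn2 : sqNorm (mAct (Mz (ent hsInvT)) y) = 32 := by rw [sqNorm_mAct hsInv_good hy, hn]
  rw [(condAll_iff (by norm_num) (chkTT_sound ha_htt).1 hr).2 hd, cond_true, TWF_eq,
    convW_EE _ (ent_le hsInvT), widen_encV hr, conv24_ONE hr,
    imgN_eq _ (ent_le hsInvT) hr (hsInv_good.map1 hy).2.1 (inR_of_32 hn2)] at h2
  intro hc
  rw [hc] at h2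
  simp at h2

/-- the involution. -/
def hsInv : ↥Co0 := matCo0 _ hsInv_good

theorem hsInv_sq : hsInv * hsInv = 1 := by
  apply Co0_ext
  intro v
  rw [mul_smul, one_smul]
  have := mAct_mAct hsInv_good v.2
  rw [hsInv_symm] at this
  exact this

end Cfsg.Agent.Lib.Helper11
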