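import Mathlib
import Cfsg.Prelude.Def_SporadicCombinatorics
import Cfsg.Agent.Lib.Helper3.M24Octad

set_option autoImplicit false

namespace Cfsg.Agent.Lib.Helper11

open Cfsg Cfsg.Agent.Lib.Helper3
open scoped Pointwise

/-- transport of a count along a permutation. -/
theorem ncard_transport {α : Type*} {G : Type*} [Group G] [MulAction G α] (g : G) (P Q : α → Prop)
    (h : ∀ s, Q (g • s) ↔ P s) : {s | P s}.ncard = {s | Q s}.ncard := by
  have : {s | Q s} = (fun s => g • s) '' {s | P s} := by
    ext s
    constructor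
    · intro hs
      refine ⟨g⁻¹ • s, ?_, by simp⟩
      have := h (g⁻¹ • s)
      rw [smul_inv_smul] at this
      exact this.1 hs
    · rintro ⟨t, ht, rfl⟩
      exact (h t).2 ht
  rw [this, Set.ncard_image_of_injective _ (MulAction.injective g)]

theorem smul_mem_octads_iff {σ : Equiv.Perm GolayPt} (hσ : σ ∈ M24) {s : Finset GolayPt} :
    σ • s ∈ octads ↔ s ∈ octads := by
  constructor
  · intro h
    have := smul_mem_octads (M24.inv_mem hσ) h
    rwa [inv_smul_smul] at this
  · exact smul_mem_octads hσ

theorem smul_mem_dodecads_iff {σ : Equiv.Perm GolayPt} (hσ : σ ∈ M24) {s : Finset GolayPt} :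
    σ • s ∈ dodecads ↔ s ∈ dodecads := by
  constructor
  · intro h
    have := smul_mem_dodecads (M24.inv_mem hσ) h
    rwa [inv_smul_smul] at this
  · exact smul_mem_dodecads hσ

theorem card_smul_inter (σ : Equiv.Perm GolayPt) (s t : Finset GolayPt) :
    (σ • s ∩ σ • t).card = (s ∩ t).card := by
  rw [← Finset.smul_finset_inter, Finset.card_smul_finset]

theorem mask_O0 : mask O0 = 0x149f := mask_unmask (by norm_num)
theorem mask_D0 : mask D0 = 0x5335f := mask_unmask (by norm_num)

end Cfsg.Agent.Lib.Helper11
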