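import Mathlib
import Cfsg.Agent.Lib.Helper11.Digit

set_option autoImplicit false

namespace Cfsg.Agent.Lib.Helper11

/-- packing of a digit function with digits of `s` bits. -/
def pk (s : ℕ) (d : ℕ → ℕ) (k : ℕ) : ℕ := ∑ j ∈ Finset.range k, d j * 2 ^ (s * j)

/-- Horner loop. -/
def pkAux (s : ℕ) (d : ℕ → ℕ) : ℕ → ℕ → ℕ
  | 0, acc => acc
  | k+1, acc => pkAux s d k (Nat.add (Nat.shiftLeft acc s) (d k))

theorem pkAux_eq (s : ℕ) (d : ℕ → ℕ) (k acc : ℕ) :
    pkAux s d k acc = acc * 2 ^ (s * k) + pk s d k := by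
  induction k generalizing acc with
  | zero => simp [pkAux, pk]
  | succ k ih =>
    rw [pkAux, ih]
    show (acc <<< s + d k) * 2 ^ (s * k) + pk s d k = _
    rw [Nat.shiftLeft_eq, pk, pk, Finset.sum_range_succ, Nat.mul_succ, pow_add]
    ring

/-- kernel friendly packing. -/
def pkF (s : ℕ) (d : ℕ → ℕ) (k : ℕ) : ℕ := pkAux s d k 0

theorem pkF_eq (s : ℕ) (d : ℕ → ℕ) (k : ℕ) : pkF s d k = pk s d k := by
  rw [pkF, pkAux_eq]; simp

theorem pk_congr {s k : ℕ} {d d' : ℕ → ℕ} (h : ∀ j < k, d j = d' j) : pk s d k = pk s d' k :=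
  Finset.sum_congr rfl (fun j hj => by rw [h j (Finset.mem_range.1 hj)])

theorem pk_add (s : ℕ) (d d' : ℕ → ℕ) (k : ℕ) :
    pk s (fun j => d j + d' j) k = pk s d k + pk s d' k := by
  unfold pk
  rw [← Finset.sum_add_distrib]
  exact Finset.sum_congr rfl (fun j _ => by ring)

theorem pk_mul (s : ℕ) (c : ℕ) (d : ℕ → ℕ) (k : ℕ) :
    pk s (fun j => c * d j) k = c * pk s d k := by
  unfold pk
  rw [Finset.mul_sum]
  exact Finset.sum_congr rfl (fun j _ => by ring)

theorem pk_single (s : ℕ) (c : ℕ) {p k : ℕ} (hp : p < k) :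
    pk s (fun j => if j = p then c else 0) k = c * 2 ^ (s * p) := by
  unfold pk
  rw [Finset.sum_eq_single p]
  · simp
  · intro j _ hj; simp [hj]
  · intro h; exact absurd (Finset.mem_range.2 hp) h

theorem pk_lt {s : ℕ} {d : ℕ → ℕ} {k : ℕ} (h : ∀ j < k, d j < 2 ^ s) : pk s d k < 2 ^ (s * k) := by
  induction k with
  | zero => simp [pk]
  | succ k ih =>
    have h1 := ih (fun j hj => h j (by omega))
    have h2 := h k (by omega)
    rw [pk, Finset.sum_range_succ, Nat.mul_succ, pow_add]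
    change pk s d k + _ < _
    calc pk s d k + d k * 2 ^ (s * k) < 2 ^ (s * k) + d k * 2 ^ (s * k) := by omega
      _ = (d k + 1) * 2 ^ (s * k) := by ring
      _ ≤ 2 ^ s * 2 ^ (s * k) := Nat.mul_le_mul_right _ h2
      _ = 2 ^ (s * k) * 2 ^ s := by ring

/-- uniqueness of digits. -/
theorem pk_inj {s : ℕ} {d d' : ℕ → ℕ} {k : ℕ} (h : ∀ j < k, d j < 2 ^ s)
    (h' : ∀ j < k, d' j < 2 ^ s) (e : pk s d k = pk s d' k) : ∀ j < k, d j = d' j := by
  induction k with
  | zero => intro j hj; omega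
  | succ k ih =>
    have l1 := pk_lt (fun j hj => h j (Nat.lt_succ_of_lt hj))
    have l2 := pk_lt (fun j hj => h' j (Nat.lt_succ_of_lt hj))
    rw [pk, pk, Finset.sum_range_succ, Finset.sum_range_succ] at e
    change pk s d k + _ = pk s d' k + _ at e
    have hpos : 0 < 2 ^ (s * k) := by positivity
    have e1 : d k = d' k := by
      have a1 : (pk s d k + d k * 2 ^ (s * k)) / 2 ^ (s * k) = d k := by
        rw [Nat.add_mul_div_right _ _ hpos, Nat.div_eq_of_lt l1, zero_add]
      have a2 : (pk s d' k + d' k * 2 ^ (s * k)) / 2 ^ (s * k) = d' k := by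
        rw [Nat.add_mul_div_right _ _ hpos, Nat.div_eq_of_lt l2, zero_add]
      rw [← a1, ← a2, e]
    rw [e1] at e
    have e2 : pk s d k = pk s d' k := by omega
    intro j hj
    rcases Nat.lt_succ_iff_lt_or_eq.1 hj with hj' | rfl
    · exact ih (fun j hj => h j (Nat.lt_succ_of_lt hj)) (fun j hj => h' j (Nat.lt_succ_of_lt hj)) e2 j hj'
    · exact e1

/-- digit extraction. -/
def dg (s n j : ℕ) : ℕ := Nat.land (Nat.shiftRight n (Nat.mul s j)) (Nat.sub (Nat.pow 2 s) 1)

theorem dg_eq (s n j : ℕ) : dg s n j = n / 2 ^ (s * j) % 2 ^ s := by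
  show (n >>> (s * j)) &&& (2 ^ s - 1) = _
  rw [Nat.and_two_pow_sub_one_eq_mod, Nat.shiftRight_eq_div_pow]

theorem dg_pk {s : ℕ} {d : ℕ → ℕ} {k : ℕ} (h : ∀ j < k, d j < 2 ^ s) {j : ℕ} (hj : j < k) :
    dg s (pk s d k) j = d j := by
  rw [dg_eq]
  induction k with
  | zero => omega
  | succ k ih =>
    rw [pk, Finset.sum_range_succ]
    change (pk s d k + _) / _ % _ = _
    have l1 := pk_lt (fun j hj => h j (Nat.lt_succ_of_lt hj))
    rcases Nat.lt_succ_iff_lt_or_eq.1 hj with hj' | rfl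
    · have : d k * 2 ^ (s * k) = 2 ^ (s * j) * (2 ^ s * (d k * 2 ^ (s * (k - j - 1)))) := by
        have : s * k = s * j + (s + s * (k - j - 1)) := by
          have : k = j + (1 + (k - j - 1)) := by omega
          conv_lhs => rw [this]
          ring
        rw [this, pow_add, pow_add]; ring
      rw [this, Nat.add_mul_div_left _ _ (by positivity), Nat.add_mul_mod_self_left]
      exact ih (fun j hj => h j (Nat.lt_succ_of_lt hj)) hj'
    · rw [Nat.add_mul_div_right _ _ (by positivity), Nat.div_eq_of_lt l1, zero_add,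
        Nat.mod_eq_of_lt (h j (by omega))]

/-- evaluation of a linear form by one multiplication. -/
def conv (s Q n : ℕ) : ℕ :=
  Nat.land (Nat.shiftRight (Nat.mul Q n) (Nat.mul s 23)) (Nat.sub (Nat.pow 2 s) 1)

theorem conv_spec (s : ℕ) (d a : ℕ → ℕ)
    (h : (∑ j ∈ Finset.range 24, a j) * (∑ j ∈ Finset.range 24, d j) < 2 ^ s) :
    conv s (pk s (fun j => a (23 - j)) 24) (pk s d 24) = ∑ j ∈ Finset.range 24, a j * d j := by
  classical
  have e0 : conv s (pk s (fun j => a (23 - j)) 24) (pk s d 24) =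
      (pk s (fun j => a (23 - j)) 24 * pk s d 24) / (2 ^ s) ^ 23 % 2 ^ s := by
    show ((_ * _) >>> (s * 23)) &&& (2 ^ s - 1) = _
    rw [Nat.and_two_pow_sub_one_eq_mod, Nat.shiftRight_eq_div_pow, pow_mul]
  rw [e0]
  set β := 2 ^ s with hβ
  have e1 : pk s (fun j => a (23 - j)) 24 = ∑ l ∈ Finset.range 24, a l * β ^ (23 - l) := by
    unfold pk
    rw [← Finset.sum_range_reflect]
    apply Finset.sum_congr rfl
    intro l hl
    rw [Finset.mem_range] at hl
    have h1 : 23 - (24 - 1 - l) = l := by omega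
    have h2 : 24 - 1 - l = 23 - l := by omega
    show a (23 - (24 - 1 - l)) * 2 ^ (s * (24 - 1 - l)) = _
    rw [h1, h2, pow_mul]
  have e2 : pk s d 24 = ∑ j ∈ Finset.range 24, d j * β ^ j := by
    unfold pk
    exact Finset.sum_congr rfl (fun j _ => by rw [pow_mul])
  let X : Finset (Σ _ : ℕ × ℕ, ℕ) :=
    (Finset.range 24 ×ˢ Finset.range 24).sigma (fun p => Finset.range (a p.1 * d p.2))
  let hh : (Σ _ : ℕ × ℕ, ℕ) → ℕ := fun x => 23 - x.1.1 + x.1.2
  have e3 : pk s (fun j => a (23 - j)) 24 * pk s d 24 = ∑ x ∈ X, β ^ hh x := by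
    rw [e1, e2, Finset.sum_mul_sum, Finset.sum_sigma, Finset.sum_product]
    apply Finset.sum_congr rfl
    intro l _
    apply Finset.sum_congr rfl
    intro j _
    simp only [hh, Finset.sum_const, Finset.card_range, smul_eq_mul, pow_add]
    ring
  have hX : X.card < β := by
    rw [Finset.card_sigma]
    simp only [Finset.card_range]
    rw [Finset.sum_product, ← Finset.sum_mul_sum]
    exact h
  rw [e3, digit_sum X hh β hX 23, Finset.card_filter, Finset.sum_sigma, Finset.sum_product]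
  apply Finset.sum_congr rfl
  intro l hl
  rw [Finset.mem_range] at hl
  rw [Finset.sum_eq_single l]
  · simp only [hh]
    have : 23 - l + l = 23 := by omega
    simp [this]
  · intro j _ hj
    simp only [hh]
    have : 23 - l + j ≠ 23 := by omega
    simp [this]
  · intro h'; exact absurd (Finset.mem_range.2 hl) h'

end Cfsg.Agent.Lib.Helper11
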