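import Mathlib
import Cfsg.Agent.Lib.Helper11.Pack
import Cfsg.Agent.Lib.Helper11.LeechXi

set_option autoImplicit false

namespace Cfsg.Agent.Lib.Helper11

open Cfsg Cfsg.Agent.Lib.Helper3
open scoped Pointwise
open Matrix

/-- the action of a scaled matrix. -/
def mAct (M : Matrix GolayPt GolayPt ℤ) (x : GolayPt → ℤ) : GolayPt → ℤ := fun i => (M *ᵥ x) i / 8

/-- vectors of the lattice mapped into the lattice. -/
def actSub (M : Matrix GolayPt GolayPt ℤ) : AddSubgroup (GolayPt → ℤ) where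
  carrier := {x | x ∈ leechLattice ∧ (∀ i, (8 : ℤ) ∣ (M *ᵥ x) i) ∧ mAct M x ∈ leechLattice}
  add_mem' := by
    rintro x y ⟨hx, hx1, hx2⟩ ⟨hy, hy1, hy2⟩
    refine ⟨leechLattice.add_mem hx hy, fun i => ?_, ?_⟩
    · rw [Matrix.mulVec_add]; exact dvd_add (hx1 i) (hy1 i)
    · have : mAct M (x + y) = mAct M x + mAct M y := by
        funext i
        show (M *ᵥ (x + y)) i / 8 = (M *ᵥ x) i / 8 + (M *ᵥ y) i / 8
        rw [Matrix.mulVec_add, Pi.add_apply, Int.add_ediv_of_dvd_left (hx1 i)]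
      rw [this]; exact leechLattice.add_mem hx2 hy2
  zero_mem' := by
    refine ⟨leechLattice.zero_mem, fun i => ?_, ?_⟩
    · rw [Matrix.mulVec_zero]; simp
    · have : mAct M 0 = 0 := by
        funext i
        show (M *ᵥ (0 : GolayPt → ℤ)) i / 8 = 0
        rw [Matrix.mulVec_zero]; simp
      rw [this]; exact leechLattice.zero_mem
  neg_mem' := by
    rintro x ⟨hx, hx1, hx2⟩
    refine ⟨leechLattice.neg_mem hx, fun i => ?_, ?_⟩
    · rw [Matrix.mulVec_neg]; exact (dvd_neg).2 (hx1 i)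
    · have : mAct M (-x) = -mAct M x := by
        funext i
        show (M *ᵥ (-x)) i / 8 = -((M *ᵥ x) i / 8)
        rw [Matrix.mulVec_neg, Pi.neg_apply, Int.neg_ediv_of_dvd (hx1 i)]
      rw [this]; exact leechLattice.neg_mem hx2

/-- a scaled matrix inducing an automorphism of the lattice. -/
structure GoodM (M : Matrix GolayPt GolayPt ℤ) : Prop where
  orth : Mᵀ * M = (64 : ℤ) • (1 : Matrix GolayPt GolayPt ℤ)
  map1 : leechLattice ≤ actSub M
  map2 : leechLattice ≤ actSub Mᵀ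

theorem orth_comm {M : Matrix GolayPt GolayPt ℤ}
    (h : Mᵀ * M = (64 : ℤ) • (1 : Matrix GolayPt GolayPt ℤ)) :
    M * Mᵀ = (64 : ℤ) • (1 : Matrix GolayPt GolayPt ℤ) := by
  let A : Matrix GolayPt GolayPt ℚ := M.map (Int.castRingHom ℚ)
  have h1 : Aᵀ * A = (64 : ℚ) • (1 : Matrix GolayPt GolayPt ℚ) := by
    have := congrArg (fun N : Matrix GolayPt GolayPt ℤ => N.map (Int.castRingHom ℚ)) h
    simp only [Matrix.map_mul, Matrix.transpose_map] at this
    rw [this]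
    ext i j
    rw [Matrix.map_apply, Matrix.smul_apply, Matrix.smul_apply, Matrix.one_apply, Matrix.one_apply]
    split <;> simp
  have h2 : ((1 / 64 : ℚ) • Aᵀ) * A = 1 := by
    rw [Matrix.smul_mul, h1, smul_smul]; norm_num
  have h3 : A * ((1 / 64 : ℚ) • Aᵀ) = 1 := mul_eq_one_comm.1 h2
  have h4 : A * Aᵀ = (64 : ℚ) • (1 : Matrix GolayPt GolayPt ℚ) := by
    rw [← h3, Matrix.mul_smul, smul_smul]; norm_num
  ext i j
  have h5 := congrFun (congrFun h4 i) j
  have h6 : ((M * Mᵀ) i j : ℚ) = (A * Aᵀ) i j := by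
    simp [A, Matrix.mul_apply]
  have h7 : (((64 : ℤ) • (1 : Matrix GolayPt GolayPt ℤ)) i j : ℚ) =
      ((64 : ℚ) • (1 : Matrix GolayPt GolayPt ℚ)) i j := by
    rw [Matrix.smul_apply, Matrix.smul_apply, Matrix.one_apply, Matrix.one_apply]
    split <;> simp
  exact_mod_cast (h6.trans (h5.trans h7.symm))

theorem GoodM.transpose {M : Matrix GolayPt GolayPt ℤ} (h : GoodM M) : GoodM Mᵀ where
  orth := by rw [Matrix.transpose_transpose]; exact orth_comm h.orth
  map1 := h.map2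
  map2 := by rw [Matrix.transpose_transpose]; exact h.map1

theorem eight_mAct {M : Matrix GolayPt GolayPt ℤ} {x : GolayPt → ℤ}
    (h : ∀ i, (8 : ℤ) ∣ (M *ᵥ x) i) : (8 : ℤ) • mAct M x = M *ᵥ x := by
  funext i
  show (8 : ℤ) • ((M *ᵥ x) i / 8) = _
  rw [smul_eq_mul, Int.mul_ediv_cancel' (h i)]

theorem mAct_mAct {M : Matrix GolayPt GolayPt ℤ} (h : GoodM M) {x : GolayPt → ℤ}
    (hx : x ∈ leechLattice) : mAct Mᵀ (mAct M x) = x := by
  have h1 := eight_mAct (h.map1 hx).2.1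
  have h2 : (8 : ℤ) • (Mᵀ *ᵥ mAct M x) = (64 : ℤ) • x := by
    rw [← Matrix.mulVec_smul, h1, Matrix.mulVec_mulVec, h.orth, Matrix.smul_mulVec,
      Matrix.one_mulVec]
  funext i
  have h3 := congrFun h2 i
  simp only [Pi.smul_apply, smul_eq_mul] at h3
  show (Mᵀ *ᵥ mAct M x) i / 8 = x i
  omega

theorem sqNorm_eq_dot (x : GolayPt → ℤ) : sqNorm x = x ⬝ᵥ x := by
  unfold sqNorm dotProduct
  exact Finset.sum_congr rfl (fun i _ => by ring)

theorem sqNorm_mAct {M : Matrix GolayPt GolayPt ℤ} (h : GoodM M) {x : GolayPt → ℤ}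
    (hx : x ∈ leechLattice) : sqNorm (mAct M x) = sqNorm x := by
  have h1 := eight_mAct (h.map1 hx).2.1
  have h2 : (M *ᵥ x) ⬝ᵥ (M *ᵥ x) = 64 * (x ⬝ᵥ x) := by
    have : (M *ᵥ x) ⬝ᵥ (M *ᵥ x) = x ⬝ᵥ (Mᵀ *ᵥ (M *ᵥ x)) := by
      rw [Matrix.dotProduct_mulVec x, Matrix.vecMul_transpose]
    rw [this, Matrix.mulVec_mulVec, h.orth, Matrix.smul_mulVec, Matrix.one_mulVec,
      dotProduct_smul, smul_eq_mul]
  rw [← h1, smul_dotProduct, dotProduct_smul, smul_eq_mul, smul_eq_mul] at h2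
  rw [sqNorm_eq_dot, sqNorm_eq_dot]
  omega

theorem mAct_add {M : Matrix GolayPt GolayPt ℤ} (h : GoodM M) {x y : GolayPt → ℤ}
    (hx : x ∈ leechLattice) : mAct M (x + y) = mAct M x + mAct M y := by
  funext i
  show (M *ᵥ (x + y)) i / 8 = (M *ᵥ x) i / 8 + (M *ᵥ y) i / 8
  rw [Matrix.mulVec_add, Pi.add_apply, Int.add_ediv_of_dvd_left ((h.map1 hx).2.1 i)]

/-- the automorphism given by a good matrix. -/
def matCo0 (M : Matrix GolayPt GolayPt ℤ) (h : GoodM M) : ↥Co0 :=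
  mkCo0 (mAct M) (mAct Mᵀ) (fun _ hx => (h.map1 hx).2.2) (fun _ hx => (h.map2 hx).2.2)
    (fun _ hx => mAct_mAct h hx)
    (fun x hx => by
      have := mAct_mAct h.transpose hx
      rwa [Matrix.transpose_transpose] at this)
    (fun _ hx _ _ => mAct_add h hx) (fun _ hx => sqNorm_mAct h hx)

theorem matCo0_smul (M : Matrix GolayPt GolayPt ℤ) (h : GoodM M) (v : ↥leechLattice) :
    ((matCo0 M h • v : ↥leechLattice) : GolayPt → ℤ) = mAct M v.1 := rfl

end Cfsg.Agent.Lib.Helper11
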