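import Mathlib
import Cfsg.Agent.Lib.Helper3.LeechOrder
import Cfsg.Agent.S0378
import Cfsg.Agent.S0379

set_option autoImplicit false

namespace Cfsg.Agent.Lib.Helper11

open Cfsg Cfsg.Agent.Lib.Helper3 Cfsg.Agent.Lib.Helper3.Lee
open scoped Pointwise

theorem mono_fix_iff' (σ : Equiv.Perm GolayPt) (hσ : σ ∈ M24) (c : Finset GolayPt) (hc : c ∈ CS)
    (p : GolayPt) : monoCo0 σ hσ c hc • lE p = lE p ↔ σ p = p ∧ p ∉ c := by
  have h1 : monoCo0 σ hσ c hc • lE p = lE p ↔ signedPerm σ c (vE p) = vE p := by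
    constructor
    · intro h
      exact congrArg Subtype.val h
    · intro h
      exact Subtype.ext h
  rw [h1, signedPerm_vE]
  constructor
  · intro h
    by_cases hm : σ p ∈ c
    · rw [if_pos hm] at h
      have h2 := vE_injective (Or.inr h.symm)
      rw [← h2] at h
      have := congrFun h p
      simp [vE_apply] at this
    · rw [if_neg hm] at h
      have h2 := vE_injective (Or.inl h.symm)
      rw [← h2] at hm
      exact ⟨h2.symm, hm⟩
  · rintro ⟨h2, h3⟩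
    rw [h2, if_neg h3]

/-- an automorphism fixing two frame vectors and a vector with entries 1 elsewhere is a
coordinate permutation. -/
theorem perm_of_fix {p q : GolayPt} {g : ↥Co0} (hp : g • lE p = lE p) (hq : g • lE q = lE q)
    (y : ↥leechLattice) (hy : ∀ i, i ≠ p → i ≠ q → y.1 i = 1) (hgy : g • y = y) :
    ∃ (σ : Equiv.Perm GolayPt) (hσ : σ ∈ M24), σ p = p ∧ σ q = q ∧ g = permCo0 σ hσ := by
  obtain ⟨σ, hσ, c, hc, rfl⟩ := exists_mono_of_pres (pres_of_fix hp)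
  obtain ⟨hp1, hp2⟩ := (mono_fix_iff' σ hσ c hc p).1 hp
  obtain ⟨hq1, hq2⟩ := (mono_fix_iff' σ hσ c hc q).1 hq
  have hc0 : ∀ i, i ∉ c := by
    intro i hi
    by_cases hip : i = p
    · exact hp2 (hip ▸ hi)
    by_cases hiq : i = q
    · exact hq2 (hiq ▸ hi)
    have h1 : signedPerm σ c y.1 i = y.1 i := congrFun (congrArg Subtype.val hgy) i
    have h2 : σ.symm i ≠ p := by
      intro h
      apply hip
      rw [← hp1, ← h, Equiv.apply_symm_apply]
    have h3 : σ.symm i ≠ q := by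
      intro h
      apply hiq
      rw [← hq1, ← h, Equiv.apply_symm_apply]
    unfold signedPerm at h1
    rw [if_pos hi, hy _ h2 h3, hy i hip hiq] at h1
    norm_num at h1
  refine ⟨σ, hσ, hp1, hq1, Co0_ext (fun v => ?_)⟩
  rw [monoCo0_smul, permCo0_smul]
  funext i
  unfold signedPerm
  rw [if_neg (hc0 i)]
  rfl

theorem permCo0_mul (σ τ : Equiv.Perm GolayPt) (hσ : σ ∈ M24) (hτ : τ ∈ M24)
    (hστ : σ * τ ∈ M24) : permCo0 (σ * τ) hστ = permCo0 σ hσ * permCo0 τ hτ := by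
  apply Co0_ext
  intro v
  rw [mul_smul, permCo0_smul, permCo0_smul, permCo0_smul]
  rfl

theorem permCo0_inj {σ τ : Equiv.Perm GolayPt} {hσ : σ ∈ M24} {hτ : τ ∈ M24}
    (h : permCo0 σ hσ = permCo0 τ hτ) : σ = τ := by
  apply Equiv.ext
  intro i
  have h1 := congrArg (fun g : ↥Co0 => ((g • lE i : ↥leechLattice) : GolayPt → ℤ)) h
  simp only [permCo0_smul] at h1
  have h2 : permCh σ (vE i) = permCh τ (vE i) := h1
  rw [permCh_vE, permCh_vE] at h2
  exact vE_injective (Or.inl h2)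

/-- the stabiliser of a suitable triple of vectors is the Mathieu group of degree 22. -/
theorem triple_m22 {p q : GolayPt} (hpq : p ≠ q) (v w a : ↥leechLattice)
    (hperm : ∀ (σ : Equiv.Perm GolayPt) (hσ : σ ∈ M24), σ p = p → σ q = q →
      permCo0 σ hσ • v = v ∧ permCo0 σ hσ • w = w ∧ permCo0 σ hσ • a = a)
    (hfix : ∀ g : ↥Co0, g • v = v → g • w = w → g • a = a →
      ∃ (σ : Equiv.Perm GolayPt) (hσ : σ ∈ M24), σ p = p ∧ σ q = q ∧ g = permCo0 σ hσ) :
    IsSimpleGroup (MulAction.stabilizer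
      ↥(MulAction.stabilizer ↥Co0 v ⊓ MulAction.stabilizer ↥Co0 w) a) ∧
    Nat.card (MulAction.stabilizer
      ↥(MulAction.stabilizer ↥Co0 v ⊓ MulAction.stabilizer ↥Co0 w) a) = 443520 := by
  let f : ↥(MulAction.stabilizer M24 p ⊓ MulAction.stabilizer M24 q) →*
      MulAction.stabilizer ↥(MulAction.stabilizer ↥Co0 v ⊓ MulAction.stabilizer ↥Co0 w) a :=
    MonoidHom.mk' (fun s => ⟨⟨permCo0 s.1.1 s.1.2, (hperm s.1.1 s.1.2 s.2.1 s.2.2).1,
      (hperm s.1.1 s.1.2 s.2.1 s.2.2).2.1⟩, (hperm s.1.1 s.1.2 s.2.1 s.2.2).2.2⟩) (by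
      intro s t
      apply Subtype.ext
      apply Subtype.ext
      exact permCo0_mul s.1.1 t.1.1 s.1.2 t.1.2 (s * t).1.2)
  have hinj : Function.Injective f := by
    intro s t hst
    have h1 : permCo0 s.1.1 s.1.2 = permCo0 t.1.1 t.1.2 :=
      congrArg (fun x => x.1.1) hst
    exact Subtype.ext (Subtype.ext (permCo0_inj h1))
  have hsurj : Function.Surjective f := by
    rintro ⟨⟨g, hg1, hg2⟩, hg3⟩
    obtain ⟨σ, hσ, h1, h2, rfl⟩ := hfix g hg1 hg2 hg3
    exact ⟨⟨⟨σ, hσ⟩, h1, h2⟩, rfl⟩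
  let e := MulEquiv.ofBijective f ⟨hinj, hsurj⟩
  exact ⟨(e.isSimpleGroup_congr).1 (Cfsg.Agent.S0379.result p q hpq),
    (Nat.card_congr e.toEquiv).symm.trans (Cfsg.Agent.S0378.result p q hpq)⟩

/-- conjugate stabilisers are isomorphic. -/
def stab2Conj (h : ↥Co0) (v w : ↥leechLattice) :
    ↥(MulAction.stabilizer ↥Co0 v ⊓ MulAction.stabilizer ↥Co0 w) ≃*
      ↥(MulAction.stabilizer ↥Co0 (h • v) ⊓ MulAction.stabilizer ↥Co0 (h • w)) where
  toFun g := ⟨h * g.1 * h⁻¹, by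
    constructor
    · show (h * g.1 * h⁻¹) • h • v = h • v
      rw [mul_smul, mul_smul, inv_smul_smul, show g.1 • v = v from g.2.1]
    · show (h * g.1 * h⁻¹) • h • w = h • w
      rw [mul_smul, mul_smul, inv_smul_smul, show g.1 • w = w from g.2.2]⟩
  invFun g := ⟨h⁻¹ * g.1 * h, by
    constructor
    · show (h⁻¹ * g.1 * h) • v = v
      rw [mul_smul, mul_smul, show g.1 • h • v = h • v from g.2.1, inv_smul_smul]
    · show (h⁻¹ * g.1 * h) • w = w
      rw [mul_smul, mul_smul, show g.1 • h • w = h • w from g.2.2, inv_smul_smul]⟩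
  left_inv g := by
    apply Subtype.ext
    show h⁻¹ * (h * g.1 * h⁻¹) * h = g.1
    group
  right_inv g := by
    apply Subtype.ext
    show h * (h⁻¹ * g.1 * h) * h⁻¹ = g.1
    group
  map_mul' g g' := by
    apply Subtype.ext
    show h * (g.1 * g'.1) * h⁻¹ = (h * g.1 * h⁻¹) * (h * g'.1 * h⁻¹)
    group

/-- conjugate stabilisers are isomorphic. -/
def stab1Conj (h : ↥Co0) (v : ↥leechLattice) :
    ↥(MulAction.stabilizer ↥Co0 v) ≃* ↥(MulAction.stabilizer ↥Co0 (h • v)) where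
  toFun g := ⟨h * g.1 * h⁻¹, by
    show (h * g.1 * h⁻¹) • h • v = h • v
    rw [mul_smul, mul_smul, inv_smul_smul, show g.1 • v = v from g.2]⟩
  invFun g := ⟨h⁻¹ * g.1 * h, by
    show (h⁻¹ * g.1 * h) • v = v
    rw [mul_smul, mul_smul, show g.1 • h • v = h • v from g.2, inv_smul_smul]⟩
  left_inv g := by
    apply Subtype.ext
    show h⁻¹ * (h * g.1 * h⁻¹) * h = g.1
    group
  right_inv g := by
    apply Subtype.ext
    show h * (h⁻¹ * g.1 * h) * h⁻¹ = g.1
    group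
  map_mul' g g' := by
    apply Subtype.ext
    show h * (g.1 * g'.1) * h⁻¹ = (h * g.1 * h⁻¹) * (h * g'.1 * h⁻¹)
    group

end Cfsg.Agent.Lib.Helper11
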