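import Mathlib
import Cfsg.Agent.Lib.Helper11.M24Sets

set_option autoImplicit false

namespace Cfsg.Agent.Lib.Helper11

open Cfsg Cfsg.Agent.Lib.Helper3
open scoped Pointwise

/-- the stabiliser of a set in the group of the code. -/
abbrev SetStab (o : Finset GolayPt) : Subgroup (Equiv.Perm GolayPt) :=
  M24 ⊓ MulAction.stabilizer (Equiv.Perm GolayPt) o

/-- the pointwise stabiliser of a set in the group of the code. -/
abbrev PtStab (o : Finset GolayPt) : Subgroup (Equiv.Perm GolayPt) :=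
  M24 ⊓ fixingSubgroup (Equiv.Perm GolayPt) (o : Set GolayPt)

theorem mem_SetStab {o : Finset GolayPt} {g : Equiv.Perm GolayPt} :
    g ∈ SetStab o ↔ g ∈ M24 ∧ g • o = o := by
  rw [Subgroup.mem_inf]
  rfl

theorem mem_PtStab {o : Finset GolayPt} {g : Equiv.Perm GolayPt} :
    g ∈ PtStab o ↔ g ∈ M24 ∧ ∀ x ∈ o, g x = x := by
  rw [Subgroup.mem_inf, mem_fixingSubgroup_iff]
  rfl

theorem smul_eq_iff_forall {o : Finset GolayPt} {g : Equiv.Perm GolayPt} :
    g • o = o ↔ ∀ x, g x ∈ o ↔ x ∈ o :=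
  ⟨fun h _ => apply_mem_of_smul_eq h, fun h => smul_eq_of_forall h⟩

/-- restriction to the set. -/
def resHom (o : Finset GolayPt) : ↥(SetStab o) →* Equiv.Perm ↥o where
  toFun g := (g : Equiv.Perm GolayPt).subtypePerm (smul_eq_iff_forall.1 (mem_SetStab.1 g.2).2)
  map_one' := by ext; rfl
  map_mul' a b := by ext; rfl

theorem resHom_apply (o : Finset GolayPt) (g : ↥(SetStab o)) (x : ↥o) :
    ((resHom o g x : ↥o) : GolayPt) = (g : Equiv.Perm GolayPt) x := rfl

theorem card_SetStab_octad {o : Finset GolayPt} (ho : o ∈ octads) :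
    Nat.card ↥(SetStab o) = 322560 := by
  have h := card_eq_orbit_mul M24 o
  rw [orbit_M24_octad ho, ncard_octads, card_M24] at h
  show Nat.card ↥(M24 ⊓ MulAction.stabilizer (Equiv.Perm GolayPt) o) = 322560
  omega

theorem PtStab_le_SetStab (o : Finset GolayPt) : PtStab o ≤ SetStab o := by
  intro g hg
  rw [mem_PtStab] at hg
  rw [mem_SetStab]
  refine ⟨hg.1, ?_⟩
  have : g • o = (1 : Equiv.Perm GolayPt) • o := smul_eq_of_agree (fun a ha => hg.2 a ha)
  rw [this, one_smul]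

theorem mem_ker_resHom {o : Finset GolayPt} (g : ↥(SetStab o)) :
    g ∈ (resHom o).ker ↔ (g : Equiv.Perm GolayPt) ∈ PtStab o := by
  rw [MonoidHom.mem_ker, mem_PtStab]
  constructor
  · intro h
    refine ⟨(mem_SetStab.1 g.2).1, fun x hx => ?_⟩
    have := congrArg (fun e : Equiv.Perm ↥o => ((e ⟨x, hx⟩ : ↥o) : GolayPt)) h
    exact this
  · rintro ⟨-, h⟩
    apply Equiv.ext
    intro x
    apply Subtype.ext
    exact h x x.2

theorem card_ker_resHom {o : Finset GolayPt} (ho : o ∈ octads) :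
    Nat.card (resHom o).ker = 16 := by
  rw [← (fix_octad ho).1]
  apply Nat.card_congr
  exact
    { toFun := fun g => ⟨g.1.1, (mem_ker_resHom g.1).1 g.2⟩
      invFun := fun g => ⟨⟨g.1, PtStab_le_SetStab o g.2⟩, (mem_ker_resHom _).2 g.2⟩
      left_inv := fun _ => rfl
      right_inv := fun _ => rfl }

theorem range_resHom {o : Finset GolayPt} (ho : o ∈ octads) :
    (resHom o).range = alternatingGroup ↥o := by
  apply Equiv.Perm.eq_alternatingGroup_of_index_eq_two
  have h1 := (resHom o).ker.card_mul_index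
  rw [card_ker_resHom ho, card_SetStab_octad ho, Subgroup.index_ker] at h1
  have h2 := (resHom o).range.card_mul_index
  have h3 : Nat.card (Equiv.Perm ↥o) = 40320 := by
    rw [Nat.card_eq_fintype_card, Fintype.card_perm, Fintype.card_coe, ho.2]
    rfl
  rw [h3] at h2
  have h4 : Nat.card (resHom o).range = 20160 := by omega
  rw [h4] at h2
  omega

theorem mem_PtStab_O0 {v : Equiv.Perm GolayPt} (hv : v ∈ M24) (hf : Fixes 6 v) : v ∈ PtStab O0 := by
  show v ∈ M24 ⊓ fixingSubgroup (Equiv.Perm GolayPt) (O0 : Set GolayPt)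
  rw [fix_O0_eq, mem_K]
  exact ⟨hv, hf⟩

theorem exists_PtStab_O0 {q : GolayPt} (hq : q ∉ O0) : ∃ v ∈ PtStab O0, v q = bpt 6 := by
  have h6 : (allow 6).testBit (idx q) = true := by
    have : ∀ i < 24, ¬ (0x149f : ℕ).testBit i = true → (allow 6).testBit i = true := by decide
    apply this _ (idx_lt _)
    intro hc
    exact hq ((mem_unmask _ _).2 hc)
  obtain ⟨v, hv, hvf, hvq⟩ := level_spec 6 (by norm_num) _ h6
  exact ⟨v, mem_PtStab_O0 (H_le hv) hvf, hvq⟩

theorem conj_mem_PtStab {u v : Equiv.Perm GolayPt} {o : Finset GolayPt} (hu : u ∈ M24)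
    (hv : v ∈ PtStab (u • o)) : u⁻¹ * v * u ∈ PtStab o := by
  rw [mem_PtStab] at hv ⊢
  refine ⟨M24.mul_mem (M24.mul_mem (M24.inv_mem hu) hv.1) hu, fun x hx => ?_⟩
  show u⁻¹ (v (u x)) = x
  have h1 : v (u x) = u x := hv.2 _ (Finset.smul_mem_smul_finset hx)
  rw [h1]
  simp

/-- the pointwise stabiliser of an octad is transitive on the remaining points. -/
theorem PtStab_trans {o : Finset GolayPt} (ho : o ∈ octads) {p q : GolayPt} (hp : p ∉ o)
    (hq : q ∉ o) : ∃ e ∈ PtStab o, e p = q := by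
  obtain ⟨u, hu, huo⟩ := octad_to_O0 ho
  have h1 : ∀ r, r ∉ o → u r ∉ O0 := by
    intro r hr hc
    rw [← huo] at hc
    exact hr ((Finset.smul_mem_smul_finset_iff u).1 hc)
  obtain ⟨v, hv, hvp⟩ := exists_PtStab_O0 (h1 p hp)
  obtain ⟨w, hw, hwq⟩ := exists_PtStab_O0 (h1 q hq)
  refine ⟨u⁻¹ * (w⁻¹ * v) * u, conj_mem_PtStab hu ?_, ?_⟩
  · rw [huo]; exact (PtStab O0).mul_mem ((PtStab O0).inv_mem hw) hv
  · show u⁻¹ (w⁻¹ (v (u p))) = q
    rw [hvp, Equiv.Perm.inv_eq_iff_eq, Equiv.Perm.inv_eq_iff_eq, hwq]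

/-- the pointwise stabiliser of an octad acts freely on the remaining points. -/
theorem PtStab_free {o : Finset GolayPt} (ho : o ∈ octads) {p : GolayPt} (hp : p ∉ o)
    {g : Equiv.Perm GolayPt} (hg : g ∈ PtStab o) (hgp : g p = p) : g = 1 := by
  obtain ⟨u, hu, huo⟩ := octad_to_O0 ho
  have h1 : u p ∉ O0 := by
    intro hc
    rw [← huo] at hc
    exact hp ((Finset.smul_mem_smul_finset_iff u).1 hc)
  obtain ⟨v, hv, hvp⟩ := exists_PtStab_O0 h1
  rw [mem_PtStab] at hg hv
  have hvO : v • O0 = O0 := (mem_SetStab.1 (PtStab_le_SetStab O0 (mem_PtStab.2 hv))).2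
  have key : (v * u) * g * (v * u)⁻¹ = 1 := by
    apply eq_one_of_fixes
    · exact M24.mul_mem (M24.mul_mem (M24.mul_mem hv.1 hu) hg.1)
        (M24.inv_mem (M24.mul_mem hv.1 hu))
    · intro j hj
      show (v * u) (g ((v * u)⁻¹ (bpt j))) = bpt j
      have h2 : g ((v * u)⁻¹ (bpt j)) = (v * u)⁻¹ (bpt j) := by
        rcases Nat.lt_succ_iff_lt_or_eq.mp hj with h | rfl
        · apply hg.2
          have h3 : bpt j ∈ O0 := by
            rw [O0, mem_unmask, idx_bpt]
            revert j; decide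
          have h4 : (v * u) • o = O0 := by rw [mul_smul, huo, hvO]
          rw [← h4] at h3
          rw [← Finset.inv_smul_mem_iff] at h3
          exact h3
        · have h3 : (v * u)⁻¹ (bpt 6) = p := by
            rw [Equiv.Perm.inv_eq_iff_eq]; exact hvp.symm
          rw [h3, hgp]
      rw [h2]; simp
  have : g = (v * u)⁻¹ * ((v * u) * g * (v * u)⁻¹) * (v * u) := by group
  rw [this, key]; group

end Cfsg.Agent.Lib.Helper11
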