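import Mathlib
import Cfsg.Agent.Lib.Helper11.Descent

set_option autoImplicit false

namespace Cfsg.Agent.Lib.Helper11

open Cfsg Cfsg.Agent.Lib.Helper3
open scoped Pointwise

/-- the descending part of a step. -/
def stepF (Ts : List ℕ) (rk : ℕ → ℕ) (n : ℕ) : Bool :=
  force (Nat.land (rk n) 15) fun d =>
    Nat.blt (Nat.shiftRight (rk (imgN (TWF (eSel Ts d)) (convW (TWF (eSel Ts d)) ONEW) (widen n)
      (conv 24 ONE24 n))) 4) (Nat.shiftRight (rk n) 4)

theorem stepOK_eq (Ts : List ℕ) (rk : ℕ → ℕ) (n0 n : ℕ) :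
    stepOK Ts rk n0 n = (Nat.beq n n0 || stepF Ts rk n) := rfl

/-- one step of a descent with several roots. -/
def stepM (Ts : List ℕ) (rk : ℕ → ℕ) (roots : List ℕ) (n : ℕ) : Bool :=
  roots.any (fun m => Nat.beq n m) || stepF Ts rk n

theorem stepOK_of_stepM {Ts : List ℕ} {rk : ℕ → ℕ} {roots : List ℕ} {n n0 : ℕ} {Q : ℕ → Bool}
    (h : stepM Ts rk roots n = true)
    (hr : roots.all (fun m => bif Q m then Nat.beq m n0 else true) = true) (hQ : Q n = true) :
    stepOK Ts rk n0 n = true := by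
  rw [stepOK_eq, Bool.or_eq_true]
  unfold stepM at h
  rw [Bool.or_eq_true, List.any_eq_true] at h
  rcases h with ⟨m, hm, e⟩ | h
  · left
    have e' : n = m := Nat.eq_of_beq_eq_true e
    rw [List.all_eq_true] at hr
    have := hr m hm
    rw [← e', hQ, cond_true] at this
    exact this
  · exact Or.inr h

/-- transitivity on a level from one computation for all the levels. -/
theorem descent_of_multi {Tb R0 R : ℕ} {Ts : List ℕ} (hR : R ≤ 24) (hR0 : R0 ≤ R)
    (hg : chkGens8 Tb R Ts = true)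
    {tts0 : ℕ → ℕ} {t0 : ℕ → ℤ} (htt0 : chkTT Tb R0 tts0 t0 = true)
    {tts : ℕ → ℕ} {t : ℕ → ℤ} (htt : chkTT Tb R tts t = true) (ht : ∀ r < R0, t r = t0 r)
    (rk : ℕ → ℕ) (roots : List ℕ) (n0 : ℕ)
    (hall : allL2 (fun n => bif condAll Tb R0 tts0 n then stepM Ts rk roots n else true) = true)
    (hr : roots.all (fun m => bif condAll Tb R tts m then Nat.beq m n0 else true) = true)
    {w w' : GolayPt → ℤ} (hw : w ∈ leechLattice) (hn : sqNorm w = 32)
    (hP : ∀ r < R, dotInt (bvec Tb r) w = t r) (hw' : w' ∈ leechLattice) (hn' : sqNorm w' = 32)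
    (hP' : ∀ r < R, dotInt (bvec Tb r) w' = t r) : RelB (baseSet Tb R) w w' := by
  obtain ⟨h1, h2⟩ := chkTT_sound htt
  apply descent_main hg h2 t rk n0 _ hw hn hP hw' hn' hP'
  intro x hx hxn hxP
  have := allL2_sound hall hx hxn
  rw [(condAll_iff (le_trans hR0 hR) (chkTT_sound htt0).1 (inR_of_32 hxn)).2
    (fun r hr' => (hxP r (lt_of_lt_of_le hr' hR0)).trans (ht r hr')), cond_true] at this
  exact stepOK_of_stepM this hr ((condAll_iff hR h1 (inR_of_32 hxn)).2 hxP)

end Cfsg.Agent.Lib.Helper11
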