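import Mathlib
import Cfsg.Agent.Lib.Helper11.QOrbData
set_option autoImplicit false
set_option maxRecDepth 100000
namespace Cfsg.Agent.Lib.Helper11
open Cfsg Cfsg.Agent.Lib.Helper3
theorem q_hall0 : allPart qQ (256 * 0) = true := by decide +kernel
theorem qa_cnt0 : cntPart (condAll chQ 2 qatts) (256 * 0) = 33 := by decide +kernel
theorem qb_cnt0 : cntPart (condAll chQ 2 qbtts) (256 * 0) = 391 := by decide +kernel
theorem qc_cnt0 : cntPart (condAll chQ 2 qctts) (256 * 0) = 752 := by decide +kernel
theorem qd_cnt0 : cntPart (condAll chQ 2 qdtts) (256 * 0) = 2080 := by decide +kernel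
theorem qe_cnt0 : cntPart (condAll chQ 2 qetts) (256 * 0) = 2375 := by decide +kernel
theorem q_hall1 : allPart qQ (256 * 1) = true := by decide +kernel
theorem qa_cnt1 : cntPart (condAll chQ 2 qatts) (256 * 1) = 20 := by decide +kernel
theorem qb_cnt1 : cntPart (condAll chQ 2 qbtts) (256 * 1) = 220 := by decide +kernel
theorem qc_cnt1 : cntPart (condAll chQ 2 qctts) (256 * 1) = 536 := by decide +kernel
theorem qd_cnt1 : cntPart (condAll chQ 2 qdtts) (256 * 1) = 1480 := by decide +kernel
theorem qe_cnt1 : cntPart (condAll chQ 2 qetts) (256 * 1) = 1840 := by decide +kernel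
end Cfsg.Agent.Lib.Helper11
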