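import Mathlib
import Cfsg.Agent.Lib.Helper11.QOrbData
set_option autoImplicit false
set_option maxRecDepth 100000
namespace Cfsg.Agent.Lib.Helper11
open Cfsg Cfsg.Agent.Lib.Helper3
theorem q_hall12 : allPart qQ (256 * 12) = true := by decide +kernel
theorem qa_cnt12 : cntPart (condAll chQ 2 qatts) (256 * 12) = 12 := by decide +kernel
theorem qb_cnt12 : cntPart (condAll chQ 2 qbtts) (256 * 12) = 100 := by decide +kernel
theorem qc_cnt12 : cntPart (condAll chQ 2 qctts) (256 * 12) = 376 := by decide +kernel
theorem qd_cnt12 : cntPart (condAll chQ 2 qdtts) (256 * 12) = 840 := by decide +kernel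
theorem qe_cnt12 : cntPart (condAll chQ 2 qetts) (256 * 12) = 1232 := by decide +kernel
theorem q_hall13 : allPart qQ (256 * 13) = true := by decide +kernel
theorem qa_cnt13 : cntPart (condAll chQ 2 qatts) (256 * 13) = 12 := by decide +kernel
theorem qb_cnt13 : cntPart (condAll chQ 2 qbtts) (256 * 13) = 36 := by decide +kernel
theorem qc_cnt13 : cntPart (condAll chQ 2 qctts) (256 * 13) = 392 := by decide +kernel
theorem qd_cnt13 : cntPart (condAll chQ 2 qdtts) (256 * 13) = 536 := by decide +kernel
theorem qe_cnt13 : cntPart (condAll chQ 2 qetts) (256 * 13) = 1072 := by decide +kernel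
end Cfsg.Agent.Lib.Helper11
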