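import Mathlib
import Cfsg.Agent.Lib.Helper11.QOrbP0
import Cfsg.Agent.Lib.Helper11.QOrbP1
import Cfsg.Agent.Lib.Helper11.QOrbP2
import Cfsg.Agent.Lib.Helper11.QOrbP3
import Cfsg.Agent.Lib.Helper11.QOrbP4
import Cfsg.Agent.Lib.Helper11.QOrbP5
import Cfsg.Agent.Lib.Helper11.QOrbP6
import Cfsg.Agent.Lib.Helper11.QOrbP7
import Cfsg.Agent.Lib.Helper11.L2Parts2
set_option autoImplicit false
set_option maxRecDepth 100000
namespace Cfsg.Agent.Lib.Helper11
open Cfsg Cfsg.Agent.Lib.Helper3
theorem q_hall : allL2 (fun n => bif condAll chQ 1 qtts n then stepM mclTs qrk qroots n else true) = true := by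
  apply allL2_of_parts
  intro i hi
  interval_cases i
  · exact q_hall0
  · exact q_hall1
  · exact q_hall2
  · exact q_hall3
  · exact q_hall4
  · exact q_hall5
  · exact q_hall6
  · exact q_hall7
  · exact q_hall8
  · exact q_hall9
  · exact q_hall10
  · exact q_hall11
  · exact q_hall12
  · exact q_hall13
  · exact q_hall14
  · exact q_hall15
theorem qa_cnt : cntL2 (condAll chQ 2 qatts) = 275 := by
  have h := cntL2_of_parts (Q := condAll chQ 2 qatts) (f := fun i => [33, 20, 20, 12, 20, 12, 12, 12, 20, 12, 12, 12, 12, 12, 12, 42].getD i 0) (by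
    intro i hi
    interval_cases i
    · exact qa_cnt0
    · exact qa_cnt1
    · exact qa_cnt2
    · exact qa_cnt3
    · exact qa_cnt4
    · exact qa_cnt5
    · exact qa_cnt6
    · exact qa_cnt7
    · exact qa_cnt8
    · exact qa_cnt9
    · exact qa_cnt10
    · exact qa_cnt11
    · exact qa_cnt12
    · exact qa_cnt13
    · exact qa_cnt14
    · exact qa_cnt15
    )
  rw [h]
  decide
theorem qb_cnt : cntL2 (condAll chQ 2 qbtts) = 2025 := by
  have h := cntL2_of_parts (Q := condAll chQ 2 qbtts) (f := fun i => [391, 220, 220, 100, 220, 100, 100, 36, 220, 100, 100, 36, 100, 36, 36, 10].getD i 0) (by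
    intro i hi
    interval_cases i
    · exact qb_cnt0
    · exact qb_cnt1
    · exact qb_cnt2
    · exact qb_cnt3
    · exact qb_cnt4
    · exact qb_cnt5
    · exact qb_cnt6
    · exact qb_cnt7
    · exact qb_cnt8
    · exact qb_cnt9
    · exact qb_cnt10
    · exact qb_cnt11
    · exact qb_cnt12
    · exact qb_cnt13
    · exact qb_cnt14
    · exact qb_cnt15
    )
  rw [h]
  decide
theorem qc_cnt : cntL2 (condAll chQ 2 qctts) = 7128 := by
  have h := cntL2_of_parts (Q := condAll chQ 2 qctts) (f := fun i => [752, 536, 536, 376, 536, 376, 376, 392, 536, 376, 376, 392, 376, 392, 392, 408].getD i 0) (by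
    intro i hi
    interval_cases i
    · exact qc_cnt0
    · exact qc_cnt1
    · exact qc_cnt2
    · exact qc_cnt3
    · exact qc_cnt4
    · exact qc_cnt5
    · exact qc_cnt6
    · exact qc_cnt7
    · exact qc_cnt8
    · exact qc_cnt9
    · exact qc_cnt10
    · exact qc_cnt11
    · exact qc_cnt12
    · exact qc_cnt13
    · exact qc_cnt14
    · exact qc_cnt15
    )
  rw [h]
  decide
theorem qd_cnt : cntL2 (condAll chQ 2 qdtts) = 15400 := by
  have h := cntL2_of_parts (Q := condAll chQ 2 qdtts) (f := fun i => [2080, 1480, 1480, 840, 1480, 840, 840, 536, 1480, 840, 840, 536, 840, 536, 536, 216].getD i 0) (by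
    intro i hi
    interval_cases i
    · exact qd_cnt0
    · exact qd_cnt1
    · exact qd_cnt2
    · exact qd_cnt3
    · exact qd_cnt4
    · exact qd_cnt5
    · exact qd_cnt6
    · exact qd_cnt7
    · exact qd_cnt8
    · exact qd_cnt9
    · exact qd_cnt10
    · exact qd_cnt11
    · exact qd_cnt12
    · exact qd_cnt13
    · exact qd_cnt14
    · exact qd_cnt15
    )
  rw [h]
  decide
theorem qe_cnt : cntL2 (condAll chQ 2 qetts) = 22275 := by
  have h := cntL2_of_parts (Q := condAll chQ 2 qetts) (f := fun i => [2375, 1840, 1840, 1232, 1840, 1232, 1232, 1072, 1840, 1232, 1232, 1072, 1232, 1072, 1072, 860].getD i 0) (by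
    intro i hi
    interval_cases i
    · exact qe_cnt0
    · exact qe_cnt1
    · exact qe_cnt2
    · exact qe_cnt3
    · exact qe_cnt4
    · exact qe_cnt5
    · exact qe_cnt6
    · exact qe_cnt7
    · exact qe_cnt8
    · exact qe_cnt9
    · exact qe_cnt10
    · exact qe_cnt11
    · exact qe_cnt12
    · exact qe_cnt13
    · exact qe_cnt14
    · exact qe_cnt15
    )
  rw [h]
  decide
end Cfsg.Agent.Lib.Helper11
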