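import Mathlib
import Cfsg.Prelude.Def_SporadicCombinatorics
import Cfsg.Agent.Lib.Helper11.M24Sets2

set_option autoImplicit false

namespace Cfsg.Agent.Lib.Helper11

open Cfsg Cfsg.Agent.Lib.Helper3
open scoped Pointwise

/-- the octads as a finite set. -/
noncomputable def octF : Finset (Finset GolayPt) := (Set.toFinite octads).toFinset

theorem mem_octF {o : Finset GolayPt} : o ∈ octF ↔ o ∈ octads := Set.Finite.mem_toFinset _

theorem card_octF : octF.card = 759 := by
  rw [octF, ← Set.ncard_eq_toFinset_card, ncard_octads]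

/-- the octads containing a set. -/
noncomputable def octsOf (t : Finset GolayPt) : Finset (Finset GolayPt) :=
  octF.filter (fun o => t ⊆ o)

theorem mem_octsOf {t o : Finset GolayPt} : o ∈ octsOf t ↔ o ∈ octads ∧ t ⊆ o := by
  rw [octsOf, Finset.mem_filter, mem_octF]

theorem card_octsOf {t : Finset GolayPt} (ht : t.card = 4) : (octsOf t).card = 5 := by
  rw [← ncard_octads_sup4 t ht, ← Set.ncard_coe_finset]
  congr 1
  ext o
  simp [mem_octsOf]

/-- the sextet of a tetrad. -/
noncomputable def sextetOf (t : Finset GolayPt) : Finset (Finset GolayPt) :=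
  insert t ((octsOf t).image (fun o => o \ t))

theorem inter_eq_of_octsOf {t o o' : Finset GolayPt} (ht : t.card = 4) (ho : o ∈ octsOf t)
    (ho' : o' ∈ octsOf t) (hne : o ≠ o') : o ∩ o' = t := by
  rw [mem_octsOf] at ho ho'
  have h1 : t ⊆ o ∩ o' := Finset.subset_inter ho.2 ho'.2
  have h2 := Finset.card_le_card h1
  symm
  apply Finset.eq_of_subset_of_card_le h1
  rcases octad_inter_cases ho.1 ho'.1 with h | h | h | h
  · exact absurd h.symm hne
  all_goals omega

theorem card_sdiff_octsOf {t o : Finset GolayPt} (ht : t.card = 4) (ho : o ∈ octsOf t) :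
    (o \ t).card = 4 := by
  rw [mem_octsOf] at ho
  rw [Finset.card_sdiff_of_subset ho.2, ho.1.2, ht]

theorem union_mem_octads_of_disjoint {a b : Finset GolayPt} (ha : a ∈ CS) (hb : b ∈ CS)
    (hc : (symmDiff a b).card = 8) : symmDiff a b ∈ octads :=
  ⟨supports_symmDiff ha hb, hc⟩

theorem sextetOf_mem {t : Finset GolayPt} (ht : t.card = 4) : sextetOf t ∈ sextets := by
  have hinj : Set.InjOn (fun o : Finset GolayPt => o \ t) (octsOf t) := by
    intro o ho o' ho' h
    have h1 := (mem_octsOf.1 ho).2
    have h2 := (mem_octsOf.1 ho').2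
    simp only at h
    rw [← Finset.sdiff_union_of_subset h1, h, Finset.sdiff_union_of_subset h2]
  have hnot : t ∉ (octsOf t).image (fun o => o \ t) := by
    intro h
    obtain ⟨o, ho, h⟩ := Finset.mem_image.1 h
    have h1 : (o \ t) ∩ t = ∅ := Finset.sdiff_inter_self _ _
    rw [h, Finset.inter_self] at h1
    rw [h1] at ht
    simp at ht
  refine ⟨?_, ?_, ?_⟩
  · rw [sextetOf, Finset.card_insert_of_notMem hnot, Finset.card_image_of_injOn hinj,
      card_octsOf ht]
  · intro u hu
    rcases Finset.mem_insert.1 hu with rfl | hu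
    · exact ht
    · obtain ⟨o, ho, rfl⟩ := Finset.mem_image.1 hu
      exact card_sdiff_octsOf ht ho
  · have key1 : ∀ o ∈ octsOf t, t ∪ o \ t ∈ octads := by
      intro o ho
      rw [Finset.union_sdiff_of_subset (mem_octsOf.1 ho).2]
      exact (mem_octsOf.1 ho).1
    intro u hu v hv hne
    rcases Finset.mem_insert.1 hu with rfl | hu
    · rcases Finset.mem_insert.1 hv with rfl | hv
      · exact absurd rfl hne
      · obtain ⟨o, ho, rfl⟩ := Finset.mem_image.1 hv
        exact key1 o ho
    · obtain ⟨o, ho, rfl⟩ := Finset.mem_image.1 hu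
      rcases Finset.mem_insert.1 hv with rfl | hv
      · rw [Finset.union_comm]; exact key1 o ho
      · obtain ⟨o', ho', rfl⟩ := Finset.mem_image.1 hv
        have hoo : o ≠ o' := fun h => hne (by rw [h])
        have hi := inter_eq_of_octsOf ht ho ho' hoo
        have h1 : o \ t ∪ o' \ t = symmDiff o o' := by
          rw [← hi]
          ext p
          simp only [Finset.mem_union, Finset.mem_sdiff, Finset.mem_inter, Finset.mem_symmDiff]
          tauto
        rw [h1]
        apply union_mem_octads_of_disjoint (mem_octsOf.1 ho).1.1 (mem_octsOf.1 ho').1.1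
        have h2 := card_symmDiff_add o o'
        rw [hi, ht, (mem_octsOf.1 ho).1.2, (mem_octsOf.1 ho').1.2] at h2
        omega

theorem self_mem_sextetOf (t : Finset GolayPt) : t ∈ sextetOf t := Finset.mem_insert_self _ _

theorem sextet_disjoint {S : Finset (Finset GolayPt)} (hS : S ∈ sextets) {t u : Finset GolayPt}
    (ht : t ∈ S) (hu : u ∈ S) (hne : t ≠ u) : Disjoint t u := by
  have h1 := (hS.2.2 t ht u hu hne).2
  have h2 := Finset.card_union_add_card_inter t u
  rw [h1, hS.2.1 t ht, hS.2.1 u hu] at h2
  rw [Finset.disjoint_iff_inter_eq_empty, ← Finset.card_eq_zero]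
  omega

theorem sextet_eq {S : Finset (Finset GolayPt)} (hS : S ∈ sextets) {t : Finset GolayPt}
    (ht : t ∈ S) : S = sextetOf t := by
  have ht4 := hS.2.1 t ht
  apply Finset.eq_of_subset_of_card_le
  · intro u hu
    by_cases hne : u = t
    · rw [hne]; exact self_mem_sextetOf t
    · apply Finset.mem_insert_of_mem
      refine Finset.mem_image.2 ⟨t ∪ u, mem_octsOf.2 ⟨hS.2.2 t ht u hu (Ne.symm hne),
        Finset.subset_union_left⟩, ?_⟩
      have hd := sextet_disjoint hS ht hu (Ne.symm hne)
      exact Finset.union_sdiff_cancel_left hd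
  · rw [(sextetOf_mem ht4).1, hS.1]

theorem existsUnique_sextet {t : Finset GolayPt} (ht : t.card = 4) :
    ∃! S : Finset (Finset GolayPt), S ∈ sextets ∧ t ∈ S :=
  ⟨sextetOf t, ⟨sextetOf_mem ht, self_mem_sextetOf t⟩, fun _ hS => sextet_eq hS.1 hS.2⟩

/-- the sextets as a finite set. -/
noncomputable def sextF : Finset (Finset (Finset GolayPt)) := (Set.toFinite sextets).toFinset

theorem mem_sextF {S : Finset (Finset GolayPt)} : S ∈ sextF ↔ S ∈ sextets :=
  Set.Finite.mem_toFinset _

theorem ncard_sextets : sextets.ncard = 1771 := by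
  classical
  rw [Set.ncard_eq_toFinset_card _ (Set.toFinite sextets)]
  show sextF.card = 1771
  have h1 : ((Finset.univ : Finset GolayPt).powersetCard 4).card = 10626 := by
    rw [Finset.card_powersetCard]; rfl
  have h2 := Finset.card_eq_sum_card_fiberwise (s := (Finset.univ : Finset GolayPt).powersetCard 4)
    (t := sextF) (f := sextetOf) (by
      intro t ht
      exact mem_sextF.2 (sextetOf_mem (Finset.mem_powersetCard.1 ht).2))
  rw [h1, Finset.sum_const_nat (m := 6)] at h2
  · omega
  · intro S hS
    rw [mem_sextF] at hS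
    have : ((Finset.univ : Finset GolayPt).powersetCard 4).filter (fun t => sextetOf t = S) = S := by
      ext t
      rw [Finset.mem_filter, Finset.mem_powersetCard]
      constructor
      · rintro ⟨-, rfl⟩
        exact self_mem_sextetOf t
      · intro ht
        exact ⟨⟨Finset.subset_univ _, hS.2.1 t ht⟩, (sextet_eq hS ht).symm⟩
    rw [this, hS.1]

end Cfsg.Agent.Lib.Helper11
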