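import Mathlib
import Cfsg.Agent.Lib.Helper21.FrobCount

set_option autoImplicit false

namespace Cfsg.Agent.Lib.Helper11

open Subgroup

/-- a transitive action on an invariant finite set whose suborbits are given by a colouring. -/
structure SubOrb (G : Type*) {α : Type*} [Group G] [MulAction G α] (Δ : Set α) (a : α) {m : ℕ}
    (c : α → Fin m) (k : Fin m → ℕ) : Prop where
  fin : Δ.Finite
  mem : a ∈ Δ
  inv : ∀ (g : G), ∀ x ∈ Δ, g • x ∈ Δ
  trans : ∀ x ∈ Δ, ∃ g : G, g • a = x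
  card : ∀ j, {x | x ∈ Δ ∧ x ≠ a ∧ c x = j}.ncard = k j
  sub : ∀ x ∈ Δ, ∀ y ∈ Δ, x ≠ a → y ≠ a → c x = c y → ∃ g : G, g • a = a ∧ g • x = y

section

variable {G α : Type*} [Group G] [MulAction G α] {Δ : Set α} {a : α} {m : ℕ}
  {c : α → Fin m} {k : Fin m → ℕ}

/-- a subset invariant under the point stabiliser is a union of suborbits. -/
theorem SubOrb.union (h : SubOrb G Δ a c k) (T : Set α) (hT : T ⊆ Δ) (haT : a ∈ T)
    (hinv : ∀ g : G, g • a = a → ∀ x ∈ T, g • x ∈ T) :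
    ∃ J : Finset (Fin m), T.ncard = 1 + ∑ j ∈ J, k j ∧
      ∀ x ∈ Δ, x ≠ a → (x ∈ T ↔ c x ∈ J) := by
  classical
  set J : Finset (Fin m) := Finset.univ.filter (fun j => ∃ x ∈ T, x ≠ a ∧ c x = j) with hJ
  have hiff : ∀ x ∈ Δ, x ≠ a → (x ∈ T ↔ c x ∈ J) := by
    intro x hx hxa
    constructor
    · intro hxT
      rw [hJ, Finset.mem_filter]
      exact ⟨Finset.mem_univ _, x, hxT, hxa, rfl⟩
    · intro hc
      rw [hJ, Finset.mem_filter] at hc
      obtain ⟨_, y, hyT, hya, hyc⟩ := hc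
      obtain ⟨g, hg1, hg2⟩ := h.sub y (hT hyT) x hx hya hxa hyc
      rw [← hg2]
      exact hinv g hg1 y hyT
  refine ⟨J, ?_, hiff⟩
  have hTfin : T.Finite := h.fin.subset hT
  have e : T = insert a (⋃ j ∈ J, {x | x ∈ Δ ∧ x ≠ a ∧ c x = j}) := by
    ext x
    simp only [Set.mem_insert_iff, Set.mem_iUnion, Set.mem_setOf_eq, exists_prop]
    constructor
    · intro hx
      by_cases hxa : x = a
      · exact Or.inl hxa
      · exact Or.inr ⟨c x, (hiff x (hT hx) hxa).1 hx, hT hx, hxa, rfl⟩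
    · rintro (rfl | ⟨j, hj, hx, hxa, rfl⟩)
      · exact haT
      · exact (hiff x hx hxa).2 hj
  have hfinj : ∀ j, {x | x ∈ Δ ∧ x ≠ a ∧ c x = j}.Finite := fun j => h.fin.subset (fun x hx => hx.1)
  have hU : (⋃ j ∈ J, {x | x ∈ Δ ∧ x ≠ a ∧ c x = j}).ncard = ∑ j ∈ J, k j := by
    have e2 : (⋃ j ∈ J, {x | x ∈ Δ ∧ x ≠ a ∧ c x = j}) =
        ↑(J.biUnion (fun j => (hfinj j).toFinset)) := by
      ext x
      simp
    rw [e2, Set.ncard_coe_finset, Finset.card_biUnion]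
    · apply Finset.sum_congr rfl
      intro j _
      rw [← h.card j, Set.ncard_eq_toFinset_card _ (hfinj j)]
    · intro i _ j _ hij
      show Disjoint (hfinj i).toFinset (hfinj j).toFinset
      rw [Finset.disjoint_left]
      intro x hx hx'
      simp only [Set.Finite.mem_toFinset, Set.mem_setOf_eq] at hx hx'
      exact hij (hx.2.2.symm.trans hx'.2.2)
  have hUf : (⋃ j ∈ J, {x | x ∈ Δ ∧ x ≠ a ∧ c x = j}).Finite :=
    Set.Finite.biUnion J.finite_toSet (fun j _ => hfinj j)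
  have hna : a ∉ (⋃ j ∈ J, {x | x ∈ Δ ∧ x ≠ a ∧ c x = j}) := by simp
  rw [e, Set.ncard_insert_of_notMem hna hUf, hU, add_comm]

theorem SubOrb.orbit_eq (h : SubOrb G Δ a c k) : MulAction.orbit G a = Δ := by
  ext x
  constructor
  · rintro ⟨g, rfl⟩
    exact h.inv g a h.mem
  · intro hx
    obtain ⟨g, hg⟩ := h.trans x hx
    exact ⟨g, hg⟩

/-- the orbit of the base point under a normal subgroup. -/
theorem SubOrb.normal_orbit [Finite G] (h : SubOrb G Δ a c k) (N : Subgroup G) [hN : N.Normal] :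
    ∃ J : Finset (Fin m), (1 + ∑ j ∈ J, k j) ∣ Δ.ncard ∧
      ∀ x ∈ Δ, x ≠ a → ((∃ n ∈ N, n • a = x) ↔ c x ∈ J) := by
  set O : Set α := {x | ∃ n ∈ N, n • a = x} with hO
  have hOΔ : O ⊆ Δ := by
    rintro x ⟨n, _, rfl⟩
    exact h.inv n a h.mem
  have haO : a ∈ O := ⟨1, N.one_mem, one_smul _ _⟩
  have hinv : ∀ g : G, g • a = a → ∀ x ∈ O, g • x ∈ O := by
    rintro g hg x ⟨n, hn, rfl⟩
    refine ⟨g * n * g⁻¹, hN.conj_mem n hn g, ?_⟩
    rw [mul_smul, mul_smul, inv_smul_eq_iff.2 hg.symm]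
  obtain ⟨J, hJ1, hJ2⟩ := h.union O hOΔ haO hinv
  refine ⟨J, ?_, hJ2⟩
  rw [← hJ1]
  -- the subgroup `N * stabiliser`
  let K : Subgroup G :=
    { carrier := {g | g • a ∈ O}
      one_mem' := by
        show (1 : G) • a ∈ O
        rw [one_smul]; exact haO
      mul_mem' := by
        rintro g1 g2 ⟨n1, hn1, e1⟩ ⟨n2, hn2, e2⟩
        refine ⟨g1 * n2 * g1⁻¹ * n1, N.mul_mem (hN.conj_mem n2 hn2 g1) hn1, ?_⟩
        rw [mul_smul, e1, mul_smul, mul_smul, inv_smul_smul, e2, mul_smul]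
      inv_mem' := by
        rintro g ⟨n, hn, e⟩
        refine ⟨g⁻¹ * n⁻¹ * g⁻¹⁻¹, hN.conj_mem _ (N.inv_mem hn) g⁻¹, ?_⟩
        rw [inv_inv, mul_smul, mul_smul, ← e, inv_smul_smul] }
  have hHK : MulAction.stabilizer G a ≤ K := by
    intro g hg
    show g • a ∈ O
    rw [MulAction.mem_stabilizer_iff.1 hg]; exact haO
  have e1 : MulAction.orbit K a = O := by
    ext x
    constructor
    · rintro ⟨g, rfl⟩
      exact g.2
    · rintro ⟨n, hn, rfl⟩
      exact ⟨⟨n, n, hn, rfl⟩, rfl⟩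
  have e2 : (MulAction.stabilizer G a).relIndex K = O.ncard := by
    rw [← e1, ← MulAction.index_stabilizer]
    rfl
  have e3 := Subgroup.relIndex_mul_index hHK
  rw [MulAction.index_stabilizer, h.orbit_eq, e2] at e3
  exact ⟨_, e3.symm⟩

/-- a transitive normal subgroup is everything, if the point stabiliser is simple and the
numerical conditions exclude a regular normal subgroup. -/
theorem SubOrb.normal_top [Finite G] (h : SubOrb G Δ a c k)
    (hpos : ∀ j, k j ≠ 0)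
    (hs : IsSimpleGroup (MulAction.stabilizer G a)) (N : Subgroup G) [hN : N.Normal]
    (htr : ∀ x ∈ Δ, ∃ n ∈ N, n • a = x) (d1 d2 : ℕ) (hd1 : d1 ∣ Δ.ncard) (hd2 : d2 ∣ Δ.ncard)
    (hcop : Nat.Coprime d1 d2)
    (hreg : ∀ J1 J2 : Finset (Fin m), Disjoint J1 J2 → d1 ∣ 1 + ∑ j ∈ J1, k j →
      d2 ∣ 1 + ∑ j ∈ J2, k j → False) : N = ⊤ := by
  rcases hs.eq_bot_or_eq_top_of_normal (N.subgroupOf (MulAction.stabilizer G a)) inferInstance
    with h2 | h2
  · exfalso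
    rw [Subgroup.subgroupOf_eq_bot] at h2
    have hdisj : ∀ n ∈ N, n • a = a → n = 1 := by
      intro n hn hna
      exact Subgroup.disjoint_def.1 h2 hn hna
    have hinj : ∀ n1 ∈ N, ∀ n2 ∈ N, n1 • a = n2 • a → n1 = n2 := by
      intro n1 hn1 n2 hn2 e
      have : n2⁻¹ * n1 = 1 := by
        apply hdisj _ (N.mul_mem (N.inv_mem hn2) hn1)
        rw [mul_smul, e, inv_smul_smul]
      exact (inv_mul_eq_one.1 this).symm
    have hcardN : Nat.card N = Δ.ncard := by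
      have e1 : MulAction.orbit N a = Δ := by
        ext x
        constructor
        · rintro ⟨n, rfl⟩
          exact h.inv n.1 a h.mem
        · intro hx
          obtain ⟨n, hn, e⟩ := htr x hx
          exact ⟨⟨n, hn⟩, e⟩
      rw [← e1, ← MulAction.index_stabilizer]
      have h3 : MulAction.stabilizer N a = ⊥ := by
        rw [Subgroup.eq_bot_iff_forall]
        intro n hn
        apply Subtype.ext
        exact hdisj n.1 n.2 hn
      rw [h3, Subgroup.index_bot]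
    -- the sets of solutions of `x ^ d = 1`
    have key : ∀ d : ℕ, d ∣ Δ.ncard → ∃ J : Finset (Fin m), d ∣ 1 + ∑ j ∈ J, k j ∧
        ∀ x ∈ Δ, x ≠ a → ((∃ n ∈ N, n ^ d = 1 ∧ n • a = x) ↔ c x ∈ J) := by
      intro d hd
      set T : Set α := {x | ∃ n ∈ N, n ^ d = 1 ∧ n • a = x} with hT
      obtain ⟨J, hJ1, hJ2⟩ := h.union T
        (by
          rintro x ⟨n, _, _, rfl⟩
          exact h.inv n a h.mem)
        ⟨1, N.one_mem, one_pow _, one_smul _ _⟩
        (by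
          rintro g hg x ⟨n, hn, hnd, rfl⟩
          refine ⟨g * n * g⁻¹, hN.conj_mem n hn g, ?_, ?_⟩
          · rw [conj_pow, hnd]; group
          · rw [mul_smul, mul_smul, inv_smul_eq_iff.2 hg.symm])
      refine ⟨J, ?_, hJ2⟩
      rw [← hJ1]
      have hfr := Cfsg.Agent.Lib.Helper21.frobenius_dvd (G := N) d (by rw [hcardN]; exact hd)
      have e : Nat.card {g : N // g ^ d = 1} = T.ncard := by
        rw [← Nat.card_coe_set_eq]
        apply Nat.card_congr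
        refine Equiv.ofBijective (fun g => ⟨(g.1 : G) • a, g.1.1, g.1.2, ?_, rfl⟩) ⟨?_, ?_⟩
        · exact congrArg Subtype.val g.2
        · intro g g' e
          have e' : (g.1 : G) • a = (g'.1 : G) • a := congrArg Subtype.val e
          exact Subtype.ext (Subtype.ext (hinj _ g.1.2 _ g'.1.2 e'))
        · rintro ⟨x, n, hn, hnd, rfl⟩
          exact ⟨⟨⟨n, hn⟩, Subtype.ext hnd⟩, rfl⟩
      rwa [e] at hfr
    obtain ⟨J1, hJ1, hJ1'⟩ := key d1 hd1
    obtain ⟨J2, hJ2, hJ2'⟩ := key d2 hd2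
    apply hreg J1 J2 _ hJ1 hJ2
    rw [Finset.disjoint_left]
    intro j hj1 hj2
    -- a point of colour `j`
    have hex : ∃ x, x ∈ Δ ∧ x ≠ a ∧ c x = j := by
      have hne : {x | x ∈ Δ ∧ x ≠ a ∧ c x = j}.Nonempty :=
        Set.nonempty_of_ncard_ne_zero (by rw [h.card j]; exact hpos j)
      exact hne
    · obtain ⟨x, hx, hxa, rfl⟩ := hex
      obtain ⟨n1, hn1, hp1, e1⟩ := (hJ1' x hx hxa).2 hj1
      obtain ⟨n2, hn2, hp2, e2⟩ := (hJ2' x hx hxa).2 hj2
      have e : n1 = n2 := hinj n1 hn1 n2 hn2 (e1.trans e2.symm)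
      subst e
      have h1 : orderOf n1 ∣ d1 := orderOf_dvd_of_pow_eq_one hp1
      have h2' : orderOf n1 ∣ d2 := orderOf_dvd_of_pow_eq_one hp2
      have h3 : orderOf n1 = 1 := Nat.eq_one_of_dvd_coprimes hcop h1 h2'
      rw [orderOf_eq_one_iff] at h3
      rw [h3, one_smul] at e1
      exact hxa e1.symm
  · rw [Subgroup.subgroupOf_eq_top] at h2
    rw [eq_top_iff]
    intro g _
    obtain ⟨n, hn, e⟩ := htr (g • a) (h.inv g a h.mem)
    have h3 : n⁻¹ * g ∈ MulAction.stabilizer G a := by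
      rw [MulAction.mem_stabilizer_iff, mul_smul, ← e, inv_smul_smul]
    have h4 := N.mul_mem hn (h2 h3)
    rwa [mul_inv_cancel_left] at h4

theorem SubOrb.card_eq [Finite G] (h : SubOrb G Δ a c k) :
    Nat.card G = Nat.card (MulAction.stabilizer G a) * Δ.ncard := by
  rw [← h.orbit_eq, ← MulAction.index_stabilizer, Subgroup.card_mul_index]

/-- a normal subgroup fixing the base point is trivial. -/
theorem SubOrb.normal_bot [Finite G] (h : SubOrb G Δ a c k)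
    (hs : IsSimpleGroup (MulAction.stabilizer G a)) (j0 : Fin m) (hj0 : 2 ≤ k j0)
    (N : Subgroup G) [hN : N.Normal] (hfix : ∀ n ∈ N, n • a = a) : N = ⊥ := by
  rcases hs.eq_bot_or_eq_top_of_normal (N.subgroupOf (MulAction.stabilizer G a)) inferInstance
    with h2 | h2
  · rw [Subgroup.subgroupOf_eq_bot] at h2
    rw [Subgroup.eq_bot_iff_forall]
    intro n hn
    exact Subgroup.disjoint_def.1 h2 hn (hfix n hn)
  · exfalso
    rw [Subgroup.subgroupOf_eq_top] at h2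
    have hfin : {x | x ∈ Δ ∧ x ≠ a ∧ c x = j0}.Finite := h.fin.subset (fun x hx => hx.1)
    have h1 : 1 < {x | x ∈ Δ ∧ x ≠ a ∧ c x = j0}.ncard := by rw [h.card j0]; omega
    obtain ⟨x, hx, y, hy, hxy⟩ := (Set.one_lt_ncard hfin).1 h1
    obtain ⟨g, hg1, hg2⟩ := h.sub x hx.1 y hy.1 hx.2.1 hy.2.1 (hx.2.2.trans hy.2.2.symm)
    obtain ⟨t, ht⟩ := h.trans x hx.1
    have hgN : g ∈ N := h2 hg1
    have h3 := hfix _ (hN.conj_mem g hgN t⁻¹)
    rw [inv_inv, mul_smul, mul_smul, ht, hg2, inv_smul_eq_iff, ht] at h3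
    exact hxy h3.symm

/-- simplicity from the suborbits. -/
theorem SubOrb.simple [Finite G] (h : SubOrb G Δ a c k) (hpos : ∀ j, k j ≠ 0)
    (hs : IsSimpleGroup (MulAction.stabilizer G a)) (j0 : Fin m) (hj0 : 2 ≤ k j0)
    (hprim : ∀ J : Finset (Fin m), (1 + ∑ j ∈ J, k j) ∣ Δ.ncard → J = ∅ ∨ J = Finset.univ)
    (d1 d2 : ℕ) (hd1 : d1 ∣ Δ.ncard) (hd2 : d2 ∣ Δ.ncard) (hcop : Nat.Coprime d1 d2)
    (hreg : ∀ J1 J2 : Finset (Fin m), Disjoint J1 J2 → d1 ∣ 1 + ∑ j ∈ J1, k j →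
      d2 ∣ 1 + ∑ j ∈ J2, k j → False) : IsSimpleGroup G := by
  have hnt : Nontrivial G := by
    obtain ⟨x, y, hxy⟩ := hs.toNontrivial.exists_pair_ne
    exact ⟨⟨x.1, y.1, fun hc => hxy (Subtype.ext hc)⟩⟩
  refine ⟨fun N hNn => ?_⟩
  obtain ⟨J, hJ1, hJ2⟩ := h.normal_orbit N
  rcases hprim J hJ1 with rfl | rfl
  · left
    apply h.normal_bot hs j0 hj0 N
    intro n hn
    by_contra hne
    have := (hJ2 (n • a) (h.inv n a h.mem) hne).1 ⟨n, hn, rfl⟩
    simp at this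
  · right
    apply h.normal_top hpos hs N _ d1 d2 hd1 hd2 hcop hreg
    intro x hx
    by_cases hxa : x = a
    · exact ⟨1, N.one_mem, by rw [one_smul, hxa]⟩
    · exact (hJ2 x hx hxa).2 (Finset.mem_univ _)

end

end Cfsg.Agent.Lib.Helper11
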