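import Mathlib
import Cfsg.Agent.Lib.Helper11.SubOrb
import Cfsg.Agent.Lib.Helper11.Mono22

set_option autoImplicit false

namespace Cfsg.Agent.Lib.Helper11

open Cfsg Cfsg.Agent.Lib.Helper3
open scoped Pointwise

/-- suborbits distinguished by inner products with the base point. -/
theorem subOrb_of_dots (G : Subgroup ↥Co0) (Δ : Set ↥leechLattice) (a : ↥leechLattice) {m : ℕ}
    [NeZero m] (vals : Fin m → ℤ) (hinj : Function.Injective vals) (k : Fin m → ℕ)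
    (hfin : Δ.Finite) (ha : a ∈ Δ) (hinv : ∀ g ∈ G, ∀ x ∈ Δ, g • x ∈ Δ)
    (htrans : ∀ x ∈ Δ, ∃ g ∈ G, g • a = x)
    (hall : ∀ x ∈ Δ, x ≠ a → ∃ j, dotInt a.1 x.1 = vals j)
    (hcard : ∀ j, {x | x ∈ Δ ∧ x ≠ a ∧ dotInt a.1 x.1 = vals j}.ncard = k j)
    (hsub : ∀ j, ∀ x ∈ Δ, ∀ y ∈ Δ, x ≠ a → y ≠ a → dotInt a.1 x.1 = vals j →
      dotInt a.1 y.1 = vals j → ∃ g ∈ G, g • a = a ∧ g • x = y) :
    ∃ c : ↥leechLattice → Fin m, SubOrb ↥G Δ a c k := by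
  classical
  let c : ↥leechLattice → Fin m := fun x =>
    if h : ∃ j, dotInt a.1 x.1 = vals j then h.choose else 0
  have hc : ∀ x j, dotInt a.1 x.1 = vals j → c x = j := by
    intro x j hj
    have h : ∃ j, dotInt a.1 x.1 = vals j := ⟨j, hj⟩
    show (if h : ∃ j, dotInt a.1 x.1 = vals j then h.choose else 0) = j
    rw [dif_pos h]
    exact hinj (h.choose_spec.symm.trans hj)
  have hc' : ∀ x ∈ Δ, x ≠ a → dotInt a.1 x.1 = vals (c x) := by
    intro x hx hxa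
    obtain ⟨j, hj⟩ := hall x hx hxa
    rw [hc x j hj]; exact hj
  refine ⟨c, hfin, ha, fun g x hx => hinv g.1 g.2 x hx, ?_, ?_, ?_⟩
  · intro x hx
    obtain ⟨g, hg, e⟩ := htrans x hx
    exact ⟨⟨g, hg⟩, e⟩
  · intro j
    rw [← hcard j]
    congr 1
    ext x
    constructor
    · rintro ⟨h1, h2, h3⟩
      exact ⟨h1, h2, by rw [← h3]; exact hc' x h1 h2⟩
    · rintro ⟨h1, h2, h3⟩
      exact ⟨h1, h2, hc x j h3⟩
  · intro x hx y hy hxa hya hxy
    obtain ⟨g, hg, e1, e2⟩ := hsub (c x) x hx y hy hxa hya (hc' x hx hxa)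
      (by rw [hxy]; exact hc' y hy hya)
    exact ⟨⟨g, hg⟩, e1, e2⟩

/-- the classes exhaust the set when the sizes add up. -/
theorem hall_of_sum (Δ : Set ↥leechLattice) (a : ↥leechLattice) {m : ℕ}
    (vals : Fin m → ℤ) (hinj : Function.Injective vals) (k : Fin m → ℕ)
    (hfin : Δ.Finite) (ha : a ∈ Δ)
    (hcard : ∀ j, {x | x ∈ Δ ∧ x ≠ a ∧ dotInt a.1 x.1 = vals j}.ncard = k j)
    (hsum : 1 + ∑ j, k j = Δ.ncard) :
    ∀ x ∈ Δ, x ≠ a → ∃ j, dotInt a.1 x.1 = vals j := by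
  classical
  intro x0 hx0 hx0a
  by_contra hno
  have hfinj : ∀ j, {x | x ∈ Δ ∧ x ≠ a ∧ dotInt a.1 x.1 = vals j}.Finite :=
    fun j => hfin.subset (fun x hx => hx.1)
  have hU : (⋃ j, {x | x ∈ Δ ∧ x ≠ a ∧ dotInt a.1 x.1 = vals j}).ncard = ∑ j, k j := by
    rw [Set.ncard_iUnion_of_finite hfinj, finsum_eq_sum_of_fintype]
    · exact Finset.sum_congr rfl (fun j _ => hcard j)
    · intro i j hij
      show Disjoint _ _
      rw [Set.disjoint_left]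
      intro x hx hx'
      exact hij (hinj (hx.2.2.symm.trans hx'.2.2))
  have hUf : (⋃ j, {x | x ∈ Δ ∧ x ≠ a ∧ dotInt a.1 x.1 = vals j}).Finite :=
    Set.finite_iUnion hfinj
  have h1 : x0 ∉ (⋃ j, {x | x ∈ Δ ∧ x ≠ a ∧ dotInt a.1 x.1 = vals j}) := by
    intro h
    obtain ⟨j, hj⟩ := Set.mem_iUnion.1 h
    exact hno ⟨j, hj.2.2⟩
  have h2 : a ∉ insert x0 (⋃ j, {x | x ∈ Δ ∧ x ≠ a ∧ dotInt a.1 x.1 = vals j}) := by
    intro h
    rcases Set.mem_insert_iff.1 h with h | h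
    · exact hx0a h.symm
    · obtain ⟨j, hj⟩ := Set.mem_iUnion.1 h
      exact hj.2.1 rfl
  have h3 : (insert a (insert x0 (⋃ j, {x | x ∈ Δ ∧ x ≠ a ∧ dotInt a.1 x.1 = vals j}))).ncard =
      (∑ j, k j) + 1 + 1 := by
    rw [Set.ncard_insert_of_notMem h2 (hUf.insert _), Set.ncard_insert_of_notMem h1 hUf, hU]
  have h4 : insert a (insert x0 (⋃ j, {x | x ∈ Δ ∧ x ≠ a ∧ dotInt a.1 x.1 = vals j})) ⊆ Δ := by
    intro x hx
    rcases Set.mem_insert_iff.1 hx with rfl | hx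
    · exact ha
    rcases Set.mem_insert_iff.1 hx with rfl | hx
    · exact hx0
    obtain ⟨j, hj⟩ := Set.mem_iUnion.1 hx
    exact hj.1
  have h5 := Set.ncard_le_ncard h4 hfin
  omega

theorem Co0_sub (g : ↥Co0) (v w : ↥leechLattice) : g • (v - w) = g • v - g • w := by
  rw [sub_eq_add_neg, Co0_add, Co0_neg, ← sub_eq_add_neg]

/-- a vector with three different kinds of entries. -/
def vec3 (α β γ : ℤ) : GolayPt → ℤ := fun i => if i = pt 0 then α else if i = pt 1 then β else γ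

theorem permCh_vec3 (σ : Equiv.Perm GolayPt) (h0 : σ (pt 0) = pt 0) (h1 : σ (pt 1) = pt 1)
    (α β γ : ℤ) : permCh σ (vec3 α β γ) = vec3 α β γ := by
  funext i
  show vec3 α β γ (σ.symm i) = vec3 α β γ i
  unfold vec3
  have e0 : σ.symm i = pt 0 ↔ i = pt 0 := by
    rw [Equiv.symm_apply_eq, h0]
  have e1 : σ.symm i = pt 1 ↔ i = pt 1 := by
    rw [Equiv.symm_apply_eq, h1]
  simp only [e0, e1]

theorem pt01 : pt 0 ≠ pt 1 := by decide

end Cfsg.Agent.Lib.Helper11
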