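import Mathlib
import Cfsg.Agent.Lib.Helper11.SubOrbDot

set_option autoImplicit false

namespace Cfsg.Agent.Lib.Helper11

open Cfsg Cfsg.Agent.Lib.Helper3
open scoped Pointwise

section

variable {G α : Type*} [Group G] [MulAction G α] {Δ : Set α} {a : α} {m : ℕ}
  {c : α → Fin m} {k : Fin m → ℕ}

theorem SubOrb.of_top (h : SubOrb ↥(⊤ : Subgroup G) Δ a c k) : SubOrb G Δ a c k :=
  ⟨h.fin, h.mem, fun g => h.inv ⟨g, Subgroup.mem_top g⟩,
    fun x hx => by
      obtain ⟨g, e⟩ := h.trans x hx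
      exact ⟨g.1, e⟩,
    h.card,
    fun x hx y hy hxa hya hxy => by
      obtain ⟨g, e1, e2⟩ := h.sub x hx y hy hxa hya hxy
      exact ⟨g.1, e1, e2⟩⟩

/-- normal subgroups when the only nontrivial block is the orbit of a central element. -/
theorem SubOrb.normal_center [Finite G] (h : SubOrb G Δ a c k) (hpos : ∀ j, k j ≠ 0)
    (hs : IsSimpleGroup (MulAction.stabilizer G a)) (j0 : Fin m) (hj0 : 3 ≤ k j0) (i0 : Fin m)
    (hprim : ∀ J : Finset (Fin m), (1 + ∑ j ∈ J, k j) ∣ Δ.ncard →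
      J = ∅ ∨ J = {i0} ∨ J = Finset.univ)
    (z : G) (hz : z ∈ Subgroup.center G) (hza : ∀ x ∈ Δ, x ≠ a → c x = i0 → x = z • a)
    (d1 d2 : ℕ) (hd1 : d1 ∣ Δ.ncard) (hd2 : d2 ∣ Δ.ncard) (hcop : Nat.Coprime d1 d2)
    (hreg : ∀ J1 J2 : Finset (Fin m), Disjoint J1 J2 → d1 ∣ 1 + ∑ j ∈ J1, k j →
      d2 ∣ 1 + ∑ j ∈ J2, k j → False) (N : Subgroup G) [hN : N.Normal] :
    N ≤ Subgroup.center G ∨ N = ⊤ := by
  obtain ⟨J, hJ1, hJ2⟩ := h.normal_orbit N
  rcases hprim J hJ1 with rfl | rfl | rfl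
  · left
    have : N = ⊥ := by
      apply h.normal_bot hs j0 (by omega) N
      intro n hn
      by_contra hne
      have := (hJ2 (n • a) (h.inv n a h.mem) hne).1 ⟨n, hn, rfl⟩
      simp at this
    rw [this]; exact bot_le
  · left
    have horb : ∀ n ∈ N, n • a = a ∨ n • a = z • a := by
      intro n hn
      by_cases hne : n • a = a
      · exact Or.inl hne
      · right
        have := (hJ2 (n • a) (h.inv n a h.mem) hne).1 ⟨n, hn, rfl⟩
        exact hza _ (h.inv n a h.mem) hne (Finset.mem_singleton.1 this)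
    rcases hs.eq_bot_or_eq_top_of_normal (N.subgroupOf (MulAction.stabilizer G a)) inferInstance
      with h2 | h2
    · rw [Subgroup.subgroupOf_eq_bot] at h2
      have hdisj : ∀ n ∈ N, n • a = a → n = 1 := by
        intro n hn hna
        exact Subgroup.disjoint_def.1 h2 hn hna
      intro n hn
      rw [Subgroup.mem_center_iff]
      intro g
      rcases horb n hn with h1 | h1
      · rw [hdisj n hn h1]; simp
      · have hm : g * n * g⁻¹ ∈ N := hN.conj_mem n hn g
        rcases horb _ hm with h3 | h3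
        · have h4 := hdisj _ hm h3
          have h5 : n = 1 := by
            have : g * n * g⁻¹ = g * 1 * g⁻¹ := by rw [h4]; group
            exact mul_left_cancel (mul_right_cancel this)
          rw [h5]; simp
        · have h4 : n⁻¹ * (g * n * g⁻¹) = 1 := by
            apply hdisj _ (N.mul_mem (N.inv_mem hn) hm)
            rw [mul_smul, h3, ← h1, inv_smul_smul]
          have h5 : g * n * g⁻¹ = n := (inv_mul_eq_one.1 h4).symm
          calc g * n = g * n * g⁻¹ * g := by group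
            _ = n * g := by rw [h5]
    · exfalso
      rw [Subgroup.subgroupOf_eq_top] at h2
      have hfin : {x | x ∈ Δ ∧ x ≠ a ∧ c x = j0}.Finite := h.fin.subset (fun x hx => hx.1)
      have h1 : 2 < {x | x ∈ Δ ∧ x ≠ a ∧ c x = j0}.ncard := by rw [h.card j0]; omega
      obtain ⟨x, y1, y2, hx, hy1, hy2, hxy1, hxy2, hy12⟩ := (Set.two_lt_ncard_iff hfin).1 h1
      have key : ∀ y, y ∈ {x | x ∈ Δ ∧ x ≠ a ∧ c x = j0} → y ≠ x → y ≠ z • x → False := by
        intro y hy hyx hyz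
        obtain ⟨g, hg1, hg2⟩ := h.sub x hx.1 y hy.1 hx.2.1 hy.2.1 (hx.2.2.trans hy.2.2.symm)
        obtain ⟨t, ht⟩ := h.trans x hx.1
        have hgN : g ∈ N := h2 hg1
        rcases horb _ (hN.conj_mem g hgN t⁻¹) with h3 | h3
        · rw [inv_inv, mul_smul, mul_smul, ht, hg2, inv_smul_eq_iff, ht] at h3
          exact hyx h3
        · rw [inv_inv, mul_smul, mul_smul, ht, hg2, inv_smul_eq_iff, ← mul_smul,
            Subgroup.mem_center_iff.1 hz t, mul_smul, ht] at h3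
          exact hyz h3
      by_cases hc : y1 = z • x
      · exact key y2 hy2 (Ne.symm hxy2) (fun e => hy12 (hc.trans e.symm))
      · exact key y1 hy1 (Ne.symm hxy1) hc
  · right
    apply h.normal_top hpos hs N _ d1 d2 hd1 hd2 hcop hreg
    intro x hx
    by_cases hxa : x = a
    · exact ⟨1, N.one_mem, by rw [one_smul, hxa]⟩
    · exact (hJ2 x hx hxa).2 (Finset.mem_univ _)

end

theorem simple_quot_center {G : Type*} [Group G] (hnt : Nontrivial (G ⧸ Subgroup.center G))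
    (H : ∀ N : Subgroup G, N.Normal → N ≤ Subgroup.center G ∨ N = ⊤) :
    IsSimpleGroup (G ⧸ Subgroup.center G) := by
  refine ⟨fun M hM => ?_⟩
  rcases H (M.comap (QuotientGroup.mk' (Subgroup.center G))) inferInstance with h | h
  · left
    rw [Subgroup.eq_bot_iff_forall]
    intro q hq
    obtain ⟨g, rfl⟩ := QuotientGroup.mk'_surjective _ q
    exact (QuotientGroup.eq_one_iff g).2 (h hq)
  · right
    rw [eq_top_iff]
    intro q _
    obtain ⟨g, rfl⟩ := QuotientGroup.mk'_surjective _ q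
    have : g ∈ M.comap (QuotientGroup.mk' (Subgroup.center G)) := by rw [h]; trivial
    exact this

/-- suborbits distinguished by inner products with the base point. -/
theorem subOrb_of_dots' (G : Subgroup ↥Co0) (Δ : Set ↥leechLattice) (a : ↥leechLattice) {m : ℕ}
    [NeZero m] (vals : Fin m → ℤ) (hinj : Function.Injective vals) (k : Fin m → ℕ)
    (hfin : Δ.Finite) (ha : a ∈ Δ) (hinv : ∀ g ∈ G, ∀ x ∈ Δ, g • x ∈ Δ)
    (htrans : ∀ x ∈ Δ, ∃ g ∈ G, g • a = x)
    (hall : ∀ x ∈ Δ, x ≠ a → ∃ j, dotInt a.1 x.1 = vals j)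
    (hcard : ∀ j, {x | x ∈ Δ ∧ x ≠ a ∧ dotInt a.1 x.1 = vals j}.ncard = k j)
    (hsub : ∀ j, ∀ x ∈ Δ, ∀ y ∈ Δ, x ≠ a → y ≠ a → dotInt a.1 x.1 = vals j →
      dotInt a.1 y.1 = vals j → ∃ g ∈ G, g • a = a ∧ g • x = y) :
    ∃ c : ↥leechLattice → Fin m, SubOrb ↥G Δ a c k ∧
      ∀ x ∈ Δ, x ≠ a → dotInt a.1 x.1 = vals (c x) := by
  classical
  let c : ↥leechLattice → Fin m := fun x =>
    if h : ∃ j, dotInt a.1 x.1 = vals j then h.choose else 0
  have hc : ∀ x j, dotInt a.1 x.1 = vals j → c x = j := by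
    intro x j hj
    have h : ∃ j, dotInt a.1 x.1 = vals j := ⟨j, hj⟩
    show (if h : ∃ j, dotInt a.1 x.1 = vals j then h.choose else 0) = j
    rw [dif_pos h]
    exact hinj (h.choose_spec.symm.trans hj)
  have hc' : ∀ x ∈ Δ, x ≠ a → dotInt a.1 x.1 = vals (c x) := by
    intro x hx hxa
    obtain ⟨j, hj⟩ := hall x hx hxa
    rw [hc x j hj]; exact hj
  refine ⟨c, ⟨hfin, ha, fun g x hx => hinv g.1 g.2 x hx, ?_, ?_, ?_⟩, hc'⟩
  · intro x hx
    obtain ⟨g, hg, e⟩ := htrans x hx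
    exact ⟨⟨g, hg⟩, e⟩
  · intro j
    rw [← hcard j]
    congr 1
    ext x
    constructor
    · rintro ⟨h1, h2, h3⟩
      exact ⟨h1, h2, by rw [← h3]; exact hc' x h1 h2⟩
    · rintro ⟨h1, h2, h3⟩
      exact ⟨h1, h2, hc x j h3⟩
  · intro x hx y hy hxa hya hxy
    obtain ⟨g, hg, e1, e2⟩ := hsub (c x) x hx y hy hxa hya (hc' x hx hxa)
      (by rw [hxy]; exact hc' y hy hya)
    exact ⟨⟨g, hg⟩, e1, e2⟩

end Cfsg.Agent.Lib.Helper11
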