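import Mathlib
import Cfsg.Prelude.Def_SporadicCombinatorics

set_option autoImplicit false
set_option maxRecDepth 100000

/-! The length-12 ternary code: an explicit parametrisation by six coordinates. -/

namespace Cfsg.Agent.Lib.Helper11.TG

open Cfsg

/-- a word from the list of its twelve entries. -/
def tab (l : List (ZMod 3)) : ArrayPt → ZMod 3 := fun p => l.getD (3 * p.1.val + p.2.val) 0

theorem eq_tab (y : ArrayPt → ZMod 3) :
    y = tab [y (0, 0), y (0, 1), y (0, 2), y (1, 0), y (1, 1), y (1, 2), y (2, 0), y (2, 1),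
      y (2, 2), y (3, 0), y (3, 1), y (3, 2)] := by
  funext p
  obtain ⟨i, r⟩ := p
  fin_cases i <;> fin_cases r <;> rfl

/-- the defining conditions, with the tetracode written out. -/
def isTG (x : ArrayPt → ZMod 3) : Prop :=
  ∃ s : ZMod 3, (∀ i : Fin 4, ∑ r : ZMod 3, x (i, r) = -s) ∧
    ∀ a b : ZMod 3, ∑ i : Fin 4, x (i, (a • ![0, 1, 1, 1] + b • ![1, 0, 1, 2] : Fin 4 → ZMod 3) i) = s

instance (x : ArrayPt → ZMod 3) : Decidable (isTG x) := by unfold isTG; infer_instance

theorem mem_iff (x : ArrayPt → ZMod 3) : x ∈ ternaryGolayCode ↔ isTG x := by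
  show IsTernaryGolayWord x ↔ isTG x
  unfold IsTernaryGolayWord isTG
  constructor
  · rintro ⟨s, h1, h2⟩
    refine ⟨s, h1, fun a b => h2 _ ?_⟩
    exact Submodule.mem_span_pair.2 ⟨a, b, rfl⟩
  · rintro ⟨s, h1, h2⟩
    refine ⟨s, h1, fun t ht => ?_⟩
    obtain ⟨a, b, rfl⟩ := Submodule.mem_span_pair.1 ht
    exact h2 a b

/-- the parameter space. -/
abbrev U6 : Type := ZMod 3 × ZMod 3 × ZMod 3 × ZMod 3 × ZMod 3 × ZMod 3

/-- the word with given entries in the six information positions. -/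
def enc (u : U6) : ArrayPt → ZMod 3 :=
  match u with
  | (a, b, c, d, e, f) =>
    tab [a, b, c, d, e, a + b + c + 2 * d + 2 * e, f, 2 * b + c + 2 * d + e + f,
      a + 2 * b + d + 2 * e + f, a + 2 * b + 2 * c + 2 * d + 2 * f, a + c + d + e + 2 * f,
      2 * a + 2 * b + c + 2 * e + 2 * f]

theorem enc_isTG : ∀ u : U6, isTG (enc u) := by decide +kernel

theorem enc_mem (u : U6) : enc u ∈ ternaryGolayCode := (mem_iff _).2 (enc_isTG u)

/-- the information positions of a word. -/
def info (x : ArrayPt → ZMod 3) : U6 := (x (0, 0), x (0, 1), x (0, 2), x (1, 0), x (1, 1), x (2, 0))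

theorem info_enc (u : U6) : info (enc u) = u := rfl

theorem zero_of_info : ∀ a b c d e f : ZMod 3,
    isTG (tab [0, 0, 0, 0, 0, a, 0, b, c, d, e, f]) →
      a = 0 ∧ b = 0 ∧ c = 0 ∧ d = 0 ∧ e = 0 ∧ f = 0 := by decide +kernel

theorem eq_zero_of_info {y : ArrayPt → ZMod 3} (hy : y ∈ ternaryGolayCode) (h : info y = 0) :
    y = 0 := by
  have h' : y (0, 0) = 0 ∧ y (0, 1) = 0 ∧ y (0, 2) = 0 ∧ y (1, 0) = 0 ∧ y (1, 1) = 0 ∧
      y (2, 0) = 0 := by
    simpa [info, Prod.ext_iff] using h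
  obtain ⟨h0, h1, h2, h3, h4, h6⟩ := h'
  have e := eq_tab y
  rw [h0, h1, h2, h3, h4, h6] at e
  have hy' := (mem_iff y).1 hy
  rw [e] at hy'
  obtain ⟨a, b, c, d, e', f⟩ := zero_of_info _ _ _ _ _ _ hy'
  rw [a, b, c, d, e', f] at e
  rw [e]
  funext p
  obtain ⟨i, r⟩ := p
  fin_cases i <;> fin_cases r <;> rfl

theorem info_sub (x y : ArrayPt → ZMod 3) : info (x - y) = info x - info y := rfl

theorem eq_enc {x : ArrayPt → ZMod 3} (hx : x ∈ ternaryGolayCode) : x = enc (info x) := by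
  have h := eq_zero_of_info (ternaryGolayCode.sub_mem hx (enc_mem (info x)))
    (by rw [info_sub, info_enc, sub_self])
  exact sub_eq_zero.1 h

theorem enc_injective : Function.Injective enc := fun u v h => by
  rw [← info_enc u, ← info_enc v, h]

theorem mem_iff_enc (x : ArrayPt → ZMod 3) : x ∈ ternaryGolayCode ↔ ∃ u, enc u = x :=
  ⟨fun h => ⟨info x, (eq_enc h).symm⟩, fun ⟨u, hu⟩ => hu ▸ enc_mem u⟩

/-- counting code words with a decidable property. -/
theorem ncard_code (P : (ArrayPt → ZMod 3) → Prop) [DecidablePred P] :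
    {x : ArrayPt → ZMod 3 | x ∈ ternaryGolayCode ∧ P x}.ncard =
      (Finset.univ.filter fun u : U6 => P (enc u)).card := by
  have : {x : ArrayPt → ZMod 3 | x ∈ ternaryGolayCode ∧ P x} =
      enc '' ((Finset.univ.filter fun u : U6 => P (enc u) : Finset U6) : Set U6) := by
    ext x
    simp only [Set.mem_setOf_eq, Set.mem_image, Finset.coe_filter, Finset.mem_univ, true_and]
    constructor
    · rintro ⟨hx, hP⟩
      exact ⟨info x, by rw [← eq_enc hx]; exact hP, (eq_enc hx).symm⟩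
    · rintro ⟨u, hu, rfl⟩
      exact ⟨enc_mem u, hu⟩
  rw [this, Set.ncard_image_of_injective _ enc_injective, Set.ncard_coe_finset]

end Cfsg.Agent.Lib.Helper11.TG
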