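import Mathlib
import Cfsg.Prelude.Def_SporadicCombinatorics
import Cfsg.Agent.Lib.Helper11.Sextet

set_option autoImplicit false

namespace Cfsg.Agent.Lib.Helper11

open Cfsg Cfsg.Agent.Lib.Helper3
open scoped Pointwise

theorem third_octad {o o' : Finset GolayPt} (ho : o ∈ octads) (ho' : o' ∈ octads)
    (hd : Disjoint o o') : (o ∪ o')ᶜ ∈ octads := by
  refine ⟨?_, ?_⟩
  · apply compl_mem_CS
    have : o ∪ o' = symmDiff o o' := (Disjoint.symmDiff_eq_sup hd).symm
    rw [this]
    exact supports_symmDiff ho.1 ho'.1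
  · rw [Finset.card_compl, Finset.card_union_of_disjoint hd, ho.2, ho'.2]; rfl

/-- the trio spanned by two disjoint octads. -/
def trioOf (o o' : Finset GolayPt) : Finset (Finset GolayPt) := {o, o', (o ∪ o')ᶜ}

theorem octad_ne_of_disjoint {o o' : Finset GolayPt} (ho : o ∈ octads) (hd : Disjoint o o') :
    o ≠ o' := by
  rintro rfl
  rw [disjoint_self] at hd
  have := ho.2
  rw [hd] at this
  simp at this

theorem trioOf_mem {o o' : Finset GolayPt} (ho : o ∈ octads) (ho' : o' ∈ octads)
    (hd : Disjoint o o') : trioOf o o' ∈ trios := by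
  have h3 := third_octad ho ho' hd
  have d1 : Disjoint o (o ∪ o')ᶜ := by
    rw [Finset.disjoint_left]
    intro p hp hc
    exact (Finset.mem_compl.1 hc) (Finset.mem_union_left _ hp)
  have d2 : Disjoint o' (o ∪ o')ᶜ := by
    rw [Finset.disjoint_left]
    intro p hp hc
    exact (Finset.mem_compl.1 hc) (Finset.mem_union_right _ hp)
  refine ⟨?_, ?_, ?_⟩
  · exact Finset.card_eq_three.2 ⟨o, o', (o ∪ o')ᶜ, octad_ne_of_disjoint ho hd,
      octad_ne_of_disjoint ho d1, octad_ne_of_disjoint ho' d2, rfl⟩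
  · intro x hx
    simp only [trioOf, Finset.mem_insert, Finset.mem_singleton] at hx
    rcases hx with rfl | rfl | rfl
    · exact ho
    · exact ho'
    · exact h3
  · intro x hx y hy hne
    simp only [trioOf, Finset.mem_insert, Finset.mem_singleton] at hx hy
    rcases hx with rfl | rfl | rfl <;> rcases hy with rfl | rfl | rfl
    · exact absurd rfl hne
    · exact hd
    · exact d1
    · exact hd.symm
    · exact absurd rfl hne
    · exact d2
    · exact d1.symm
    · exact d2.symm
    · exact absurd rfl hne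

theorem trio_eq {T : Finset (Finset GolayPt)} (hT : T ∈ trios) {o o' : Finset GolayPt}
    (ho : o ∈ T) (ho' : o' ∈ T) (hne : o ≠ o') : T = trioOf o o' := by
  have hd := hT.2.2 o ho o' ho' hne
  have hc : ((T.erase o).erase o').card = 1 := by
    rw [Finset.card_erase_of_mem (Finset.mem_erase.2 ⟨hne.symm, ho'⟩),
      Finset.card_erase_of_mem ho, hT.1]
  obtain ⟨x, hx⟩ := Finset.card_eq_one.1 hc
  have hx' : x ∈ (T.erase o).erase o' := by rw [hx]; simp
  rw [Finset.mem_erase, Finset.mem_erase] at hx'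
  obtain ⟨h1, h2, h3⟩ := hx'
  have hxe : x = (o ∪ o')ᶜ := by
    apply Finset.eq_of_subset_of_card_le
    · intro p hp
      rw [Finset.mem_compl, Finset.mem_union]
      rintro (hc | hc)
      · exact Finset.disjoint_left.1 (hT.2.2 o ho x h3 (Ne.symm h2)) hc hp
      · exact Finset.disjoint_left.1 (hT.2.2 o' ho' x h3 (Ne.symm h1)) hc hp
    · rw [(third_octad (hT.2.1 o ho) (hT.2.1 o' ho') hd).2, (hT.2.1 x h3).2]
  symm
  apply Finset.eq_of_subset_of_card_le
  · intro y hy
    simp only [trioOf, Finset.mem_insert, Finset.mem_singleton] at hy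
    rcases hy with rfl | rfl | rfl
    · exact ho
    · exact ho'
    · rw [← hxe]; exact h3
  · rw [hT.1, (trioOf_mem (hT.2.1 o ho) (hT.2.1 o' ho') hd).1]

/-- the trios as a finite set. -/
noncomputable def trioF : Finset (Finset (Finset GolayPt)) := (Set.toFinite trios).toFinset

theorem mem_trioF {S : Finset (Finset GolayPt)} : S ∈ trioF ↔ S ∈ trios :=
  Set.Finite.mem_toFinset _

theorem card_disjoint_octads {o : Finset GolayPt} (ho : o ∈ octads) :
    (octF.filter (fun x => Disjoint o x)).card = 30 := by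
  rw [← count_octO0_0, ← ncard_oct_inter 0 ho, ← Set.ncard_coe_finset]
  congr 1
  ext x
  simp [mem_octF, Finset.disjoint_iff_inter_eq_empty]

theorem ncard_trios : trios.ncard = 3795 := by
  classical
  rw [Set.ncard_eq_toFinset_card _ (Set.toFinite trios)]
  show trioF.card = 3795
  let P : Finset (Σ _ : Finset GolayPt, Finset GolayPt) :=
    octF.sigma (fun o => octF.filter (fun x => Disjoint o x))
  have h1 : P.card = 22770 := by
    rw [Finset.card_sigma, Finset.sum_const_nat (m := 30), card_octF]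
    intro o ho
    exact card_disjoint_octads (mem_octF.1 ho)
  have hP : ∀ p, p ∈ P ↔ p.1 ∈ octads ∧ p.2 ∈ octads ∧ Disjoint p.1 p.2 := by
    intro p
    simp only [P, Finset.mem_sigma, Finset.mem_filter, mem_octF]
  have h2 := Finset.card_eq_sum_card_fiberwise (s := P) (t := trioF)
    (f := fun p => trioOf p.1 p.2) (by
      intro p hp
      have hp' := (hP p).1 hp
      exact mem_trioF.2 (trioOf_mem hp'.1 hp'.2.1 hp'.2.2))
  rw [h1, Finset.sum_const_nat (m := 6)] at h2
  · omega
  · intro T hT
    rw [mem_trioF] at hT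
    have : P.filter (fun p => trioOf p.1 p.2 = T) =
        T.offDiag.image (fun q => (⟨q.1, q.2⟩ : Σ _ : Finset GolayPt, Finset GolayPt)) := by
      ext p
      rw [Finset.mem_filter, hP, Finset.mem_image]
      constructor
      · rintro ⟨⟨h1, h2, h3⟩, rfl⟩
        refine ⟨(p.1, p.2), ?_, rfl⟩
        rw [Finset.mem_offDiag]
        refine ⟨?_, ?_, octad_ne_of_disjoint h1 h3⟩
        · simp [trioOf]
        · simp [trioOf]
      · rintro ⟨q, hq, rfl⟩
        rw [Finset.mem_offDiag] at hq
        exact ⟨⟨hT.2.1 _ hq.1, hT.2.1 _ hq.2.1, hT.2.2 _ hq.1 _ hq.2.1 hq.2.2⟩,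
          (trio_eq hT hq.1 hq.2.1 hq.2.2).symm⟩
    rw [this, Finset.card_image_of_injective, Finset.offDiag_card, hT.1]
    intro a b hab
    simp only [Sigma.mk.injEq, heq_eq_eq] at hab
    exact Prod.ext hab.1 hab.2

end Cfsg.Agent.Lib.Helper11
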